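import Mathlib
import Cfsg.Agent.Lib.PGLMaxA

/-!
# A subgroup of `PGL₂(p)` with two rotations about perpendicular axes is big.
-/

set_option autoImplicit false
set_option linter.style.haveILetI false
set_option linter.unusedVariables false
set_option linter.unusedSectionVars false

namespace Cfsg.Agent.H28.KlA

open Matrix Subgroup
open Cfsg.Agent.Lib.PGLMaxA

set_option maxRecDepth 100000 in
lemma perm4_prop : ∀ z : Equiv.Perm (Fin 4), z ^ 4 = 1 ∨ z ^ 3 = 1 := by decide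

lemma alt4_prop : ∀ z : alternatingGroup (Fin 4), z ^ 4 = 1 ∨ z ^ 3 = 1 := by
  intro z
  rcases perm4_prop z.1 with h | h
  · left; exact Subtype.ext (by simpa using h)
  · right; exact Subtype.ext (by simpa using h)

set_option maxRecDepth 100000 in
lemma perm5_prop : ∀ z : Equiv.Perm (Fin 5), Equiv.Perm.sign z = 1 → z ^ 2 = 1 ∨ z ^ 3 = 1 ∨ z ^ 5 = 1 := by decide

lemma alt5_prop : ∀ z : alternatingGroup (Fin 5), z ^ 2 = 1 ∨ z ^ 3 = 1 ∨ z ^ 5 = 1 := by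
  intro z
  rcases perm5_prop z.1 (Equiv.Perm.mem_alternatingGroup.mp z.2) with h | h | h
  · left; exact Subtype.ext (by simpa using h)
  · right; left; exact Subtype.ext (by simpa using h)
  · right; right; exact Subtype.ext (by simpa using h)

/-- If `x⁴ = 1` or `x³ = 1` always, an element commuting with an involution has `x⁴ = 1`. -/
lemma comm_invol_43 {G : Type*} [Group G] (hG : ∀ z : G, z ^ 4 = 1 ∨ z ^ 3 = 1) {x y : G} (hxy : x * y = y * x)
    (hy : y ^ 2 = 1) (hy1 : y ≠ 1) : x ^ 4 = 1 := by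
  have hc : Commute x y := hxy
  rcases hG x with h | h
  · exact h
  rcases hG (x * y) with h2 | h2
  · rw [hc.mul_pow] at h2
    have hy4 : y ^ 4 = 1 := by
      calc y ^ 4 = (y ^ 2) ^ 2 := by rw [← pow_mul]
        _ = 1 := by rw [hy, one_pow]
    rwa [hy4, mul_one] at h2
  · exfalso
    rw [hc.mul_pow, h, one_mul] at h2
    apply hy1
    calc y = y ^ 3 * (y ^ 2)⁻¹ := by rw [hy, inv_one, mul_one]; rw [pow_succ, hy, one_mul]
      _ = 1 := by rw [h2, hy, inv_one, mul_one]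

lemma comm_invol_235 {G : Type*} [Group G] (hG : ∀ z : G, z ^ 2 = 1 ∨ z ^ 3 = 1 ∨ z ^ 5 = 1) {x y : G}
    (hxy : x * y = y * x) (hy : y ^ 2 = 1) (hy1 : y ≠ 1) : x ^ 4 = 1 := by
  have hc : Commute x y := hxy
  have y3 : y ^ 3 = y := by rw [pow_succ, hy, one_mul]
  have y5 : y ^ 5 = y := by
    calc y ^ 5 = (y ^ 2) ^ 2 * y := by rw [← pow_mul, ← pow_succ]
      _ = y := by rw [hy, one_pow, one_mul]
  rcases hG x with h | h | h
  · calc x ^ 4 = (x ^ 2) ^ 2 := by rw [← pow_mul]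
      _ = 1 := by rw [h, one_pow]
  · rcases hG (x * y) with h2 | h2 | h2
    · rw [hc.mul_pow, hy, mul_one] at h2
      calc x ^ 4 = (x ^ 2) ^ 2 := by rw [← pow_mul]
        _ = 1 := by rw [h2, one_pow]
    · rw [hc.mul_pow, h, one_mul, y3] at h2
      exact absurd h2 hy1
    · rw [hc.mul_pow, y5] at h2
      have e : x ^ 5 = x ^ 2 := by
        calc x ^ 5 = x ^ 3 * x ^ 2 := by rw [← pow_add]
          _ = x ^ 2 := by rw [h, one_mul]
      rw [e] at h2
      have h3 : x ^ 2 = y⁻¹ := eq_inv_of_mul_eq_one_left h2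
      calc x ^ 4 = (x ^ 2) ^ 2 := by rw [← pow_mul]
        _ = 1 := by rw [h3, inv_pow, hy, inv_one]
  · rcases hG (x * y) with h2 | h2 | h2
    · rw [hc.mul_pow, hy, mul_one] at h2
      calc x ^ 4 = (x ^ 2) ^ 2 := by rw [← pow_mul]
        _ = 1 := by rw [h2, one_pow]
    · rw [hc.mul_pow, y3] at h2
      have h3 : x ^ 3 = y⁻¹ := eq_inv_of_mul_eq_one_left h2
      have h6 : x ^ 6 = 1 := by
        calc x ^ 6 = (x ^ 3) ^ 2 := by rw [← pow_mul]
          _ = 1 := by rw [h3, inv_pow, hy, inv_one]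
      have h1 : x = 1 := by
        calc x = x ^ 6 * (x ^ 5)⁻¹ := by rw [pow_succ x 5]; group
          _ = 1 := by rw [h6, h, inv_one, mul_one]
      rw [h1, one_pow]
    · rw [hc.mul_pow, h, one_mul, y5] at h2
      exact absurd h2 hy1

/-- Dihedral groups. -/
lemma dih_rot {k : ℕ} {a : DihedralGroup k} (ha : a ^ 4 ≠ 1) : ∃ i, a = DihedralGroup.r i := by
  cases a with
  | r i => exact ⟨i, rfl⟩
  | sr i =>
    exfalso
    apply ha
    have : (DihedralGroup.sr i : DihedralGroup k) ^ 2 = 1 := by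
      rw [pow_two, DihedralGroup.sr_mul_sr, sub_self]
      rfl
    calc (DihedralGroup.sr i : DihedralGroup k) ^ 4 = ((DihedralGroup.sr i : DihedralGroup k) ^ 2) ^ 2 := by rw [← pow_mul]
      _ = 1 := by rw [this, one_pow]

lemma dih_comm_rot {k : ℕ} {a b : DihedralGroup k} (ha : a ^ 4 ≠ 1) (hab : a * b = b * a) : ∃ i, b = DihedralGroup.r i := by
  obtain ⟨i, rfl⟩ := dih_rot ha
  cases b with
  | r j => exact ⟨j, rfl⟩
  | sr j =>
    exfalso
    apply ha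
    rw [DihedralGroup.r_mul_sr, DihedralGroup.sr_mul_r] at hab
    have h1 : j - i = j + i := DihedralGroup.sr.inj hab
    have h2 : i + i = 0 := by
      have : (j + i) - (j - i) = 0 := by rw [← h1]; ring
      calc i + i = (j + i) - (j - i) := by ring
        _ = 0 := this
    have h3 : (DihedralGroup.r i : DihedralGroup k) ^ 2 = 1 := by
      rw [pow_two, DihedralGroup.r_mul_r, h2]
      rfl
    calc (DihedralGroup.r i : DihedralGroup k) ^ 4 = ((DihedralGroup.r i : DihedralGroup k) ^ 2) ^ 2 := by rw [← pow_mul]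
      _ = 1 := by rw [h3, one_pow]

section main

variable {F : Type*} [Field F] [Fintype F] (p : ℕ) [hp : Fact p.Prime] [CharP F p]

include p in
theorem big_of_data (hodd : Odd (Fintype.card F)) (H : Subgroup (XX F)) {t₂ t₃ ρ₂ ρ₃ : XX F} (ht₂ : t₂ ∈ H) (ht₃ : t₃ ∈ H)
    (hρ₂ : ρ₂ ∈ H) (hρ₃ : ρ₃ ∈ H) (h32 : t₃ ^ 2 = 1) (h3n : t₃ ≠ 1)
    (hc3 : ρ₃ * t₃ = t₃ * ρ₃) (hc2 : ρ₂ * t₂ = t₂ * ρ₂) (hinv : t₂ * ρ₃ * t₂⁻¹ = ρ₃⁻¹)
    (h34 : ρ₃ ^ 4 ≠ 1) (h24 : ρ₂ ^ 4 ≠ 1) (hpn : ∀ n : ℕ, (ρ₃ ^ 2) ^ (p ^ n) ≠ 1) :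
    ∃ e : ℕ, 1 ≤ e ∧ (2 * Nat.card H = p ^ e * ((p ^ e) ^ 2 - 1) ∨ Nat.card H = p ^ e * ((p ^ e) ^ 2 - 1)) := by
  have hnocomm : t₂ * ρ₃ ≠ ρ₃ * t₂ := by
    intro h
    apply h34
    have h1 : t₂ * ρ₃ * t₂⁻¹ = ρ₃ := by rw [h]; group
    rw [h1] at hinv
    have h2 : ρ₃ ^ 2 = 1 := by
      rw [pow_two]
      nth_rewrite 1 [hinv]
      group
    calc ρ₃ ^ 4 = (ρ₃ ^ 2) ^ 2 := by rw [← pow_mul]
      _ = 1 := by rw [h2, one_pow]
  have hρ4 : (⟨ρ₃, hρ₃⟩ : H) ^ 4 ≠ 1 := fun h => h34 (by simpa using congrArg Subtype.val h)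
  have hρ24 : (⟨ρ₂, hρ₂⟩ : H) ^ 4 ≠ 1 := fun h => h24 (by simpa using congrArg Subtype.val h)
  have hy3 : (⟨t₃, ht₃⟩ : H) ^ 2 = 1 := Subtype.ext (by simpa using h32)
  have hy31 : (⟨t₃, ht₃⟩ : H) ≠ 1 := fun h => h3n (by simpa using congrArg Subtype.val h)
  have hcc : (⟨ρ₃, hρ₃⟩ : H) * ⟨t₃, ht₃⟩ = ⟨t₃, ht₃⟩ * ⟨ρ₃, hρ₃⟩ := Subtype.ext hc3
  rcases dickson_X p hodd H with h | ⟨k, ⟨e⟩⟩ | ⟨h1, -⟩ | ⟨⟨e⟩⟩ | ⟨⟨e⟩⟩ | ⟨⟨e⟩⟩ | h
  · exfalso
    apply hnocomm
    have h1 := (IsCyclic.isMulCommutative (α := H)).is_comm.comm ⟨t₂, ht₂⟩ ⟨ρ₃, hρ₃⟩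
    exact congrArg Subtype.val h1
  · exfalso
    apply hnocomm
    have e3 : (e ⟨ρ₃, hρ₃⟩) ^ 4 ≠ 1 := by
      rw [← map_pow]
      intro h0
      exact hρ4 (e.injective (by rw [h0, map_one]))
    have e2 : (e ⟨ρ₂, hρ₂⟩) ^ 4 ≠ 1 := by
      rw [← map_pow]
      intro h0
      exact hρ24 (e.injective (by rw [h0, map_one]))
    have c2 : e ⟨ρ₂, hρ₂⟩ * e ⟨t₂, ht₂⟩ = e ⟨t₂, ht₂⟩ * e ⟨ρ₂, hρ₂⟩ := by
      rw [← map_mul, ← map_mul]
      exact congrArg e (Subtype.ext hc2)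
    obtain ⟨i, hi⟩ := dih_rot e3
    obtain ⟨j, hj⟩ := dih_comm_rot e2 c2
    have h3 : e ⟨t₂, ht₂⟩ * e ⟨ρ₃, hρ₃⟩ = e ⟨ρ₃, hρ₃⟩ * e ⟨t₂, ht₂⟩ := by
      rw [hi, hj, DihedralGroup.r_mul_r, DihedralGroup.r_mul_r, add_comm]
    rw [← map_mul, ← map_mul] at h3
    have h4 := e.injective h3
    exact congrArg Subtype.val h4
  · exfalso
    obtain ⟨n, hn⟩ := h1 ⟨t₂, ht₂⟩ ⟨ρ₃, hρ₃⟩
    have h5 : (t₂ * ρ₃ * t₂⁻¹ * ρ₃⁻¹) ^ (p ^ n) = 1 := by simpa using congrArg Subtype.val hn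
    rw [hinv] at h5
    apply hpn n
    have e5 : ρ₃⁻¹ * ρ₃⁻¹ = (ρ₃ ^ 2)⁻¹ := by rw [pow_two, _root_.mul_inv_rev]
    rw [e5, inv_pow] at h5
    exact inv_eq_one.mp h5
  · exfalso
    have key := comm_invol_43 (G := H) (fun z => by
      rcases alt4_prop (e z) with h | h
      · left; apply e.injective; rw [map_pow, h, map_one]
      · right; apply e.injective; rw [map_pow, h, map_one]) hcc hy3 hy31
    exact hρ4 key
  · exfalso
    have key := comm_invol_43 (G := H) (fun z => by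
      rcases perm4_prop (e z) with h | h
      · left; apply e.injective; rw [map_pow, h, map_one]
      · right; apply e.injective; rw [map_pow, h, map_one]) hcc hy3 hy31
    exact hρ4 key
  · exfalso
    have key := comm_invol_235 (G := H) (fun z => by
      rcases alt5_prop (e z) with h | h | h
      · left; apply e.injective; rw [map_pow, h, map_one]
      · right; left; apply e.injective; rw [map_pow, h, map_one]
      · right; right; apply e.injective; rw [map_pow, h, map_one]) hcc hy3 hy31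
    exact hρ4 key
  · exact h

include p in
/-- For the prime field: the subgroup contains all squares. -/
theorem sq_mem_of_big (hodd : Odd (Fintype.card F)) (hF : Fintype.card F = p) (H : Subgroup (XX F))
    (h : ∃ e : ℕ, 1 ≤ e ∧ (2 * Nat.card H = p ^ e * ((p ^ e) ^ 2 - 1) ∨ Nat.card H = p ^ e * ((p ^ e) ^ 2 - 1))) (y : XX F) :
    y ^ 2 ∈ H := by
  obtain ⟨e, he, h⟩ := h
  have hpp := hp.out
  have hodd' : Odd p := hF ▸ hodd
  have hcard : Nat.card (XX F) = p * (p ^ 2 - 1) := by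
    rw [← hF]
    exact Cfsg.Agent.Lib.PSL2Max.card_PGL2_form (K := F)
  have hdvd : Nat.card H ∣ p * (p ^ 2 - 1) := hcard ▸ Subgroup.card_subgroup_dvd_card H
  have hpos : 0 < p ^ 2 - 1 := by
    have := hpp.two_le
    have : 4 ≤ p ^ 2 := by nlinarith
    omega
  have hcop : Nat.Coprime p (p ^ 2 - 1) := by
    have h1 : p ^ 2 - 1 + 1 = p ^ 2 := by omega
    rw [Nat.coprime_comm]
    have h2 : Nat.Coprime (p ^ 2 - 1) (p ^ 2) := by
      have := Nat.coprime_self_add_right (m := p ^ 2 - 1) (n := 1)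
      rw [h1] at this
      exact this.mpr (Nat.coprime_one_right _)
    exact Nat.Coprime.coprime_dvd_right (dvd_pow_self p two_ne_zero) h2
  have hpe : p ^ e ∣ Nat.card H := by
    rcases h with h | h
    · have h1 : p ^ e ∣ 2 * Nat.card H := by rw [h]; exact dvd_mul_right _ _
      have h2 : Nat.Coprime (p ^ e) 2 := Nat.Coprime.pow_left _ (Nat.coprime_two_right.mpr hodd')
      exact h2.dvd_of_dvd_mul_left h1
    · rw [h]; exact dvd_mul_right _ _
  have he1 : e = 1 := by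
    by_contra hne
    have h2e : 2 ≤ e := by omega
    have h3 : p ^ 2 ∣ p * (p ^ 2 - 1) := ((pow_dvd_pow p h2e).trans hpe).trans hdvd
    have h3' : p * p ∣ p * (p ^ 2 - 1) := by rwa [pow_two] at h3 ⊢
    have h4 : p ∣ p ^ 2 - 1 := Nat.dvd_of_mul_dvd_mul_left hpp.pos h3'
    have h5 := Nat.Coprime.eq_one_of_dvd hcop h4
    exact hpp.one_lt.ne' h5
  subst he1
  rw [pow_one] at h
  have hindex := Subgroup.card_mul_index H
  rw [hcard] at hindex
  have hpp2 : 0 < p * (p ^ 2 - 1) := Nat.mul_pos hpp.pos hpos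
  rcases h with h | h
  · have h2 : H.index = 2 := by
      have h3 : Nat.card H * H.index = Nat.card H * 2 := by rw [hindex, mul_comm (Nat.card H) 2, h]
      exact Nat.eq_of_mul_eq_mul_left (Nat.pos_of_ne_zero (by
        intro h0
        rw [h0] at h
        omega)) h3
    exact Subgroup.sq_mem_of_index_two h2 y
  · have h2 : H.index = 1 := by
      have h3 : Nat.card H * H.index = Nat.card H * 1 := by rw [hindex, mul_one, h]
      exact Nat.eq_of_mul_eq_mul_left (Nat.pos_of_ne_zero (by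
        intro h0
        rw [h0] at h
        omega)) h3
    rw [Subgroup.index_eq_one] at h2
    rw [h2]
    trivial

end main

/-- Adjoining an involution normalizing a subgroup. -/
theorem exists_ext {G : Type*} [Group G] (K : Subgroup G) (t : G) (ht : t ^ 2 = 1) (hn : ∀ h ∈ K, t * h * t⁻¹ ∈ K) :
    ∃ K' : Subgroup G, K ≤ K' ∧ t ∈ K' ∧ (∀ x ∈ K', x ^ 2 ∈ K) ∧ ∀ x ∈ K', x ∈ K ∨ ∃ h ∈ K, x = h * t := by
  have tinv : t⁻¹ = t := by
    rw [inv_eq_iff_mul_eq_one, ← pow_two, ht]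
  refine ⟨{ carrier := {x | x ∈ K ∨ ∃ h ∈ K, x = h * t}
            mul_mem' := ?_, one_mem' := Or.inl K.one_mem, inv_mem' := ?_ }, fun x hx => Or.inl hx, Or.inr ⟨1, K.one_mem, by simp⟩, ?_, fun x hx => hx⟩
  · rintro a b (ha | ⟨h, hh, rfl⟩) (hb | ⟨h', hh', rfl⟩)
    · exact Or.inl (K.mul_mem ha hb)
    · exact Or.inr ⟨a * h', K.mul_mem ha hh', by group⟩
    · refine Or.inr ⟨h * (t * b * t⁻¹), K.mul_mem hh (hn b hb), by group⟩
    · refine Or.inl ?_
      have e : h * t * (h' * t) = h * (t * h' * t⁻¹) * (t * t) := by group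
      rw [e, ← pow_two, ht, mul_one]
      exact K.mul_mem hh (hn h' hh')
  · rintro a (ha | ⟨h, hh, rfl⟩)
    · exact Or.inl (K.inv_mem ha)
    · refine Or.inr ⟨t * h⁻¹ * t⁻¹, hn _ (K.inv_mem hh), ?_⟩
      rw [_root_.mul_inv_rev, tinv]
      have : t * h⁻¹ * t * t = t * h⁻¹ * (t * t) := by group
      rw [this, ← pow_two, ht, mul_one]
  · rintro x (hx | ⟨h, hh, rfl⟩)
    · rw [pow_two]; exact K.mul_mem hx hx
    · have e : (h * t) ^ 2 = h * (t * h * t⁻¹) * (t * t) := by rw [pow_two]; group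
      rw [e, ← pow_two, ht, mul_one]
      exact K.mul_mem hh (hn h hh)

end Cfsg.Agent.H28.KlA

namespace Cfsg.Agent.H28.KlA

theorem conj_closure {G : Type*} [Group G] (S : Set G) (t : G) (hS : ∀ s ∈ S, t * s * t⁻¹ ∈ Subgroup.closure S) :
    ∀ h ∈ Subgroup.closure S, t * h * t⁻¹ ∈ Subgroup.closure S := by
  intro h hh
  induction hh using Subgroup.closure_induction with
  | mem x hx => exact hS x hx
  | one => simp [Subgroup.one_mem]
  | mul x y _ _ hx hy =>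
    have e : t * (x * y) * t⁻¹ = (t * x * t⁻¹) * (t * y * t⁻¹) := by group
    rw [e]
    exact Subgroup.mul_mem _ hx hy
  | inv x _ hx =>
    have e : t * x⁻¹ * t⁻¹ = (t * x * t⁻¹)⁻¹ := by group
    rw [e]
    exact Subgroup.inv_mem _ hx

end Cfsg.Agent.H28.KlA
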