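import Mathlib
import Cfsg.Agent.H28.KlA

/-!
# Anticommuting trace-zero `2 × 2` matrices and the subgroup of `PGL₂(p)` they generate
-/

set_option autoImplicit false
set_option linter.style.haveILetI false
set_option linter.unusedVariables false
set_option linter.unusedSectionVars false

namespace Cfsg.Agent.H28.KlB

open Matrix Subgroup
open Cfsg.Agent.Lib.PGLMaxA Cfsg.Agent.H28.KlA

/-- `2 × 2` matrices. -/
abbrev M2 (F : Type*) [Field F] := Matrix (Fin 2) (Fin 2) F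

variable {F : Type*} [Field F]

/-- The group element of a matrix squaring to a non-zero scalar. -/
def glOf (A : M2 F) (a : F) (ha : a ≠ 0) (hA : A * A = a • 1) : GL (Fin 2) F where
  val := A
  inv := a⁻¹ • A
  val_inv := by rw [Matrix.mul_smul, hA, smul_smul, inv_mul_cancel₀ ha, one_smul]
  inv_val := by rw [Matrix.smul_mul, hA, smul_smul, inv_mul_cancel₀ ha, one_smul]

@[simp] lemma glOf_val (A : M2 F) (a : F) (ha : a ≠ 0) (hA : A * A = a • 1) : (glOf A a ha hA : M2 F) = A := rfl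

lemma mk_eq_of_smul {g₁ g₂ : GL (Fin 2) F} {s : F} (hs : s ≠ 0) (h : (g₂ : M2 F) = s • (g₁ : M2 F)) :
    ProjGenLinGroup.mk g₁ = ProjGenLinGroup.mk g₂ := by
  rw [ProjGenLinGroup.mk_eq_mk_iff]
  refine ⟨Units.mk0 s hs, ?_⟩
  apply Units.ext
  rw [Units.val_mul, h]
  ext i j
  simp [Matrix.mul_apply, Matrix.GeneralLinearGroup.scalar, Matrix.scalar, Matrix.diagonal_apply, mul_comm]

lemma scalar_of_mk_eq_one {g : GL (Fin 2) F} (h : ProjGenLinGroup.mk g = 1) : ∃ s : F, (g : M2 F) = s • 1 := by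
  rw [ProjGenLinGroup.mk_eq_one, Matrix.GeneralLinearGroup.center_eq_range_scalar] at h
  obtain ⟨u, rfl⟩ := h
  refine ⟨u, ?_⟩
  ext i j
  simp [Matrix.GeneralLinearGroup.scalar, Matrix.scalar, Matrix.diagonal_apply, Matrix.one_apply]

lemma mk_eq_one_of_scalar {g : GL (Fin 2) F} {s : F} (hs : s ≠ 0) (h : (g : M2 F) = s • 1) : ProjGenLinGroup.mk g = 1 := by
  have h1 : ProjGenLinGroup.mk (1 : GL (Fin 2) F) = ProjGenLinGroup.mk g :=
    mk_eq_of_smul hs (by rw [h]; simp)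
  rw [← h1, ProjGenLinGroup.mk_one]

/-! ### Elements `u + v W` -/

section pair

variable {a b : M2 F} {α β : F}

/-- `(ab)² = -αβ`. -/
lemma W_sq (ha : a * a = α • 1) (hb : b * b = β • 1) (hab : b * a = -(a * b)) :
    (a * b) * (a * b) = (-(α * β)) • 1 := by
  calc (a * b) * (a * b) = a * (b * a) * b := by simp only [Matrix.mul_assoc]
    _ = -((a * a) * (b * b)) := by rw [hab]; simp only [Matrix.mul_neg, Matrix.neg_mul, Matrix.mul_assoc]
    _ = _ := by rw [ha, hb]; simp [smul_smul, mul_comm]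

lemma E_mul (ha : a * a = α • 1) (hb : b * b = β • 1) (hab : b * a = -(a * b)) (u v u' v' : F) :
    (u • (1 : M2 F) + v • (a * b)) * (u' • 1 + v' • (a * b)) =
      (u * u' - α * β * (v * v')) • 1 + (u * v' + v * u') • (a * b) := by
  have h := W_sq ha hb hab
  simp only [Matrix.mul_add, Matrix.add_mul, Matrix.mul_smul, Matrix.smul_mul, Matrix.one_mul, Matrix.mul_one, h, smul_smul]
  module

lemma W_trace (hab : b * a = -(a * b)) (h2 : (2 : F) ≠ 0) : Matrix.trace (a * b) = 0 := by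
  have h1 : Matrix.trace (b * a) = Matrix.trace (a * b) := Matrix.trace_mul_comm _ _
  rw [hab, Matrix.trace_neg] at h1
  have h3 : (2 : F) * Matrix.trace (a * b) = 0 := by linear_combination -h1
  exact (mul_eq_zero.mp h3).resolve_left h2

lemma E_scalar (ha : a * a = α • 1) (hb : b * b = β • 1) (hab : b * a = -(a * b)) (h2 : (2 : F) ≠ 0) (hα : α ≠ 0) (hβ : β ≠ 0)
    {u v s : F} (h : u • (1 : M2 F) + v • (a * b) = s • 1) : v = 0 := by
  by_contra hv
  have h1 : a * b = (v⁻¹ * (s - u)) • (1 : M2 F) := by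
    have h3 : v • (a * b) = (s - u) • (1 : M2 F) := by
      rw [sub_smul, ← h]
      abel
    calc a * b = v⁻¹ • (v • (a * b)) := by rw [smul_smul, inv_mul_cancel₀ hv, one_smul]
      _ = _ := by rw [h3, smul_smul]
  have h3 := W_trace hab h2
  rw [h1, Matrix.trace_smul, Matrix.trace_one, Fintype.card_fin] at h3
  have h4 : (v⁻¹ * (s - u)) = 0 := by
    simp only [smul_eq_mul] at h3
    have h5 : (v⁻¹ * (s - u)) * 2 = 0 := by simpa using h3
    exact (mul_eq_zero.mp h5).resolve_right h2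
  rw [h4, zero_smul] at h1
  have h5 := W_sq ha hb hab
  rw [h1, Matrix.zero_mul] at h5
  have h6 : (-(α * β)) • (1 : M2 F) = 0 := h5.symm
  have h7 := congrFun (congrFun h6 0) 0
  simp at h7
  rcases h7 with h7 | h7
  · exact hα h7
  · exact hβ h7

variable {p : ℕ} [hp : Fact p.Prime] [CharP F p] [Fintype F]

include hp in
lemma E_pow_p (hF : Fintype.card F = p) (hodd : Odd p) (ha : a * a = α • 1) (hb : b * b = β • 1) (hab : b * a = -(a * b)) (u v : F) :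
    (u • (1 : M2 F) + v • (a * b)) ^ p = u • 1 + ((-(α * β)) ^ ((p - 1) / 2) * v) • (a * b) := by
  have h := W_sq ha hb hab
  haveI : CharP (M2 F) p := Matrix.charP (n := Fin 2) p
  have hc : Commute (u • (1 : M2 F)) (v • (a * b)) := by
    apply Commute.smul_left
    apply Commute.smul_right
    exact Commute.one_left _
  rw [add_pow_char_of_commute p hc, smul_pow, smul_pow, one_pow]
  have hfrob : ∀ x : F, x ^ p = x := fun x => by
    rw [← hF]
    exact FiniteField.pow_card x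
  rw [hfrob, hfrob]
  obtain ⟨k, hk⟩ := hodd
  have e1 : (p - 1) / 2 = k := by omega
  rw [e1, hk, pow_succ, pow_mul, pow_two, h, smul_pow, one_pow]
  have e2 : ((-(α * β)) ^ k • (1 : M2 F)) * (a * b) = (-(α * β)) ^ k • (a * b) := by
    rw [Matrix.smul_mul, Matrix.one_mul]
  rw [e2, smul_smul, mul_comm]

include hp in
lemma E_pow_pn (hF : Fintype.card F = p) (hodd : Odd p) (ha : a * a = α • 1) (hb : b * b = β • 1) (hab : b * a = -(a * b))
    (u v : F) (n : ℕ) :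
    (u • (1 : M2 F) + v • (a * b)) ^ (p ^ n) = u • 1 + (((-(α * β)) ^ ((p - 1) / 2)) ^ n * v) • (a * b) := by
  induction n with
  | zero => simp
  | succ n ih =>
    rw [pow_succ p n, pow_mul, ih, E_pow_p hF hodd ha hb hab]
    congr 2
    ring

end pair

/-! ### The data -/

/-- Three anticommuting trace-zero matrices with scalar squares. -/
structure KD (F : Type*) [Field F] where
  A₀ : M2 F
  A₁ : M2 F
  A₂ : M2 F
  l₀ : F
  l₁ : F
  l₂ : F
  μ : F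
  h₀ : l₀ ≠ 0
  h₁ : l₁ ≠ 0
  h₂ : l₂ ≠ 0
  hμ : μ ≠ 0
  s₀ : A₀ * A₀ = l₀ • 1
  s₁ : A₁ * A₁ = l₁ • 1
  s₂ : A₂ * A₂ = l₂ • 1
  a₀₁ : A₁ * A₀ = -(A₀ * A₁)
  a₀₂ : A₂ * A₀ = -(A₀ * A₂)
  a₁₂ : A₂ * A₁ = -(A₁ * A₂)
  t₀ : Matrix.trace A₀ = 0
  t₁ : Matrix.trace A₁ = 0
  t₂ : Matrix.trace A₂ = 0
  prod : A₂ = μ • (A₀ * A₁)

namespace KD

variable (D : KD F)

lemma r₀₀ (X : M2 F) : D.A₀ * (D.A₀ * X) = D.l₀ • X := by rw [← Matrix.mul_assoc, D.s₀]; simp
lemma r₁₁ (X : M2 F) : D.A₁ * (D.A₁ * X) = D.l₁ • X := by rw [← Matrix.mul_assoc, D.s₁]; simp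
lemma r₂₂ (X : M2 F) : D.A₂ * (D.A₂ * X) = D.l₂ • X := by rw [← Matrix.mul_assoc, D.s₂]; simp
lemma r₁₀ (X : M2 F) : D.A₁ * (D.A₀ * X) = -(D.A₀ * (D.A₁ * X)) := by
  rw [← Matrix.mul_assoc, D.a₀₁]; simp [Matrix.mul_assoc]
lemma r₂₀ (X : M2 F) : D.A₂ * (D.A₀ * X) = -(D.A₀ * (D.A₂ * X)) := by
  rw [← Matrix.mul_assoc, D.a₀₂]; simp [Matrix.mul_assoc]
lemma r₂₁ (X : M2 F) : D.A₂ * (D.A₁ * X) = -(D.A₁ * (D.A₂ * X)) := by
  rw [← Matrix.mul_assoc, D.a₁₂]; simp [Matrix.mul_assoc]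

/-- Linear combinations. -/
def Φ (v : Fin 3 → F) : M2 F := v 0 • D.A₀ + v 1 • D.A₁ + v 2 • D.A₂

/-- The scalar square. -/
def N (v : Fin 3 → F) : F := v 0 ^ 2 * D.l₀ + v 1 ^ 2 * D.l₁ + v 2 ^ 2 * D.l₂

/-- The bilinear form. -/
def Bf (v w : Fin 3 → F) : F := v 0 * w 0 * D.l₀ + v 1 * w 1 * D.l₁ + v 2 * w 2 * D.l₂

lemma anti (v w : Fin 3 → F) : D.Φ v * D.Φ w + D.Φ w * D.Φ v = (2 * D.Bf v w) • 1 := by
  simp only [Φ, Bf, Matrix.mul_add, Matrix.add_mul, Matrix.mul_smul, Matrix.smul_mul, D.s₀, D.s₁, D.s₂, D.a₀₁, D.a₀₂, D.a₁₂,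
    smul_neg, smul_smul]
  module

lemma sq (v : Fin 3 → F) : D.Φ v * D.Φ v = D.N v • 1 := by
  simp only [Φ, N, Matrix.mul_add, Matrix.add_mul, Matrix.mul_smul, Matrix.smul_mul, D.s₀, D.s₁, D.s₂, D.a₀₁, D.a₀₂, D.a₁₂,
    smul_neg, smul_smul]
  module

lemma trace_Φ (v : Fin 3 → F) : Matrix.trace (D.Φ v) = 0 := by
  simp [Φ, Matrix.trace_add, Matrix.trace_smul, D.t₀, D.t₁, D.t₂]

lemma Φ_sub_smul (a : F) (v w : Fin 3 → F) : D.Φ (a • v - w) = a • D.Φ v - D.Φ w := by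
  simp only [Φ, Pi.sub_apply, Pi.smul_apply, smul_eq_mul]
  module

lemma Φ_inj (h2 : (2 : F) ≠ 0) {v w : Fin 3 → F} (h : D.Φ v = D.Φ w) : v = w := by
  have key : ∀ e : Fin 3 → F, D.Φ e = 0 → D.Bf e e = 0 ∧ ∀ u, D.Bf e u = 0 := by
    intro e he
    have h1 := fun u => D.anti e u
    simp only [he, Matrix.zero_mul, Matrix.mul_zero, add_zero] at h1
    have h3 : ∀ u, D.Bf e u = 0 := by
      intro u
      have h4 := congrFun (congrFun (h1 u) 0) 0
      simp at h4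
      rcases h4 with h4 | h4
      · exact absurd h4 h2
      · exact h4
    exact ⟨h3 e, h3⟩
  have h3 : D.Φ (fun i => v i - w i) = 0 := by
    have : D.Φ (fun i => v i - w i) = D.Φ v - D.Φ w := by
      simp only [Φ]
      module
    rw [this, h, sub_self]
  obtain ⟨-, h4⟩ := key _ h3
  funext i
  fin_cases i
  · have h5 := h4 ![1, 0, 0]
    simp [Bf] at h5
    rcases h5 with h5 | h5
    · exact sub_eq_zero.mp h5
    · exact absurd h5 D.h₀
  · have h5 := h4 ![0, 1, 0]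
    simp [Bf] at h5
    rcases h5 with h5 | h5
    · exact sub_eq_zero.mp h5
    · exact absurd h5 D.h₁
  · have h5 := h4 ![0, 0, 1]
    simp [Bf] at h5
    rcases h5 with h5 | h5
    · exact sub_eq_zero.mp h5
    · exact absurd h5 D.h₂

/-- The group element of a coordinate vector. -/
def U (v : Fin 3 → F) (hv : D.N v ≠ 0) : GL (Fin 2) F := glOf (D.Φ v) (D.N v) hv (D.sq v)

lemma U_val (v : Fin 3 → F) (hv : D.N v ≠ 0) : ((D.U v hv : GL (Fin 2) F) : M2 F) = D.Φ v := rfl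

lemma U_inv_val (v : Fin 3 → F) (hv : D.N v ≠ 0) : (((D.U v hv)⁻¹ : GL (Fin 2) F) : M2 F) = (D.N v)⁻¹ • D.Φ v := rfl

/-- Conjugation. -/
lemma conj_U (v w : Fin 3 → F) (hv : D.N v ≠ 0) :
    ((D.U v hv : GL (Fin 2) F) : M2 F) * D.Φ w * (((D.U v hv)⁻¹ : GL (Fin 2) F) : M2 F) =
      D.Φ ((2 * D.Bf v w * (D.N v)⁻¹) • v - w) := by
  rw [U_val, U_inv_val, Φ_sub_smul]
  have h1 : D.Φ v * D.Φ w = (2 * D.Bf v w) • 1 - D.Φ w * D.Φ v := by
    rw [← D.anti v w]; abel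
  rw [h1, Matrix.mul_smul, Matrix.sub_mul, Matrix.smul_mul, Matrix.one_mul, Matrix.mul_assoc, D.sq v, Matrix.mul_smul, Matrix.mul_one]
  rw [smul_sub, smul_smul, smul_smul, inv_mul_cancel₀ hv, one_smul]
  congr 1
  rw [mul_comm]

end KD

end Cfsg.Agent.H28.KlB
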