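import Mathlib
import Cfsg.Agent.H28.KlB

/-!
# The subgroup of `PGL₂(p)` generated by four reflections contains `PSL₂(p)`
-/

set_option autoImplicit false
set_option linter.style.haveILetI false
set_option linter.unusedVariables false
set_option linter.unusedSectionVars false
set_option linter.unusedSimpArgs false

namespace Cfsg.Agent.H28.KlC

open Matrix Subgroup
open Cfsg.Agent.Lib.PGLMaxA Cfsg.Agent.H28.KlA Cfsg.Agent.H28.KlB

variable {F : Type*} [Field F]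

/-- Elementary matrices. -/
def E12 (b : F) : GL (Fin 2) F where
  val := !![1, b; 0, 1]
  inv := !![1, -b; 0, 1]
  val_inv := by
    ext i j
    fin_cases i <;> fin_cases j <;> simp [Matrix.mul_apply, Fin.sum_univ_two]
  inv_val := by
    ext i j
    fin_cases i <;> fin_cases j <;> simp [Matrix.mul_apply, Fin.sum_univ_two]

/-- Elementary matrices. -/
def E21 (b : F) : GL (Fin 2) F where
  val := !![1, 0; b, 1]
  inv := !![1, 0; -b, 1]
  val_inv := by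
    ext i j
    fin_cases i <;> fin_cases j <;> simp [Matrix.mul_apply, Fin.sum_univ_two]
  inv_val := by
    ext i j
    fin_cases i <;> fin_cases j <;> simp [Matrix.mul_apply, Fin.sum_univ_two]

lemma E12_pow (b : F) (k : ℕ) : (((E12 b) ^ k : GL (Fin 2) F) : M2 F) = !![1, (k : F) * b; 0, 1] := by
  induction k with
  | zero =>
    ext i j
    fin_cases i <;> fin_cases j <;> simp
  | succ k ih =>
    rw [pow_succ, Units.val_mul, ih]
    ext i j
    fin_cases i <;> fin_cases j <;> simp [E12, Matrix.mul_apply, Fin.sum_univ_two]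
    ring

lemma E21_pow (b : F) (k : ℕ) : (((E21 b) ^ k : GL (Fin 2) F) : M2 F) = !![1, 0; (k : F) * b, 1] := by
  induction k with
  | zero =>
    ext i j
    fin_cases i <;> fin_cases j <;> simp
  | succ k ih =>
    rw [pow_succ, Units.val_mul, ih]
    ext i j
    fin_cases i <;> fin_cases j <;> simp [E21, Matrix.mul_apply, Fin.sum_univ_two]
    ring

/-- All of `SL₂` from the elementary matrices. -/
theorem mk_mem_of_elem (L : Subgroup (XX F)) (h12 : ∀ b : F, ProjGenLinGroup.mk (E12 b) ∈ L)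
    (h21 : ∀ b : F, ProjGenLinGroup.mk (E21 b) ∈ L) (P : GL (Fin 2) F) (hP : (P : M2 F).det = 1) :
    ProjGenLinGroup.mk P ∈ L := by
  have key : ∀ P : GL (Fin 2) F, (P : M2 F).det = 1 → (P : M2 F) 1 0 ≠ 0 → ProjGenLinGroup.mk P ∈ L := by
    intro P hP hc
    rw [Matrix.det_fin_two] at hP
    set a := (P : M2 F) 0 0
    set b := (P : M2 F) 0 1
    set c := (P : M2 F) 1 0
    set d := (P : M2 F) 1 1
    have e : P = E12 ((a - 1) / c) * E21 c * E12 ((d - 1) / c) := by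
      apply Units.ext
      ext i j
      rw [Units.val_mul, Units.val_mul]
      fin_cases i <;> fin_cases j <;> simp [E12, E21, Matrix.mul_apply, Fin.sum_univ_two]
      · show a = _
        field_simp
        ring
      · show b = _
        field_simp
        linear_combination -hP
      · show c = _
        rfl
      · show d = _
        field_simp
        ring
    rw [e, map_mul, map_mul]
    exact L.mul_mem (L.mul_mem (h12 _) (h21 _)) (h12 _)
  by_cases hc : (P : M2 F) 1 0 = 0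
  · have h1 : ((P * E21 1 : GL (Fin 2) F) : M2 F).det = 1 := by
      rw [Units.val_mul, Matrix.det_mul, hP, one_mul]
      simp [E21, Matrix.det_fin_two]
    have h2 : ((P * E21 1 : GL (Fin 2) F) : M2 F) 1 0 ≠ 0 := by
      rw [Units.val_mul]
      simp only [E21, Matrix.mul_apply, Fin.sum_univ_two]
      simp [hc]
      intro h0
      rw [Matrix.det_fin_two, hc, h0] at hP
      simp at hP
    have h3 := key _ h1 h2
    have e : P = (P * E21 1) * (E21 1)⁻¹ := by group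
    rw [e, map_mul, map_inv]
    exact L.mul_mem h3 (L.inv_mem (h21 1))
  · exact key P hP hc

section pair

variable {a b : M2 F} {α β : F} {p : ℕ} [hp : Fact p.Prime] [CharP F p] [Fintype F]

lemma pow4_ne (ha : a * a = α • 1) (hb : b * b = β • 1) (hab : b * a = -(a * b)) (h2 : (2 : F) ≠ 0) (hα : α ≠ 0) (hβ : β ≠ 0)
    (hne : α ≠ β) {g : GL (Fin 2) F} (hg : (g : M2 F) = α • 1 + (-1 : F) • (a * b)) : (ProjGenLinGroup.mk g) ^ 4 ≠ 1 := by
  intro h
  rw [← map_pow] at h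
  obtain ⟨s, hs⟩ := scalar_of_mk_eq_one h
  have e4 : g ^ 4 = (g * g) * (g * g) := by rw [show 4 = 2 + 2 from rfl, pow_add, pow_two]
  rw [e4, Units.val_mul, Units.val_mul, hg, E_mul ha hb hab, E_mul ha hb hab] at hs
  have h0 := E_scalar ha hb hab h2 hα hβ hs
  have h5 : (α * α - α * β * (-1 * -1)) * (α * -1 + -1 * α) + (α * -1 + -1 * α) * (α * α - α * β * (-1 * -1))
    = -(4 * α * α * (α - β)) := by ring
  rw [h5] at h0
  have h4 : (4 : F) ≠ 0 := by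
    have : (4 : F) = 2 * 2 := by norm_num
    rw [this]
    exact mul_ne_zero h2 h2
  exact neg_ne_zero.mpr (mul_ne_zero (mul_ne_zero (mul_ne_zero h4 hα) hα) (sub_ne_zero.mpr hne)) h0

include hp in
lemma pn_ne (hF : Fintype.card F = p) (hodd : Odd p) (ha : a * a = α • 1) (hb : b * b = β • 1) (hab : b * a = -(a * b)) (h2 : (2 : F) ≠ 0)
    (hα : α ≠ 0) (hβ : β ≠ 0) {g : GL (Fin 2) F} (hg : (g : M2 F) = α • 1 + (-1 : F) • (a * b)) (n : ℕ) :
    ((ProjGenLinGroup.mk g) ^ 2) ^ (p ^ n) ≠ 1 := by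
  intro h
  rw [← map_pow, ← map_pow] at h
  obtain ⟨s, hs⟩ := scalar_of_mk_eq_one h
  rw [Units.val_pow_eq_pow_val, pow_two, Units.val_mul, hg, E_mul ha hb hab, E_pow_pn hF hodd ha hb hab] at hs
  have h0 := E_scalar ha hb hab h2 hα hβ hs
  have hχ : (-(α * β)) ^ ((p - 1) / 2) ≠ 0 := pow_ne_zero _ (neg_ne_zero.mpr (mul_ne_zero hα hβ))
  have h5 : α * -1 + -1 * α = -(2 * α) := by ring
  rw [h5] at h0
  exact mul_ne_zero (pow_ne_zero _ hχ) (neg_ne_zero.mpr (mul_ne_zero h2 hα)) h0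

end pair

section classes

variable (D : KD F)

/-- The class of a coordinate vector. -/
def cl (v : Fin 3 → F) (hv : D.N v ≠ 0) : XX F := ProjGenLinGroup.mk (D.U v hv)

lemma cl_sq (v : Fin 3 → F) (hv : D.N v ≠ 0) : cl D v hv ^ 2 = 1 := by
  rw [cl, ← map_pow]
  apply mk_eq_one_of_scalar hv
  rw [pow_two, Units.val_mul, KD.U_val, D.sq]

lemma cl_inv (v : Fin 3 → F) (hv : D.N v ≠ 0) : (cl D v hv)⁻¹ = cl D v hv := by
  rw [inv_eq_iff_mul_eq_one, ← pow_two, cl_sq]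

/-- Conjugation by a class. -/
lemma cl_conj (v w w' : Fin 3 → F) (hv : D.N v ≠ 0) (hw : D.N w ≠ 0) (hw' : D.N w' ≠ 0) {s : F} (hs : s ≠ 0)
    (h : D.Φ ((2 * D.Bf v w * (D.N v)⁻¹) • v - w) = s • D.Φ w') :
    cl D v hv * cl D w hw * (cl D v hv)⁻¹ = cl D w' hw' := by
  rw [cl, cl, cl, ← map_inv, ← map_mul, ← map_mul]
  refine (mk_eq_of_smul hs ?_).symm
  rw [Units.val_mul, Units.val_mul, KD.U_val D w hw, KD.conj_U, h, KD.U_val]

/-- Flips. -/
def flip1 (w : Fin 3 → F) : Fin 3 → F := ![w 0, -w 1, w 2]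
/-- Flips. -/
def flip2 (w : Fin 3 → F) : Fin 3 → F := ![w 0, w 1, -w 2]

lemma N_flip1 (w : Fin 3 → F) : D.N (flip1 w) = D.N w := by simp [KD.N, flip1]
lemma N_flip2 (w : Fin 3 → F) : D.N (flip2 w) = D.N w := by simp [KD.N, flip2]

lemma N_e1 : D.N ![0, 1, 0] = D.l₁ := by simp [KD.N]
lemma N_e2 : D.N ![0, 0, 1] = D.l₂ := by simp [KD.N]
lemma N_e0 : D.N ![1, 0, 0] = D.l₀ := by simp [KD.N]
lemma he1 : D.N ![0, 1, 0] ≠ 0 := by rw [N_e1]; exact D.h₁
lemma he2 : D.N ![0, 0, 1] ≠ 0 := by rw [N_e2]; exact D.h₂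
lemma he0 : D.N ![1, 0, 0] ≠ 0 := by rw [N_e0]; exact D.h₀

lemma Φ_e0 : D.Φ ![1, 0, 0] = D.A₀ := by simp [KD.Φ]
lemma Φ_e1 : D.Φ ![0, 1, 0] = D.A₁ := by simp [KD.Φ]
lemma Φ_e2 : D.Φ ![0, 0, 1] = D.A₂ := by simp [KD.Φ]
lemma Φ_v1 : D.Φ ![1, 1, 0] = D.A₀ + D.A₁ := by simp [KD.Φ]
lemma Φ_v3 : D.Φ ![1, 0, 1] = D.A₀ + D.A₂ := by simp [KD.Φ]

lemma conj_e1 (w : Fin 3 → F) (hw : D.N w ≠ 0) (hw' : D.N (flip1 w) ≠ 0) :
    cl D ![0, 1, 0] (he1 D) * cl D w hw * (cl D ![0, 1, 0] (he1 D))⁻¹ = cl D (flip1 w) hw' := by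
  refine cl_conj D _ _ _ _ _ _ (s := -1) (by simp) ?_
  have e : 2 * D.Bf ![0, 1, 0] w * (D.N ![0, 1, 0])⁻¹ = 2 * w 1 := by
    rw [N_e1]
    simp only [KD.Bf]
    have := D.h₁
    simp
    field_simp
  rw [e]
  simp only [KD.Φ, Pi.sub_apply, Pi.smul_apply, smul_eq_mul, flip1]
  simp
  module

lemma conj_e2 (w : Fin 3 → F) (hw : D.N w ≠ 0) (hw' : D.N (flip2 w) ≠ 0) :
    cl D ![0, 0, 1] (he2 D) * cl D w hw * (cl D ![0, 0, 1] (he2 D))⁻¹ = cl D (flip2 w) hw' := by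
  refine cl_conj D _ _ _ _ _ _ (s := -1) (by simp) ?_
  have e : 2 * D.Bf ![0, 0, 1] w * (D.N ![0, 0, 1])⁻¹ = 2 * w 2 := by
    rw [N_e2]
    simp only [KD.Bf]
    have := D.h₂
    simp
    field_simp
  rw [e]
  simp only [KD.Φ, Pi.sub_apply, Pi.smul_apply, smul_eq_mul, flip2]
  simp
  module

end classes

section main

variable [Fintype F] (p : ℕ) [hp : Fact p.Prime] [CharP F p] (D : KD F)

/-- The generating vectors. -/
def IsGen (v : Fin 3 → F) : Prop := v = ![1, 1, 0] ∨ v = ![1, -1, 0] ∨ v = ![1, 0, 1] ∨ v = ![1, 0, -1]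

lemma isGen_flip1 {v : Fin 3 → F} (h : IsGen v) : IsGen (flip1 v) := by
  rcases h with rfl | rfl | rfl | rfl
  · right; left; ext i; fin_cases i <;> simp [flip1]
  · left; ext i; fin_cases i <;> simp [flip1]
  · right; right; left; ext i; fin_cases i <;> simp [flip1]
  · right; right; right; ext i; fin_cases i <;> simp [flip1]

lemma isGen_flip2 {v : Fin 3 → F} (h : IsGen v) : IsGen (flip2 v) := by
  rcases h with rfl | rfl | rfl | rfl
  · left; ext i; fin_cases i <;> simp [flip2]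
  · right; left; ext i; fin_cases i <;> simp [flip2]
  · right; right; right; ext i; fin_cases i <;> simp [flip2]
  · right; right; left; ext i; fin_cases i <;> simp [flip2]

include p in
theorem big_elem (hF : Fintype.card F = p) (hodd : Odd p) (h2 : (2 : F) ≠ 0) (h12 : D.l₁ = D.l₂) (hne : D.l₀ ≠ D.l₁)
    (hN : D.l₀ + D.l₁ ≠ 0) (L : Subgroup (XX F))
    (hgen : ∀ v (hv : D.N v ≠ 0), IsGen v → cl D v hv ∈ L) (P : GL (Fin 2) F) (hP : (P : M2 F).det = 1) :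
    ProjGenLinGroup.mk P ∈ L := by
  classical
  have hodd' : Odd (Fintype.card F) := hF ▸ hodd
  have hv1 : D.N ![1, 1, 0] ≠ 0 := by simpa [KD.N] using hN
  have hv3 : D.N ![1, 0, 1] ≠ 0 := by
    have : D.N ![1, 0, 1] = D.l₀ + D.l₂ := by simp [KD.N]
    rw [this, ← h12]
    exact hN
  let S : Set (XX F) := {x | ∃ v, ∃ hv : D.N v ≠ 0, IsGen v ∧ x = cl D v hv}
  let G₀ : Subgroup (XX F) := Subgroup.closure S
  have hG₀L : G₀ ≤ L := by
    rw [Subgroup.closure_le]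
    rintro x ⟨v, hv, hg, rfl⟩
    exact hgen v hv hg
  let T₁ := cl D ![0, 1, 0] (he1 D)
  let T₂ := cl D ![0, 0, 1] (he2 D)
  let T₀ := cl D ![1, 0, 0] (he0 D)
  have hn₁ : ∀ h ∈ G₀, T₁ * h * T₁⁻¹ ∈ G₀ := by
    apply conj_closure
    rintro x ⟨v, hv, hg, rfl⟩
    have hv' : D.N (flip1 v) ≠ 0 := by rwa [N_flip1]
    rw [conj_e1 D v hv hv']
    exact Subgroup.subset_closure ⟨_, hv', isGen_flip1 hg, rfl⟩
  have hn₂ : ∀ h ∈ G₀, T₂ * h * T₂⁻¹ ∈ G₀ := by
    apply conj_closure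
    rintro x ⟨v, hv, hg, rfl⟩
    have hv' : D.N (flip2 v) ≠ 0 := by rwa [N_flip2]
    rw [conj_e2 D v hv hv']
    exact Subgroup.subset_closure ⟨_, hv', isGen_flip2 hg, rfl⟩
  have hcomm : T₂ * T₁ = T₁ * T₂ := by
    show ProjGenLinGroup.mk _ * ProjGenLinGroup.mk _ = ProjGenLinGroup.mk _ * ProjGenLinGroup.mk _
    rw [← map_mul, ← map_mul]
    refine mk_eq_of_smul (s := -1) (by simp) ?_
    rw [Units.val_mul, Units.val_mul, KD.U_val, KD.U_val, Φ_e1, Φ_e2, D.a₁₂]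
    simp
  obtain ⟨K₁, hK₁, hT₁, hsq₁, hform₁⟩ := exists_ext G₀ T₁ (cl_sq D _ _) hn₁
  have hn₂' : ∀ h ∈ K₁, T₂ * h * T₂⁻¹ ∈ K₁ := by
    intro x hx
    rcases hform₁ x hx with hx | ⟨h, hh, rfl⟩
    · exact hK₁ (hn₂ x hx)
    · have e : T₂ * (h * T₁) * T₂⁻¹ = (T₂ * h * T₂⁻¹) * T₁ := by
        have : T₂ * T₁ * T₂⁻¹ = T₁ := by rw [hcomm]; group
        calc T₂ * (h * T₁) * T₂⁻¹ = (T₂ * h * T₂⁻¹) * (T₂ * T₁ * T₂⁻¹) := by group
          _ = _ := by rw [this]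
      rw [e]
      exact K₁.mul_mem (hK₁ (hn₂ h hh)) hT₁
  obtain ⟨K₂, hK₂, hT₂, hsq₂, -⟩ := exists_ext K₁ T₂ (cl_sq D _ _) hn₂'
  have hT₀ : T₀ = T₁ * T₂ := by
    show ProjGenLinGroup.mk _ = ProjGenLinGroup.mk _ * ProjGenLinGroup.mk _
    rw [← map_mul]
    refine mk_eq_of_smul (s := -(D.μ * D.l₁)) (neg_ne_zero.mpr (mul_ne_zero D.hμ D.h₁)) ?_
    rw [Units.val_mul, KD.U_val, KD.U_val, KD.U_val, Φ_e0, Φ_e1, Φ_e2, D.prod]
    rw [Matrix.mul_smul, ← Matrix.mul_assoc, D.a₀₁, Matrix.neg_mul, Matrix.mul_assoc, D.s₁]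
    simp [smul_smul]
  have hT₀K : T₀ ∈ K₂ := by
    rw [hT₀]
    exact K₂.mul_mem (hK₂ hT₁) hT₂
  have hgenG : ∀ v (hv : D.N v ≠ 0), IsGen v → cl D v hv ∈ G₀ := fun v hv hg => Subgroup.subset_closure ⟨v, hv, hg, rfl⟩
  have ha1 : cl D ![1, 1, 0] hv1 ∈ K₂ := hK₂ (hK₁ (hgenG _ _ (Or.inl rfl)))
  have ha3 : cl D ![1, 0, 1] hv3 ∈ K₂ := hK₂ (hK₁ (hgenG _ _ (Or.inr (Or.inr (Or.inl rfl)))))
  have hbig := big_of_data p hodd' K₂ (t₂ := T₁) (t₃ := T₂) (ρ₂ := cl D ![1, 0, 1] hv3 * T₀) (ρ₃ := cl D ![1, 1, 0] hv1 * T₀)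
    (hK₂ hT₁) hT₂ (K₂.mul_mem ha3 hT₀K) (K₂.mul_mem ha1 hT₀K) (cl_sq D _ _)
    (by
      intro h
      obtain ⟨s, hs⟩ := scalar_of_mk_eq_one h
      rw [KD.U_val, Φ_e2] at hs
      have h3 := D.t₂
      rw [hs, Matrix.trace_smul, Matrix.trace_one, Fintype.card_fin] at h3
      have h4 : s * 2 = 0 := by simpa using h3
      have h5 : s = 0 := (mul_eq_zero.mp h4).resolve_right h2
      have h6 := D.s₂
      rw [hs, h5] at h6
      have h7 := congrFun (congrFun h6 0) 0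
      simp at h7
      exact D.h₂ h7.symm)
    (by
      show ProjGenLinGroup.mk _ * ProjGenLinGroup.mk _ * ProjGenLinGroup.mk _ = ProjGenLinGroup.mk _ * (ProjGenLinGroup.mk _ * ProjGenLinGroup.mk _)
      simp only [← map_mul]
      refine mk_eq_of_smul (s := 1) one_ne_zero ?_
      simp only [Units.val_mul, KD.U_val, Φ_v1, Φ_e0, Φ_e2]
      simp only [Matrix.mul_add, Matrix.add_mul, Matrix.mul_assoc, D.r₀₀, D.r₂₀, D.r₂₁, D.r₁₀, D.s₀, D.a₀₂, D.a₁₂, D.a₀₁, Matrix.mul_neg,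
        Matrix.neg_mul, Matrix.mul_smul, Matrix.smul_mul, Matrix.mul_one, Matrix.one_mul, smul_neg, neg_neg, smul_smul]
      module)
    (by
      show ProjGenLinGroup.mk _ * ProjGenLinGroup.mk _ * ProjGenLinGroup.mk _ = ProjGenLinGroup.mk _ * (ProjGenLinGroup.mk _ * ProjGenLinGroup.mk _)
      simp only [← map_mul]
      refine mk_eq_of_smul (s := 1) one_ne_zero ?_
      simp only [Units.val_mul, KD.U_val, Φ_v3, Φ_e0, Φ_e1]
      simp only [Matrix.mul_add, Matrix.add_mul, Matrix.mul_assoc, D.r₀₀, D.r₂₀, D.r₂₁, D.r₁₀, D.s₀, D.a₀₂, D.a₁₂, D.a₀₁, Matrix.mul_neg,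
        Matrix.neg_mul, Matrix.mul_smul, Matrix.smul_mul, Matrix.mul_one, Matrix.one_mul, smul_neg, neg_neg, smul_smul]
      module)
    (by
      have e1 : T₁⁻¹ = T₁ := cl_inv D _ _
      have e2 : (cl D ![1, 1, 0] hv1 * T₀)⁻¹ = T₀ * cl D ![1, 1, 0] hv1 := by
        have e3 : T₀⁻¹ = T₀ := cl_inv D _ _
        rw [_root_.mul_inv_rev, e3, cl_inv D]
      rw [e1, e2]
      show ProjGenLinGroup.mk _ * (ProjGenLinGroup.mk _ * ProjGenLinGroup.mk _) * ProjGenLinGroup.mk _ = ProjGenLinGroup.mk _ * ProjGenLinGroup.mk _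
      simp only [← map_mul]
      symm
      refine mk_eq_of_smul (s := D.l₁) D.h₁ ?_
      simp only [Units.val_mul, KD.U_val, Φ_v1, Φ_e0, Φ_e1]
      simp only [Matrix.mul_add, Matrix.add_mul, Matrix.mul_assoc, D.r₀₀, D.r₁₁, D.r₁₀, D.s₀, D.s₁, D.a₀₁, Matrix.mul_neg,
        Matrix.neg_mul, Matrix.mul_smul, Matrix.smul_mul, Matrix.mul_one, Matrix.one_mul, smul_neg, neg_neg, smul_smul]
      module)
    (by
      show (ProjGenLinGroup.mk _ * ProjGenLinGroup.mk _) ^ 4 ≠ 1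
      rw [← map_mul]
      refine pow4_ne D.s₀ D.s₁ D.a₀₁ h2 D.h₀ D.h₁ hne ?_
      simp only [Units.val_mul, KD.U_val, Φ_v1, Φ_e0, Matrix.add_mul, D.s₀, D.a₀₁]
      module)
    (by
      show (ProjGenLinGroup.mk _ * ProjGenLinGroup.mk _) ^ 4 ≠ 1
      rw [← map_mul]
      refine pow4_ne D.s₀ D.s₂ D.a₀₂ h2 D.h₀ D.h₂ (by rw [← h12]; exact hne) ?_
      simp only [Units.val_mul, KD.U_val, Φ_v3, Φ_e0, Matrix.add_mul, D.s₀, D.a₀₂]
      module)
    (by
      intro n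
      show ((ProjGenLinGroup.mk _ * ProjGenLinGroup.mk _) ^ 2) ^ (p ^ n) ≠ 1
      rw [← map_mul]
      refine pn_ne hF hodd D.s₀ D.s₁ D.a₀₁ h2 D.h₀ D.h₁ ?_ n
      simp only [Units.val_mul, KD.U_val, Φ_v1, Φ_e0, Matrix.add_mul, D.s₀, D.a₀₁]
      module)
  have hsq := sq_mem_of_big p hodd' hF K₂ hbig
  have hp_el : ∀ y : XX F, y ^ p = 1 → y ∈ G₀ := by
    intro y hy
    obtain ⟨k, hk⟩ := hodd
    have hyK : y ∈ K₂ := by
      have : y = (y ^ (k + 1)) ^ 2 := by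
        rw [← pow_mul]
        have e : (k + 1) * 2 = p + 1 := by omega
        rw [e, pow_succ, hy, one_mul]
      rw [this]
      exact hsq _
    have h1 := hsq₁ _ (hsq₂ (y ^ ((k + 1) * (k + 1))) (K₂.pow_mem hyK _))
    have e : ((y ^ ((k + 1) * (k + 1))) ^ 2) ^ 2 = y := by
      rw [← pow_mul, ← pow_mul]
      have e2 : (k + 1) * (k + 1) * (2 * 2) = p * (p + 2) + 1 := by
        subst hk
        ring
      rw [e2, pow_succ, pow_mul, hy, one_pow, one_mul]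
    rwa [e] at h1
  have hpF : (p : F) = 0 := CharP.cast_eq_zero F p
  refine mk_mem_of_elem L (fun b => hG₀L (hp_el _ ?_)) (fun b => hG₀L (hp_el _ ?_)) P hP
  · rw [← map_pow]
    have : E12 b ^ p = 1 := by
      apply Units.ext
      rw [E12_pow, hpF, zero_mul]
      ext i j
      fin_cases i <;> fin_cases j <;> simp
    rw [this, map_one]
  · rw [← map_pow]
    have : E21 b ^ p = 1 := by
      apply Units.ext
      rw [E21_pow, hpF, zero_mul]
      ext i j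
      fin_cases i <;> fin_cases j <;> simp
    rw [this, map_one]

end main

end Cfsg.Agent.H28.KlC
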