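import Mathlib
import Cfsg.Agent.H28.KlC
import Cfsg.Agent.Lib.OmCalc

/-!
# Three-dimensional subspaces: vectors of equal norm are conjugate
-/

set_option autoImplicit false
set_option linter.style.haveILetI false
set_option linter.unusedVariables false
set_option linter.unusedSectionVars false
set_option linter.unusedSimpArgs false

namespace Cfsg.Agent.H28.KlD

open Matrix Subgroup QuadraticMap
open Cfsg.Agent.Lib.PGLMaxA Cfsg.Agent.H28.KlA Cfsg.Agent.H28.KlB Cfsg.Agent.H28.KlC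

section mats

variable {F : Type*} [Field F] [Fintype F]

lemma exists_diag (h2 : (2 : F) ≠ 0) {α β : F} (hα : α ≠ 0) (hβ : β ≠ 0) (d : F) : ∃ x y : F, α * x ^ 2 + β * y ^ 2 = d := by
  classical
  have hchar : ringChar F ≠ 2 := by
    intro h
    apply h2
    have := ringChar.Nat.cast_ringChar (R := F)
    rw [h] at this
    exact_mod_cast this
  have hf : (Polynomial.C α * Polynomial.X ^ 2 : Polynomial F).degree = 2 := by
    rw [Polynomial.degree_C_mul_X_pow 2 hα]; rfl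
  have hg : (Polynomial.C β * Polynomial.X ^ 2 - Polynomial.C d : Polynomial F).degree = 2 := by
    rw [Polynomial.degree_sub_eq_left_of_degree_lt, Polynomial.degree_C_mul_X_pow 2 hβ]
    · rfl
    · rw [Polynomial.degree_C_mul_X_pow 2 hβ]
      exact lt_of_le_of_lt Polynomial.degree_C_le (by norm_num)
  obtain ⟨x, y, h⟩ := FiniteField.exists_root_sum_quadratic hf hg (FiniteField.odd_card_of_char_ne_two hchar)
  refine ⟨x, y, ?_⟩
  simp only [Polynomial.eval_mul, Polynomial.eval_C, Polynomial.eval_pow, Polynomial.eval_X, Polynomial.eval_sub] at h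
  linear_combination h

theorem exists_KD (h2 : (2 : F) ≠ 0) {a₀ a₁ a₂ : F} (h₀ : a₀ ≠ 0) (h₁ : a₁ ≠ 0) (hh₂ : a₂ ≠ 0) :
    ∃ (D : KD F) (κ : F), κ ≠ 0 ∧ κ * D.l₀ = a₀ ∧ κ * D.l₁ = a₁ ∧ κ * D.l₂ = a₂ := by
  set κ : F := -(a₀ * a₁ * a₂) with hκ
  have hκ0 : κ ≠ 0 := neg_ne_zero.mpr (mul_ne_zero (mul_ne_zero h₀ h₁) hh₂)
  set l₀ : F := a₀ / κ with hl₀
  set l₁ : F := a₁ / κ with hl₁
  set l₂ : F := a₂ / κ with hl₂
  have hl₀0 : l₀ ≠ 0 := div_ne_zero h₀ hκ0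
  have hl₁0 : l₁ ≠ 0 := div_ne_zero h₁ hκ0
  have hl₂0 : l₂ ≠ 0 := div_ne_zero hh₂ hκ0
  obtain ⟨x, y, hxy⟩ := exists_diag h2 (one_ne_zero) (neg_ne_zero.mpr hl₀0) l₁
  have hxy' : x ^ 2 - l₀ * y ^ 2 = l₁ := by linear_combination hxy
  let A₀ : M2 F := !![0, 1; l₀, 0]
  let A₁ : M2 F := !![x, y; -l₀ * y, -x]
  have s₀ : A₀ * A₀ = l₀ • 1 := by
    ext i j
    fin_cases i <;> fin_cases j <;> simp [A₀, Matrix.mul_apply, Fin.sum_univ_two]
  have s₁ : A₁ * A₁ = l₁ • 1 := by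
    ext i j
    fin_cases i <;> fin_cases j <;> simp [A₁, Matrix.mul_apply, Fin.sum_univ_two]
    · linear_combination hxy'
    · ring
    · ring
    · linear_combination hxy'
  have a₀₁ : A₁ * A₀ = -(A₀ * A₁) := by
    ext i j
    fin_cases i <;> fin_cases j <;> simp [A₀, A₁, Matrix.mul_apply, Fin.sum_univ_two]
    · ring
    · ring
  have hsq := W_sq s₀ s₁ a₀₁
  have e2 : a₂ ^ 2 * (-(l₀ * l₁)) = l₂ := by
    rw [hl₀, hl₁, hl₂]
    field_simp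
    rw [hκ]
    ring
  refine ⟨{ A₀ := A₀, A₁ := A₁, A₂ := a₂ • (A₀ * A₁), l₀ := l₀, l₁ := l₁, l₂ := l₂, μ := a₂, h₀ := hl₀0, h₁ := hl₁0, h₂ := hl₂0,
            hμ := hh₂, s₀ := s₀, s₁ := s₁, s₂ := ?_, a₀₁ := a₀₁, a₀₂ := ?_, a₁₂ := ?_, t₀ := ?_, t₁ := ?_, t₂ := ?_, prod := rfl },
          κ, hκ0, ?_, ?_, ?_⟩
  · rw [Matrix.smul_mul, Matrix.mul_smul, hsq, smul_smul, smul_smul, ← e2]
    congr 1
    ring
  · have h1 : A₀ * A₁ * A₀ = -(l₀ • A₁) := by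
      rw [Matrix.mul_assoc, a₀₁, Matrix.mul_neg, ← Matrix.mul_assoc, s₀]
      simp
    have h3 : A₀ * (A₀ * A₁) = l₀ • A₁ := by
      rw [← Matrix.mul_assoc, s₀]
      simp
    rw [Matrix.smul_mul, Matrix.mul_smul, h1, h3, smul_neg]
  · have h1 : A₀ * A₁ * A₁ = l₁ • A₀ := by
      rw [Matrix.mul_assoc, s₁]
      simp
    have h3 : A₁ * (A₀ * A₁) = -(l₁ • A₀) := by
      rw [← Matrix.mul_assoc, a₀₁, Matrix.neg_mul, Matrix.mul_assoc, s₁]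
      simp
    rw [Matrix.smul_mul, Matrix.mul_smul, h1, h3, smul_neg, neg_neg]
  · simp [A₀, Matrix.trace_fin_two]
  · simp [A₁, Matrix.trace_fin_two]
  · rw [Matrix.trace_smul]
    simp [A₀, A₁, Matrix.trace_fin_two, Matrix.mul_apply, Fin.sum_univ_two]
  · exact mul_div_cancel₀ _ hκ0
  · exact mul_div_cancel₀ _ hκ0
  · exact mul_div_cancel₀ _ hκ0

lemma exists_value_form (h2 : (2 : F) ≠ 0) {a b c N : F} (hN : N ≠ 0) (h : a ^ 2 + b * c = N) (d : F) (hd : d ≠ 0) :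
    ∃ x y : F, c * x ^ 2 - 2 * a * x * y - b * y ^ 2 = d := by
  by_cases hc : c = 0
  · subst hc
    have ha : a ≠ 0 := by
      rintro rfl
      apply hN
      rw [← h]
      ring
    refine ⟨-(d + b) / (2 * a), 1, ?_⟩
    field_simp
    ring
  · obtain ⟨X, Y, hXY⟩ := exists_diag h2 hc (neg_ne_zero.mpr (div_ne_zero hN hc)) d
    refine ⟨X + a / c * Y, Y, ?_⟩
    rw [← hXY, ← h]
    field_simp
    ring

lemma exists_nonzero_form (h2 : (2 : F) ≠ 0) {a b c N : F} (hN : N ≠ 0) (h : a ^ 2 + b * c = N) :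
    ∃ x y : F, c * x ^ 2 - 2 * a * x * y - b * y ^ 2 ≠ 0 := by
  by_cases hc : c = 0
  · by_cases hb : b = 0
    · subst hc hb
      have ha : a ≠ 0 := by
        rintro rfl
        apply hN
        rw [← h]
        ring
      refine ⟨1, 1, ?_⟩
      ring_nf
      simpa using mul_ne_zero ha h2
    · refine ⟨0, 1, ?_⟩
      simpa using hb
  · refine ⟨1, 0, ?_⟩
    simpa using hc

theorem exists_conj (h2 : (2 : F) ≠ 0) {A B : M2 F} {N : F} (hN : N ≠ 0) (hA : A * A = N • 1) (hB : B * B = N • 1)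
    (tA : Matrix.trace A = 0) (tB : Matrix.trace B = 0) :
    ∃ P : GL (Fin 2) F, (P : M2 F).det = 1 ∧ (P : M2 F) * A * ((P⁻¹ : GL (Fin 2) F) : M2 F) = B := by
  rw [Matrix.trace_fin_two] at tA tB
  have hA11 : A 1 1 = - A 0 0 := by linear_combination tA
  have hB11 : B 1 1 = - B 0 0 := by linear_combination tB
  have eA : A ^ 1 = !![A 0 0, A 0 1; A 1 0, -A 0 0] := by
    rw [pow_one]
    ext i j
    fin_cases i <;> fin_cases j <;> simp [hA11]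
  have eB : B ^ 1 = !![B 0 0, B 0 1; B 1 0, -B 0 0] := by
    rw [pow_one]
    ext i j
    fin_cases i <;> fin_cases j <;> simp [hB11]
  rw [pow_one] at eA eB
  set a := A 0 0
  set b := A 0 1
  set c := A 1 0
  set a' := B 0 0
  set b' := B 0 1
  set c' := B 1 0
  have hNA : a ^ 2 + b * c = N := by
    have := congrFun (congrFun hA 0) 0
    rw [eA] at this
    simp [Matrix.mul_apply, Fin.sum_univ_two] at this
    linear_combination this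
  have hNB : a' ^ 2 + b' * c' = N := by
    have := congrFun (congrFun hB 0) 0
    rw [eB] at this
    simp [Matrix.mul_apply, Fin.sum_univ_two] at this
    linear_combination this
  obtain ⟨x, y, hd⟩ := exists_nonzero_form h2 hN hNA
  set d := c * x ^ 2 - 2 * a * x * y - b * y ^ 2 with hdd
  obtain ⟨x', y', hd'⟩ := exists_value_form h2 hN hNB d hd
  let C₁ : M2 F := !![x, a * x + b * y; y, c * x - a * y]
  let C₂ : M2 F := !![x', a' * x' + b' * y'; y', c' * x' - a' * y']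
  let K : M2 F := !![0, N; 1, 0]
  have dC₁ : C₁.det = d := by
    simp [C₁, Matrix.det_fin_two, hdd]
    ring
  have dC₂ : C₂.det = d := by
    rw [← hd']
    simp [C₂, Matrix.det_fin_two]
    ring
  have r₁ : A * C₁ = C₁ * K := by
    rw [eA]
    ext i j
    fin_cases i <;> fin_cases j <;> simp [C₁, K, Matrix.mul_apply, Fin.sum_univ_two]
    all_goals first | ring1 | (rw [← hNA]; ring1)
  have r₂ : B * C₂ = C₂ * K := by
    rw [eB]
    ext i j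
    fin_cases i <;> fin_cases j <;> simp [C₂, K, Matrix.mul_apply, Fin.sum_univ_two]
    all_goals first | ring1 | (rw [← hNB]; ring1)
  let c₁ : GL (Fin 2) F := Matrix.GeneralLinearGroup.mkOfDetNeZero C₁ (by rw [dC₁]; exact hd)
  let c₂ : GL (Fin 2) F := Matrix.GeneralLinearGroup.mkOfDetNeZero C₂ (by rw [dC₂]; exact hd)
  have v₁ : (c₁ : M2 F) = C₁ := rfl
  have v₂ : (c₂ : M2 F) = C₂ := rfl
  have i₁ : ((c₁⁻¹ : GL (Fin 2) F) : M2 F) * C₁ = 1 := by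
    rw [← v₁]
    exact Units.inv_mul c₁
  have j₂ : C₂ * ((c₂⁻¹ : GL (Fin 2) F) : M2 F) = 1 := by
    rw [← v₂]
    exact Units.mul_inv c₂
  refine ⟨c₂ * c₁⁻¹, ?_, ?_⟩
  · rw [Units.val_mul, Matrix.det_mul, v₂, dC₂]
    have h3 : ((c₁⁻¹ : GL (Fin 2) F) : M2 F).det * C₁.det = 1 := by
      rw [← Matrix.det_mul, i₁, Matrix.det_one]
    rw [dC₁] at h3
    rw [mul_comm]
    exact h3
  · rw [_root_.mul_inv_rev, inv_inv, Units.val_mul, Units.val_mul, v₁, v₂]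
    calc C₂ * ((c₁⁻¹ : GL (Fin 2) F) : M2 F) * A * (C₁ * ((c₂⁻¹ : GL (Fin 2) F) : M2 F))
        = C₂ * (((c₁⁻¹ : GL (Fin 2) F) : M2 F) * (A * C₁)) * ((c₂⁻¹ : GL (Fin 2) F) : M2 F) := by
          simp only [Matrix.mul_assoc]
      _ = C₂ * K * ((c₂⁻¹ : GL (Fin 2) F) : M2 F) := by
          rw [r₁, ← Matrix.mul_assoc _ C₁ K, i₁, Matrix.one_mul]
      _ = B := by
          rw [← r₂, Matrix.mul_assoc, j₂, Matrix.mul_one]

end mats

section lift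

local notation:70 g:71 " ⋆ " x:70 => Matrix.mulVec (Units.val g) x

open Cfsg.Agent.Lib.SympT (GL_ext mulVec_mul_GL mulVec_inv_GL inv_mulVec_GL)

variable {ι : Type} [Fintype ι] [DecidableEq ι] {F : Type*} [Field F] [Fintype F] (Q : QuadraticForm F (ι → F))

/-- `-r_w` lies in `M` (with `Q w = c`). -/
def UU (M : Subgroup (GL ι F)) (c : F) (w : ι → F) : Prop :=
  Q w = c ∧ ∃ g ∈ M, ∀ x, g ⋆ x = (c⁻¹ * polar Q x w) • w - x

/-- Linear combinations. -/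
def bb (b₀ b₁ b₂ : ι → F) (v : Fin 3 → F) : ι → F := v 0 • b₀ + v 1 • b₁ + v 2 • b₂

variable {Q}

/-- The lift of a matrix. -/
def Lift (Q : QuadraticForm F (ι → F)) (M : Subgroup (GL ι F)) (D : KD F) (b₀ b₁ b₂ : ι → F) (X : GL (Fin 2) F) : Prop :=
  ∃ g ∈ M, ∃ δ : F, δ ^ 2 = 1 ∧ (∀ z, polar Q z b₀ = 0 → polar Q z b₁ = 0 → polar Q z b₂ = 0 → g ⋆ z = δ • z) ∧
    ∀ v, ∃ v', g ⋆ bb b₀ b₁ b₂ v = bb b₀ b₁ b₂ v' ∧
      (X : M2 F) * D.Φ v * ((X⁻¹ : GL (Fin 2) F) : M2 F) = D.Φ v'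

variable {M : Subgroup (GL ι F)} {D : KD F} {b₀ b₁ b₂ : ι → F}

lemma Lift.one : Lift Q M D b₀ b₁ b₂ 1 :=
  ⟨1, M.one_mem, 1, by simp, fun z _ _ _ => by simp, fun v => ⟨v, by simp, by simp⟩⟩

lemma Lift.mul {X Y : GL (Fin 2) F} (hX : Lift Q M D b₀ b₁ b₂ X) (hY : Lift Q M D b₀ b₁ b₂ Y) :
    Lift Q M D b₀ b₁ b₂ (X * Y) := by
  obtain ⟨g, hg, δ, hδ, hp, hr⟩ := hX
  obtain ⟨g', hg', δ', hδ', hp', hr'⟩ := hY
  refine ⟨g * g', M.mul_mem hg hg', δ * δ', by rw [mul_pow, hδ, hδ', one_mul], fun z h0 h1 h2 => ?_, fun v => ?_⟩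
  · rw [mulVec_mul_GL, hp' z h0 h1 h2, Matrix.mulVec_smul, hp z h0 h1 h2, smul_smul, mul_comm]
  · obtain ⟨v', h1, h2⟩ := hr' v
    obtain ⟨v'', h3, h4⟩ := hr v'
    refine ⟨v'', by rw [mulVec_mul_GL, h1, h3], ?_⟩
    rw [_root_.mul_inv_rev, Units.val_mul, Units.val_mul, ← h4, ← h2]
    simp only [Matrix.mul_assoc]

lemma Lift.pow {X : GL (Fin 2) F} (hX : Lift Q M D b₀ b₁ b₂ X) (n : ℕ) : Lift Q M D b₀ b₁ b₂ (X ^ n) := by
  induction n with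
  | zero => simpa using Lift.one
  | succ n ih => rw [pow_succ]; exact ih.mul hX

lemma Lift.inv {X : GL (Fin 2) F} (hX : Lift Q M D b₀ b₁ b₂ X) : Lift Q M D b₀ b₁ b₂ X⁻¹ := by
  have h1 : X⁻¹ = X ^ (orderOf X - 1) := by
    have h2 : X ^ (orderOf X - 1) * X = 1 := by
      rw [← pow_succ, Nat.sub_add_cancel (orderOf_pos X), pow_orderOf_eq_one]
    exact (eq_inv_of_mul_eq_one_left h2).symm
  rw [h1]
  exact hX.pow _

/-- The subgroup of liftable matrices. -/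
def LG (Q : QuadraticForm F (ι → F)) (M : Subgroup (GL ι F)) (D : KD F) (b₀ b₁ b₂ : ι → F) : Subgroup (GL (Fin 2) F) where
  carrier := {X | Lift Q M D b₀ b₁ b₂ X}
  mul_mem' := Lift.mul
  one_mem' := Lift.one
  inv_mem' := Lift.inv

lemma Lift.of_mk {X Y : GL (Fin 2) F} (hX : Lift Q M D b₀ b₁ b₂ X) (h : ProjGenLinGroup.mk X = ProjGenLinGroup.mk Y) :
    Lift Q M D b₀ b₁ b₂ Y := by
  rw [ProjGenLinGroup.mk_eq_mk_iff] at h
  obtain ⟨u, rfl⟩ := h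
  obtain ⟨g, hg, δ, hδ, hp, hr⟩ := hX
  refine ⟨g, hg, δ, hδ, hp, fun v => ?_⟩
  obtain ⟨v', h1, h2⟩ := hr v
  refine ⟨v', h1, ?_⟩
  have h3 : ((X * .scalar (Fin 2) u : GL (Fin 2) F) : M2 F) = (u : F) • (X : M2 F) := by
    rw [Units.val_mul]
    ext i j
    simp [Matrix.mul_apply, Matrix.GeneralLinearGroup.scalar, Matrix.scalar, Matrix.diagonal_apply, mul_comm]
  have h4 : (((X * .scalar (Fin 2) u)⁻¹ : GL (Fin 2) F) : M2 F) = (((u⁻¹ : Fˣ) : F)) • ((X⁻¹ : GL (Fin 2) F) : M2 F) := by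
    have h5 : (X * .scalar (Fin 2) u)⁻¹ = X⁻¹ * .scalar (Fin 2) u⁻¹ := by
      rw [_root_.mul_inv_rev]
      have : (Matrix.GeneralLinearGroup.scalar (Fin 2) u)⁻¹ = Matrix.GeneralLinearGroup.scalar (Fin 2) u⁻¹ := by
        rw [map_inv]
      rw [this]
      apply Units.ext
      rw [Units.val_mul, Units.val_mul]
      ext i j
      fin_cases i <;> fin_cases j <;> simp [Matrix.mul_apply, Fin.sum_univ_two, Matrix.GeneralLinearGroup.scalar, Matrix.scalar, Matrix.diagonal_apply, mul_comm]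
    rw [h5, Units.val_mul]
    ext i j
    simp [Matrix.mul_apply, Matrix.GeneralLinearGroup.scalar, Matrix.scalar, Matrix.diagonal_apply, mul_comm]
  rw [h3, h4, Matrix.smul_mul, Matrix.smul_mul, Matrix.mul_smul, h2, smul_smul]
  simp

open Cfsg.Agent.Lib.OrthoBasic

lemma polar_bb (h01 : polar Q b₀ b₁ = 0) (h02 : polar Q b₀ b₂ = 0) (h12 : polar Q b₁ b₂ = 0) (u v : Fin 3 → F) :
    polar Q (bb b₀ b₁ b₂ u) (bb b₀ b₁ b₂ v) = 2 * (u 0 * v 0 * Q b₀ + u 1 * v 1 * Q b₁ + u 2 * v 2 * Q b₂) := by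
  have h10 : polar Q b₁ b₀ = 0 := by rw [polar_comm]; exact h01
  have h20 : polar Q b₂ b₀ = 0 := by rw [polar_comm]; exact h02
  have h21 : polar Q b₂ b₁ = 0 := by rw [polar_comm]; exact h12
  simp only [bb, polar_add_left, polar_add_right, polar_smul_l, polar_smul_r, polar_self', h01, h02, h12, h10, h20, h21]
  ring

lemma Q_bb (h2 : (2 : F) ≠ 0) (h01 : polar Q b₀ b₁ = 0) (h02 : polar Q b₀ b₂ = 0) (h12 : polar Q b₁ b₂ = 0) (v : Fin 3 → F) :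
    Q (bb b₀ b₁ b₂ v) = v 0 ^ 2 * Q b₀ + v 1 ^ 2 * Q b₁ + v 2 ^ 2 * Q b₂ := by
  have h := polar_bb h01 h02 h12 v v
  rw [polar_self'] at h
  have h3 := mul_left_cancel₀ h2 h
  rw [h3]
  ring

lemma bb_sub_smul (a : F) (u v : Fin 3 → F) : bb b₀ b₁ b₂ (a • v - u) = a • bb b₀ b₁ b₂ v - bb b₀ b₁ b₂ u := by
  simp only [bb, Pi.sub_apply, Pi.smul_apply, smul_eq_mul]
  module

lemma polar_bb_perp {z : ι → F} (h0 : polar Q z b₀ = 0) (h1 : polar Q z b₁ = 0) (h2 : polar Q z b₂ = 0) (v : Fin 3 → F) :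
    polar Q z (bb b₀ b₁ b₂ v) = 0 := by
  simp only [bb, polar_add_right, polar_smul_r, h0, h1, h2]
  ring

theorem lift_tau (h2 : (2 : F) ≠ 0) (h01 : polar Q b₀ b₁ = 0) (h02 : polar Q b₀ b₂ = 0) (h12 : polar Q b₁ b₂ = 0) {κ c : F}
    (hκ : κ ≠ 0) (hl₀ : κ * D.l₀ = Q b₀) (hl₁ : κ * D.l₁ = Q b₁) (hl₂ : κ * D.l₂ = Q b₂) (v : Fin 3 → F) (hv : D.N v ≠ 0)
    (hU : UU Q M c (bb b₀ b₁ b₂ v)) : Lift Q M D b₀ b₁ b₂ (D.U v hv) := by
  obtain ⟨hQ, g, hg, hga⟩ := hU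
  have hcN : c = κ * D.N v := by
    rw [← hQ, Q_bb h2 h01 h02 h12, ← hl₀, ← hl₁, ← hl₂]
    simp only [KD.N]
    ring
  have hc : c ≠ 0 := by rw [hcN]; exact mul_ne_zero hκ hv
  refine ⟨g, hg, -1, by ring, fun z h0 h1 h3 => ?_, fun u => ?_⟩
  · rw [hga, polar_bb_perp h0 h1 h3]
    simp
  · refine ⟨(2 * D.Bf v u * (D.N v)⁻¹) • v - u, ?_, KD.conj_U D v u hv⟩
    rw [hga, bb_sub_smul]
    congr 2
    rw [polar_bb h01 h02 h12, ← hl₀, ← hl₁, ← hl₂, hcN]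
    simp only [KD.Bf]
    field_simp

section final

variable {p : ℕ} [hp : Fact p.Prime] [CharP F p]

include hp in
theorem klein_trans (hF : Fintype.card F = p) (hodd : Odd p) (h2 : (2 : F) ≠ 0) {c : F} (hc : c ≠ 0)
    (h01 : polar Q b₀ b₁ = 0) (h02 : polar Q b₀ b₂ = 0) (h12 : polar Q b₁ b₂ = 0) (hq12 : Q b₁ = Q b₂) (hne : Q b₀ ≠ Q b₁)
    (h0 : Q b₀ ≠ 0) (h1 : Q b₁ ≠ 0) (hsum : Q b₀ + Q b₁ = c)
    (u₁ : UU Q M c (b₀ + b₁)) (u₂ : UU Q M c (b₀ - b₁)) (u₃ : UU Q M c (b₀ + b₂)) (u₄ : UU Q M c (b₀ - b₂))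
    (u v : Fin 3 → F) (huv : Q (bb b₀ b₁ b₂ u) = Q (bb b₀ b₁ b₂ v)) (hu : Q (bb b₀ b₁ b₂ u) ≠ 0) :
    ∃ g ∈ M, ∃ δ : F, δ ^ 2 = 1 ∧ (∀ z, polar Q z b₀ = 0 → polar Q z b₁ = 0 → polar Q z b₂ = 0 → g ⋆ z = δ • z) ∧
      g ⋆ bb b₀ b₁ b₂ u = bb b₀ b₁ b₂ v := by
  obtain ⟨D, κ, hκ, hl₀, hl₁, hl₂⟩ := exists_KD h2 h0 h1 (hq12 ▸ h1 : Q b₂ ≠ 0)
  have hQN : ∀ w, Q (bb b₀ b₁ b₂ w) = κ * D.N w := by
    intro w
    rw [Q_bb h2 h01 h02 h12, ← hl₀, ← hl₁, ← hl₂]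
    simp only [KD.N]
    ring
  have h12' : D.l₁ = D.l₂ := by
    apply mul_left_cancel₀ hκ
    rw [hl₁, hl₂, hq12]
  have hne' : D.l₀ ≠ D.l₁ := by
    intro h
    apply hne
    rw [← hl₀, ← hl₁, h]
  have hN' : D.l₀ + D.l₁ ≠ 0 := by
    intro h
    apply hc
    rw [← hsum, ← hl₀, ← hl₁, ← mul_add, h, mul_zero]
  let L : Subgroup (XX F) := (LG Q M D b₀ b₁ b₂).map ProjGenLinGroup.mk
  have hgen : ∀ w (hw : D.N w ≠ 0), IsGen w → cl D w hw ∈ L := by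
    intro w hw hg
    refine ⟨D.U w hw, lift_tau h2 h01 h02 h12 hκ hl₀ hl₁ hl₂ w hw (c := c) ?_, rfl⟩
    rcases hg with rfl | rfl | rfl | rfl
    · convert u₁ using 2
      simp [bb]
    · convert u₂ using 2
      simp [bb, sub_eq_add_neg]
    · convert u₃ using 2
      simp [bb]
    · convert u₄ using 2
      simp [bb, sub_eq_add_neg]
  have hNu : D.N u ≠ 0 := by
    intro h
    apply hu
    rw [hQN, h, mul_zero]
  have hNuv : D.N u = D.N v := by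
    apply mul_left_cancel₀ hκ
    rw [← hQN, ← hQN, huv]
  obtain ⟨P, hdet, hconj⟩ := exists_conj h2 hNu (D.sq u) (by rw [hNuv]; exact D.sq v) (D.trace_Φ u) (D.trace_Φ v)
  obtain ⟨X, hX, hXP⟩ := big_elem p D hF hodd h2 h12' hne' hN' L hgen P hdet
  obtain ⟨g, hg, δ, hδ, hperp, hr⟩ := Lift.of_mk hX hXP
  obtain ⟨v', h3, h4⟩ := hr u
  rw [hconj] at h4
  have h5 : v' = v := (D.Φ_inj h2 h4).symm
  subst h5
  exact ⟨g, hg, δ, hδ, hperp, h3⟩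

end final

end lift

end Cfsg.Agent.H28.KlD
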