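import Mathlib
import Cfsg.Agent.H28.KlD
import Cfsg.Agent.Lib.OmBlk5

/-!
# A frame of mutually orthogonal vectors of equal norm: coordinates and monomial elements
-/

set_option autoImplicit false
set_option linter.unusedVariables false
set_option linter.unusedSectionVars false
set_option linter.unusedSimpArgs false
set_option linter.style.longLine false

namespace Cfsg.Agent.H28.FrA

open Matrix QuadraticMap Cfsg Cfsg.Geo Module
open Cfsg.Agent.Lib.OrthoBasic Cfsg.Agent.Lib.OrthoSiegel Cfsg.Agent.Lib.OmCalc Cfsg.Agent.Lib.OmPair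
  Cfsg.Agent.Lib.OrthGroup Cfsg.Agent.Lib.OrthOmega
open Cfsg.Agent.H28.KlD
open Cfsg.Agent.Lib.SympT (GL_ext mulVec_mul_GL mulVec_inv_GL inv_mulVec_GL)

local notation:70 g:71 " ⋆ " x:70 => Matrix.mulVec (Units.val g) x

variable {ι : Type} [Fintype ι] [DecidableEq ι] {F : Type*} [Field F] [Fintype F]
  {Q : QuadraticForm F (ι → F)} {K : Type} [Fintype K] [DecidableEq K] {e : K → ι → F} {c : F}

/-- A frame: mutually orthogonal spanning vectors of the same non-zero norm. -/
structure Fr (Q : QuadraticForm F (ι → F)) (e : K → ι → F) (c : F) : Prop where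
  hc : c ≠ 0
  h2 : (2 : F) ≠ 0
  he : ∀ i, Q (e i) = c
  ho : ∀ i j, i ≠ j → polar Q (e i) (e j) = 0
  hs : ∀ x, x = ∑ j, ((2 * c)⁻¹ * polar Q x (e j)) • e j

/-- The coordinates. -/
noncomputable def co (Q : QuadraticForm F (ι → F)) (e : K → ι → F) (c : F) (j : K) (x : ι → F) : F :=
  (2 * c)⁻¹ * polar Q x (e j)

lemma co_add (j : K) (x y : ι → F) : co Q e c j (x + y) = co Q e c j x + co Q e c j y := by
  simp only [co, polar_add_left, mul_add]

lemma co_smul (j : K) (a : F) (x : ι → F) : co Q e c j (a • x) = a * co Q e c j x := by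
  simp only [co, polar_smul_l]
  ring

lemma co_sub (j : K) (x y : ι → F) : co Q e c j (x - y) = co Q e c j x - co Q e c j y := by
  simp only [co, polar_sub_left, mul_sub]

lemma co_neg (j : K) (x : ι → F) : co Q e c j (-x) = - co Q e c j x := by
  simp only [co, polar_neg_left, mul_neg]

lemma co_zero (j : K) : co Q e c j (0 : ι → F) = 0 := by
  simp [co]

lemma co_sum {γ : Type*} (s : Finset γ) (j : K) (f : γ → ι → F) :
    co Q e c j (∑ a ∈ s, f a) = ∑ a ∈ s, co Q e c j (f a) := by
  classical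
  induction s using Finset.induction_on with
  | empty => simp [co_zero]
  | insert a s ha ih => rw [Finset.sum_insert ha, Finset.sum_insert ha, co_add, ih]

lemma polar_sum_r {γ : Type*} (s : Finset γ) (f : γ → ι → F) (w : ι → F) :
    polar Q w (∑ a ∈ s, f a) = ∑ a ∈ s, polar Q w (f a) := by
  classical
  induction s using Finset.induction_on with
  | empty => simp
  | insert a s ha ih => rw [Finset.sum_insert ha, Finset.sum_insert ha, polar_add_right, ih]

namespace Fr

variable (h : Fr Q e c)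
include h

lemma polar_self_e (i : K) : polar Q (e i) (e i) = 2 * c := by
  rw [polar_self', h.he]

lemma c2 : 2 * c ≠ 0 := mul_ne_zero h.h2 h.hc

lemma co_e (j i : K) : co Q e c j (e i) = if i = j then 1 else 0 := by
  by_cases hij : i = j
  · subst hij
    simp only [co, if_true, polar_self_e h]
    exact inv_mul_cancel₀ (c2 h)
  · simp [co, hij, h.ho i j hij]

lemma co_e_self (i : K) : co Q e c i (e i) = 1 := by
  rw [co_e h, if_pos rfl]

lemma co_e_ne {i j : K} (hij : i ≠ j) : co Q e c j (e i) = 0 := by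
  rw [co_e h, if_neg hij]

lemma sum_co (x : ι → F) : ∑ j, co Q e c j x • e j = x := (h.hs x).symm

lemma ext_co {x y : ι → F} (hxy : ∀ j, co Q e c j x = co Q e c j y) : x = y := by
  rw [← sum_co h x, ← sum_co h y]
  exact Finset.sum_congr rfl (fun j _ => by rw [hxy])

lemma polar_e (x : ι → F) (j : K) : polar Q x (e j) = 2 * c * co Q e c j x := by
  simp only [co]
  rw [← mul_assoc, mul_inv_cancel₀ (c2 h), one_mul]

lemma zero_of_co {x : ι → F} (hx : ∀ j, co Q e c j x = 0) : x = 0 :=
  ext_co h (fun j => by rw [hx, co_zero])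

lemma polar_eq (x y : ι → F) : polar Q x y = 2 * c * ∑ j, co Q e c j x * co Q e c j y := by
  conv_lhs => rw [← sum_co h y]
  rw [polar_sum_r, Finset.mul_sum]
  refine Finset.sum_congr rfl (fun j _ => ?_)
  rw [polar_smul_r, polar_e h]
  ring

lemma Q_eq (x : ι → F) : Q x = c * ∑ j, co Q e c j x ^ 2 := by
  have h1 := polar_eq h x x
  rw [polar_self'] at h1
  have h2 : (2 : F) * Q x = 2 * (c * ∑ j, co Q e c j x ^ 2) := by
    rw [h1, mul_assoc]
    congr 2
    exact Finset.sum_congr rfl (fun j _ => by ring)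
  exact mul_left_cancel₀ h.h2 h2

lemma act_expand (g : GL ι F) (x : ι → F) : g ⋆ x = ∑ j, co Q e c j x • (g ⋆ e j) := by
  conv_lhs => rw [← sum_co h x]
  rw [Matrix.mulVec_sum]
  exact Finset.sum_congr rfl (fun j _ => by rw [Matrix.mulVec_smul])

/-- A vector with zero coordinates on the moved points is fixed. -/
lemma fix_of (g : GL ι F) {x : ι → F} (hx : ∀ j, co Q e c j x ≠ 0 → g ⋆ e j = e j) : g ⋆ x = x := by
  rw [act_expand h g x]
  conv_rhs => rw [← sum_co h x]
  refine Finset.sum_congr rfl (fun j _ => ?_)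
  by_cases h0 : co Q e c j x = 0
  · rw [h0, zero_smul, zero_smul]
  · rw [hx j h0]

lemma ne_zero_e (i : K) : e i ≠ 0 := by
  intro h0
  have := h.he i
  rw [h0, map_zero] at this
  exact h.hc this.symm

lemma refl_e (a j : K) : refl Q (e a) (e j) = if j = a then - e a else e j := by
  by_cases hj : j = a
  · subst hj
    rw [if_pos rfl, refl_self Q (by rw [h.he]; exact h.hc)]
  · rw [if_neg hj, Cfsg.Agent.Lib.OrthGroup.refl_of_perp Q (h.ho j a hj)]

lemma Q_diff {a b : K} (hab : a ≠ b) : Q (e a - e b) = 2 * c := by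
  have h1 := h.ho a b hab
  rw [Cfsg.Agent.Lib.OrthoBasic.Q_sub, h.he, h.he, h1]
  ring

lemma polar_diff {a b : K} (hab : a ≠ b) (j : K) :
    polar Q (e j) (e a - e b) = 2 * c * ((if j = a then 1 else 0) - (if j = b then 1 else 0)) := by
  rw [polar_sub_right, polar_e h, polar_e h, co_e h, co_e h, mul_sub]

lemma refl_diff {a b : K} (hab : a ≠ b) (j : K) : refl Q (e a - e b) (e j) = e (Equiv.swap a b j) := by
  rw [refl_apply]
  have h1 : B Q (e j) (e a - e b) = polar Q (e j) (e a - e b) := rfl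
  rw [h1, polar_diff h hab, Q_diff h hab]
  have hc2 := c2 h
  by_cases hja : j = a
  · subst hja
    rw [if_pos rfl, if_neg hab, Equiv.swap_apply_left]
    rw [show (2 * c)⁻¹ * (2 * c * (1 - 0)) = 1 by rw [sub_zero, mul_one]; exact inv_mul_cancel₀ hc2]
    simp
  · by_cases hjb : j = b
    · subst hjb
      rw [if_neg hab.symm, if_pos rfl, Equiv.swap_apply_right]
      rw [show (2 * c)⁻¹ * (2 * c * (0 - 1)) = -1 by rw [zero_sub, mul_neg, mul_one, mul_neg, inv_mul_cancel₀ hc2]]
      simp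
    · rw [if_neg hja, if_neg hjb, Equiv.swap_apply_of_ne_of_ne hja hjb]
      simp

end Fr

/-- `M` lies in `Ω` and contains the even monomial products of reflections with square spinor norm. -/
structure MC (Q : QuadraticForm F (ι → F)) (M : Subgroup (GL ι F)) (e : K → ι → F) (c : F) : Prop where
  fr : Fr Q e c
  le : M ≤ omegaGL ⇑Q
  mono : ∀ (L : List (ι → F)) (π : Equiv.Perm K) (ε : K → F), (∀ v ∈ L, Q v ≠ 0) → Even L.length →
    IsSquare (L.map Q).prod → (∀ i, prodR Q L (e i) = ε i • e (π i)) → ∃ g ∈ M, ∀ x, g ⋆ x = prodR Q L x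

variable {M : Subgroup (GL ι F)}

namespace MC

variable (C : MC Q M e c)
include C

lemma iso {g : GL ι F} (hg : g ∈ M) (v : ι → F) : Q (g ⋆ v) = Q v := iso_omega (C.le hg) v

lemma exists_list (π : Equiv.Perm K) : ∃ L : List (ι → F), (∀ v ∈ L, Q v = 2 * c) ∧
    Equiv.Perm.sign π = (-1) ^ L.length ∧ ∀ i, prodR Q L (e i) = e (π i) := by
  induction π using Equiv.Perm.swap_induction_on with
  | one => exact ⟨[], by simp, by simp, by simp⟩
  | swap_mul f x y hxy ih =>
    obtain ⟨L, h1, h2, h3⟩ := ih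
    refine ⟨(e x - e y) :: L, ?_, ?_, ?_⟩
    · intro v hv
      rcases List.mem_cons.1 hv with rfl | hv
      · exact Fr.Q_diff C.fr hxy
      · exact h1 v hv
    · rw [Equiv.Perm.sign_mul, Equiv.Perm.sign_swap hxy, h2, List.length_cons, pow_succ]
      simp
    · intro i
      rw [prodR_cons, LinearEquiv.mul_apply, h3, Fr.refl_diff C.fr hxy, Equiv.Perm.mul_apply]

theorem perm_lift (π : Equiv.Perm K) (hπ : Equiv.Perm.sign π = 1) : ∃ g ∈ M, ∀ i, g ⋆ e i = e (π i) := by
  obtain ⟨L, h1, h2, h3⟩ := exists_list C π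
  have hev : Even L.length := by
    rcases Nat.even_or_odd L.length with h | h
    · exact h
    · rw [hπ, Odd.neg_one_pow h] at h2
      exact absurd h2 (by decide)
  have hc2 := Fr.c2 C.fr
  obtain ⟨g, hg, hgx⟩ := C.mono L π (fun _ => 1) (fun v hv => by rw [h1 v hv]; exact hc2) hev (by
      have : (L.map Q).prod = (2 * c) ^ L.length := by
        rw [List.prod_eq_pow_card _ (2 * c) (by intro x hx; obtain ⟨v, hv, rfl⟩ := List.mem_map.1 hx; exact h1 v hv), List.length_map]
      rw [this]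
      exact hev.isSquare_pow _) (fun i => by rw [h3, one_smul])
  exact ⟨g, hg, fun i => by rw [hgx, h3]⟩

lemma prodR_orth (l : List K) (hl : l.Nodup) (j : K) :
    prodR Q (l.map e) (e j) = if j ∈ l then - e j else e j := by
  induction l with
  | nil => simp
  | cons a l ih =>
    rw [List.map_cons, prodR_cons, LinearEquiv.mul_apply, ih (List.nodup_cons.1 hl).2]
    have hnot := (List.nodup_cons.1 hl).1
    by_cases hja : j = a
    · subst hja
      rw [if_neg hnot, if_pos List.mem_cons_self, Fr.refl_e C.fr, if_pos rfl]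
    · have hmem : j ∈ a :: l ↔ j ∈ l := by simp [hja]
      by_cases hjl : j ∈ l
      · rw [if_pos hjl, if_pos (hmem.2 hjl), map_neg, Fr.refl_e C.fr, if_neg hja]
      · rw [if_neg hjl, if_neg (fun h => hjl (hmem.1 h)), Fr.refl_e C.fr, if_neg hja]

/-- The element `-r_{e_i}`. -/
theorem exists_tau (hn : Odd (Fintype.card K)) (i : K) : ∃ g ∈ M, ∀ x, g ⋆ x = (c⁻¹ * polar Q x (e i)) • e i - x := by
  have hfr := C.fr
  obtain ⟨l, hl⟩ : ∃ l : List K, l = (Finset.univ.erase i).toList := ⟨_, rfl⟩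
  have hnd : l.Nodup := by rw [hl]; exact Finset.nodup_toList _
  have hmem : ∀ j, j ∈ l ↔ j ≠ i := by
    intro j
    rw [hl]
    simp
  have hlen : l.length = Fintype.card K - 1 := by
    rw [hl, Finset.length_toList, Finset.card_erase_of_mem (Finset.mem_univ i), Finset.card_univ]
  have hev : Even (l.map e).length := by
    rw [List.length_map, hlen]
    obtain ⟨r, hr⟩ := hn
    exact ⟨r, by omega⟩
  have hval : ∀ v ∈ l.map e, Q v = c := by
    intro v hv
    obtain ⟨j, -, rfl⟩ := List.mem_map.1 hv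
    exact hfr.he j
  have hprod := prodR_orth C l hnd
  obtain ⟨g, hg, hgx⟩ := C.mono (l.map e) 1 (fun j => if j ∈ l then -1 else 1)
    (fun v hv => by rw [hval v hv]; exact hfr.hc) hev (by
      have : ((l.map e).map Q).prod = c ^ (l.map e).length := by
        rw [List.prod_eq_pow_card _ c (by intro x hx; obtain ⟨v, hv, rfl⟩ := List.mem_map.1 hx; exact hval v hv), List.length_map]
      rw [this]
      exact hev.isSquare_pow _) (fun j => by
        rw [hprod]
        by_cases hj : j ∈ l <;> simp [hj])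
  refine ⟨g, hg, fun x => ?_⟩
  have hact : ∀ j, g ⋆ e j = if j = i then e i else - e j := by
    intro j
    rw [hgx, hprod]
    by_cases hj : j = i
    · subst hj
      rw [if_pos rfl, if_neg (fun h => (hmem j).1 h rfl)]
    · rw [if_neg hj, if_pos ((hmem j).2 hj)]
  rw [hfr.act_expand g x, hfr.polar_e x i]
  have hc := hfr.hc
  apply hfr.ext_co
  intro m
  rw [co_sum, co_sub, co_smul, hfr.co_e]
  simp only [hact, apply_ite (co Q e c m), co_smul, co_neg, hfr.co_e]
  rw [Finset.sum_eq_single m]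
  · by_cases hmi : m = i
    · subst hmi
      simp
      field_simp
      ring
    · simp [hmi, Ne.symm hmi]
  · intro b _ hbm
    by_cases hbi : b = i
    · subst hbi
      simp [hbm]
    · simp [hbi, hbm]
  · simp

/-- The signed double transposition. -/
theorem exists_J {k k' l l' : K} (h1 : k ≠ k') (h2 : k ≠ l) (h3 : k ≠ l') (h4 : k' ≠ l) (h5 : k' ≠ l') (h6 : l ≠ l') :
    ∃ g ∈ M, g ⋆ e k = e k' ∧ g ⋆ e k' = - e k ∧ g ⋆ e l = e l' ∧ g ⋆ e l' = - e l ∧
      ∀ j, j ≠ k → j ≠ k' → j ≠ l → j ≠ l' → g ⋆ e j = e j := by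
  have hfr := C.fr
  obtain ⟨L, hL⟩ : ∃ L : List (ι → F), L = [e k - e k', e k', e l - e l', e l'] := ⟨_, rfl⟩
  have hact : ∀ j, prodR Q L (e j) = refl Q (e k - e k') (refl Q (e k') (refl Q (e l - e l') (refl Q (e l') (e j)))) := by
    intro j
    rw [hL]
    simp only [prodR_cons, prodR_nil, mul_one, LinearEquiv.mul_apply]
  have a1 : prodR Q L (e k) = e k' := by
    rw [hact, hfr.refl_e, if_neg h3, hfr.refl_diff h6, Equiv.swap_apply_of_ne_of_ne h2 h3, hfr.refl_e, if_neg h1,
      hfr.refl_diff h1, Equiv.swap_apply_left]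
  have a2 : prodR Q L (e k') = - e k := by
    rw [hact, hfr.refl_e, if_neg h5, hfr.refl_diff h6, Equiv.swap_apply_of_ne_of_ne h4 h5, hfr.refl_e, if_pos rfl,
      map_neg, hfr.refl_diff h1, Equiv.swap_apply_right]
  have a3 : prodR Q L (e l) = e l' := by
    rw [hact, hfr.refl_e, if_neg h6, hfr.refl_diff h6, Equiv.swap_apply_left, hfr.refl_e, if_neg h5.symm,
      hfr.refl_diff h1, Equiv.swap_apply_of_ne_of_ne h3.symm h5.symm]
  have a4 : prodR Q L (e l') = - e l := by
    rw [hact, hfr.refl_e, if_pos rfl, map_neg, hfr.refl_diff h6, Equiv.swap_apply_right, map_neg, hfr.refl_e,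
      if_neg h4.symm, map_neg, hfr.refl_diff h1, Equiv.swap_apply_of_ne_of_ne h2.symm h4.symm]
  have a5 : ∀ j, j ≠ k → j ≠ k' → j ≠ l → j ≠ l' → prodR Q L (e j) = e j := by
    intro j j1 j2 j3 j4
    rw [hact, hfr.refl_e, if_neg j4, hfr.refl_diff h6, Equiv.swap_apply_of_ne_of_ne j3 j4, hfr.refl_e, if_neg j2,
      hfr.refl_diff h1, Equiv.swap_apply_of_ne_of_ne j1 j2]
  have hc := hfr.hc
  have hc2 := hfr.c2
  obtain ⟨g, hg, hgx⟩ := C.mono L (Equiv.swap k k' * Equiv.swap l l')
    (fun j => if j = k' ∨ j = l' then -1 else 1)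
    (fun v hv => by
      rw [hL] at hv
      simp only [List.mem_cons, List.not_mem_nil, or_false] at hv
      rcases hv with rfl | rfl | rfl | rfl
      · rw [hfr.Q_diff h1]; exact hc2
      · rw [hfr.he]; exact hc
      · rw [hfr.Q_diff h6]; exact hc2
      · rw [hfr.he]; exact hc)
    (by rw [hL]; exact ⟨2, rfl⟩)
    (by
      rw [hL]
      simp only [List.map_cons, List.map_nil, List.prod_cons, List.prod_nil, mul_one, hfr.he, hfr.Q_diff h1, hfr.Q_diff h6]
      exact ⟨2 * c * c, by ring⟩)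
    (fun j => by
      by_cases j1 : j = k
      · subst j1
        rw [a1, Equiv.Perm.mul_apply, Equiv.swap_apply_of_ne_of_ne h2 h3, Equiv.swap_apply_left, if_neg (by simp [h1, h3]), one_smul]
      by_cases j2 : j = k'
      · subst j2
        rw [a2, Equiv.Perm.mul_apply, Equiv.swap_apply_of_ne_of_ne h4 h5, Equiv.swap_apply_right, if_pos (Or.inl rfl)]
        simp
      by_cases j3 : j = l
      · subst j3
        rw [a3, Equiv.Perm.mul_apply, Equiv.swap_apply_left, Equiv.swap_apply_of_ne_of_ne h3.symm h5.symm, if_neg (by simp [h4.symm, h6]), one_smul]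
      by_cases j4 : j = l'
      · subst j4
        rw [a4, Equiv.Perm.mul_apply, Equiv.swap_apply_right, Equiv.swap_apply_of_ne_of_ne h2.symm h4.symm, if_pos (Or.inr rfl)]
        simp
      rw [a5 j j1 j2 j3 j4, Equiv.Perm.mul_apply, Equiv.swap_apply_of_ne_of_ne j3 j4, Equiv.swap_apply_of_ne_of_ne j1 j2,
        if_neg (by simp [j2, j4]), one_smul])
  exact ⟨g, hg, by rw [hgx, a1], by rw [hgx, a2], by rw [hgx, a3], by rw [hgx, a4], fun j j1 j2 j3 j4 => by rw [hgx, a5 j j1 j2 j3 j4]⟩

/-! ### The vectors `w` with `-r_w ∈ M` -/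

lemma U_e (hn : Odd (Fintype.card K)) (i : K) : UU Q M c (e i) :=
  ⟨C.fr.he i, exists_tau C hn i⟩

omit C in
lemma U_neg {w : ι → F} (h : UU Q M c w) : UU Q M c (-w) := by
  obtain ⟨h1, g, hg, hx⟩ := h
  refine ⟨by rw [QuadraticMap.map_neg, h1], g, hg, fun x => ?_⟩
  rw [hx, polar_neg_right]
  simp only [mul_neg, neg_smul, smul_neg, neg_neg]

lemma U_conj {t : GL ι F} (ht : t ∈ M) {w : ι → F} (h : UU Q M c w) : UU Q M c (t ⋆ w) := by
  obtain ⟨h1, g, hg, hx⟩ := h
  have hiso := iso C ht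
  refine ⟨by rw [hiso, h1], t * g * t⁻¹, M.mul_mem (M.mul_mem ht hg) (M.inv_mem ht), fun x => ?_⟩
  have e1 : (t * g * t⁻¹) ⋆ x = t ⋆ (g ⋆ (t⁻¹ ⋆ x)) := by
    rw [mulVec_mul_GL, mulVec_mul_GL]
  rw [e1, hx, Matrix.mulVec_sub, Matrix.mulVec_smul, mulVec_inv_GL]
  congr 3
  rw [← polar_iso hiso (t⁻¹ ⋆ x) w, mulVec_inv_GL]

/-- The sign changes. -/
lemma U_flip (hn : Odd (Fintype.card K)) (i : K) {w : ι → F} (h : UU Q M c w) : UU Q M c (w - (2 * co Q e c i w) • e i) := by
  have hfr := C.fr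
  obtain ⟨g, hg, hx⟩ := exists_tau C hn i
  have h1 := U_neg (U_conj C hg h)
  rw [hx] at h1
  convert h1 using 1
  rw [hfr.polar_e]
  have hc := hfr.hc
  have : c⁻¹ * (2 * c * co Q e c i w) = 2 * co Q e c i w := by field_simp
  rw [this]
  abel

lemma U_flipS (hn : Odd (Fintype.card K)) (S : Finset K) {w : ι → F} (h : UU Q M c w) :
    UU Q M c (w - (2 : F) • ∑ i ∈ S, co Q e c i w • e i) := by
  have hfr := C.fr
  induction S using Finset.induction_on with
  | empty => simpa using h
  | insert a S ha ih =>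
    have h1 := U_flip C hn a ih
    convert h1 using 1
    rw [co_sub, co_smul, co_sum]
    have : ∑ i ∈ S, co Q e c a (co Q e c i w • e i) = 0 := by
      refine Finset.sum_eq_zero (fun i hi => ?_)
      rw [co_smul, hfr.co_e_ne (by rintro rfl; exact ha hi), mul_zero]
    rw [this, Finset.sum_insert ha, smul_add, mul_zero, sub_zero, ← sub_sub, sub_right_comm]
    rw [two_smul F (co Q e c a w • e a), mul_smul, two_smul F (co Q e c a w • e a)]

end MC

end Cfsg.Agent.H28.FrA
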