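import Mathlib
import Cfsg.Agent.H28.FrA

/-!
# From one good Siegel element to all of `Ω`
-/

set_option autoImplicit false
set_option linter.unusedVariables false
set_option linter.unusedSectionVars false
set_option linter.unusedSimpArgs false
set_option linter.style.longLine false

namespace Cfsg.Agent.H28.FrB

open Matrix QuadraticMap Cfsg Cfsg.Geo Module
open Cfsg.Agent.Lib.OrthoBasic Cfsg.Agent.Lib.OrthoSiegel Cfsg.Agent.Lib.OmCalc Cfsg.Agent.Lib.OmPair
  Cfsg.Agent.Lib.OrthGroup Cfsg.Agent.Lib.OrthOmega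
open Cfsg.Agent.H28.KlD Cfsg.Agent.H28.FrA
open Cfsg.Agent.Lib.SympT (GL_ext mulVec_mul_GL mulVec_inv_GL inv_mulVec_GL)

local notation:70 g:71 " ⋆ " x:70 => Matrix.mulVec (Units.val g) x

variable {ι : Type} [Fintype ι] [DecidableEq ι] {F : Type*} [Field F] [Fintype F]
  {Q : QuadraticForm F (ι → F)} {K : Type} [Fintype K] [DecidableEq K] {e : K → ι → F} {c : F}
  {M : Subgroup (GL ι F)}

lemma exists_out (B : Finset K) (h : B.card < Fintype.card K) : ∃ a, a ∉ B := by
  by_contra hc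
  push Not at hc
  have : B = Finset.univ := Finset.eq_univ_iff_forall.2 hc
  rw [this, Finset.card_univ] at h
  exact lt_irrefl _ h

section R

variable {hQ : Nondeg Q}

lemma R_nsmul {z y : ι → F} (h : R hQ M z y) (n : ℕ) : R hQ M z ((n : F) • y) := by
  induction n with
  | zero =>
    rw [Nat.cast_zero, zero_smul]
    exact R_zero h.sing
  | succ n ih =>
    rw [Nat.cast_succ, add_smul, one_smul]
    exact R_add ih h

lemma R_smul' (hpf : ∀ a : F, ∃ n : ℕ, (n : F) = a) {z y : ι → F} (h : R hQ M z y) (a : F) : R hQ M z (a • y) := by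
  obtain ⟨n, rfl⟩ := hpf a
  exact R_nsmul h n

lemma R_sum {z : ι → F} (hz : Q z = 0) {γ : Type*} (S : Finset γ) (f : γ → ι → F) (h : ∀ j ∈ S, R hQ M z (f j)) :
    R hQ M z (∑ j ∈ S, f j) := by
  classical
  induction S using Finset.induction_on with
  | empty =>
    rw [Finset.sum_empty]
    exact R_zero hz
  | insert a S ha ih =>
    rw [Finset.sum_insert ha]
    exact R_add (h a (Finset.mem_insert_self _ _)) (ih (fun j hj => h j (Finset.mem_insert_of_mem hj)))

/-- Two vectors `y ± z` give a Siegel element. -/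
theorem R_of_unit (h2 : (2 : F) ≠ 0) (hc : c ≠ 0) (hpf : ∀ a : F, ∃ n : ℕ, (n : F) = a) {y z : ι → F} (hz : Q z = 0)
    (hyz : polar Q y z = 0) (hy : Q y = c) (u₁ : UU Q M c (y + z)) (u₂ : UU Q M c (y - z)) : R hQ M z y := by
  obtain ⟨-, g₁, hg₁, h₁⟩ := u₁
  obtain ⟨-, g₂, hg₂, h₂⟩ := u₂
  have hzy : polar Q z y = 0 := by rw [polar_comm]; exact hyz
  have h0 : R hQ M z ((-2 * c⁻¹) • y) := by
    refine R_of_mem hQ hz (by rw [polar_smul_r, hzy, mul_zero]) (M.mul_mem hg₁ hg₂) (fun x => ?_)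
    rw [mulVec_mul_GL, h₂, h₁, siegelLin_apply, Cfsg.Agent.Lib.OrthoBasic.Q_smul, hy]
    simp only [polar_add_right, polar_sub_right, polar_sub_left, polar_smul_l, polar_smul_r, polar_self', hy, hz, hyz, hzy]
    have e1 : c⁻¹ * (c⁻¹ * (polar (⇑Q) x y - polar (⇑Q) x z) * (2 * c - 0) - polar (⇑Q) x y +
            (c⁻¹ * (polar (⇑Q) x y - polar (⇑Q) x z) * (0 - 2 * 0) - polar (⇑Q) x z)) =
        c⁻¹ * (polar (⇑Q) x y - 3 * polar (⇑Q) x z) := by
      field_simp
      ring
    have e2 : (-2 * c⁻¹) ^ 2 * c = 4 * c⁻¹ := by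
      field_simp
      ring
    rw [e2]
    rw [e1]
    module
  have := R_smul' hpf h0 ((-2 * c⁻¹)⁻¹)
  rw [smul_smul, inv_mul_cancel₀ (mul_ne_zero (neg_ne_zero.2 h2) (inv_ne_zero hc)), one_smul] at this
  exact this

end R

/-- Stage 2: a single good Siegel element with small centre gives all of `Ω`. -/
theorem stage2 (hQ : Nondeg Q) (C : MC Q M e c) (hn : Odd (Fintype.card K)) (h11 : 11 ≤ Fintype.card ι)
    (hpf : ∀ a : F, ∃ n : ℕ, (n : F) = a) {e₀ : ι → F} {k : K} {A : Finset K}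
    (hA : ∀ j, co Q e c j e₀ ≠ 0 → j ∈ A) (hA5 : A.card ≤ 5) (h13 : 11 ≤ Fintype.card K)
    (he₀ : Q e₀ = 0) (hne : e₀ ≠ 0) (hk : k ∉ A) (hR : R hQ M e₀ (e k)) : omegaGL ⇑Q ≤ M := by
  have hfr := C.fr
  have hc2 := hfr.c2
  have step1 : ∀ j, j ∉ A → R hQ M e₀ (e j) := by
    intro j hj
    by_cases hjk : j = k
    · rw [hjk]; exact hR
    obtain ⟨l, hl⟩ := exists_out (insert k (insert j A)) (by
      have := Finset.card_insert_le k (insert j A)
      have := Finset.card_insert_le j A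
      omega)
    obtain ⟨l', hl'⟩ := exists_out (insert l (insert k (insert j A))) (by
      have := Finset.card_insert_le l (insert k (insert j A))
      have := Finset.card_insert_le k (insert j A)
      have := Finset.card_insert_le j A
      omega)
    simp only [Finset.mem_insert, not_or] at hl hl'
    obtain ⟨hl1, hl2, hl3⟩ := hl
    obtain ⟨hl'0, hl'1, hl'2, hl'3⟩ := hl'
    obtain ⟨g, hg, hgx⟩ := C.perm_lift (Equiv.swap k j * Equiv.swap l l') (by
      rw [Equiv.Perm.sign_mul, Equiv.Perm.sign_swap (Ne.symm hjk), Equiv.Perm.sign_swap (Ne.symm hl'0)]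
      simp)
    have e1 : g ⋆ e₀ = e₀ := by
      refine hfr.fix_of g (fun i hi => ?_)
      have hiA := hA i hi
      have i1 : i ≠ l := by rintro rfl; exact hl3 hiA
      have i2 : i ≠ l' := by rintro rfl; exact hl'3 hiA
      have i3 : i ≠ k := by rintro rfl; exact hk hiA
      have i4 : i ≠ j := by rintro rfl; exact hj hiA
      rw [hgx, Equiv.Perm.mul_apply, Equiv.swap_apply_of_ne_of_ne i1 i2, Equiv.swap_apply_of_ne_of_ne i3 i4]
    have e2 : g ⋆ e k = e j := by
      rw [hgx, Equiv.Perm.mul_apply, Equiv.swap_apply_of_ne_of_ne (Ne.symm hl1) (Ne.symm hl'1), Equiv.swap_apply_left]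
    have := R_conj (C.iso hg) hg hR
    rwa [e1, e2] at this
  have step2 : ∀ z, (∀ i ∈ A, co Q e c i z = 0) → R hQ M e₀ z := by
    intro z hz
    rw [← hfr.sum_co z]
    refine R_sum he₀ _ _ (fun j _ => ?_)
    by_cases hj : j ∈ A
    · rw [hz j hj, zero_smul]
      exact R_zero he₀
    · exact R_smul' hpf (step1 j hj) _
  -- an even permutation moving `A` off itself
  obtain ⟨π, hπs, hπA⟩ : ∃ π : Equiv.Perm K, Equiv.Perm.sign π = 1 ∧ ∀ j ∈ A, π j ∉ A := by
    have hcompl : A.card ≤ (Aᶜ).card := by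
      rw [Finset.card_compl]
      omega
    obtain ⟨B, hB, hBc⟩ := Finset.exists_subset_card_eq hcompl
    obtain ⟨π₀, hπ₀⟩ : ∃ π₀ : Equiv.Perm K, ∀ j ∈ A, π₀ j ∉ A := by
      refine ⟨(Finset.equivOfCardEq hBc.symm).extendSubtype, fun j hj => ?_⟩
      rw [Equiv.extendSubtype_apply_of_mem _ j hj]
      have := hB ((Finset.equivOfCardEq hBc.symm) ⟨j, hj⟩).2
      simpa using this
    by_cases hs : Equiv.Perm.sign π₀ = 1
    · exact ⟨π₀, hs, hπ₀⟩
    · obtain ⟨l, hl⟩ := exists_out A (by omega)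
      obtain ⟨l', hl'⟩ := exists_out (insert l A) (by
        have := Finset.card_insert_le l A
        omega)
      simp only [Finset.mem_insert, not_or] at hl'
      refine ⟨π₀ * Equiv.swap l l', ?_, fun j hj => ?_⟩
      · rw [Equiv.Perm.sign_mul, Equiv.Perm.sign_swap (Ne.symm hl'.1)]
        rcases Int.units_eq_one_or (Equiv.Perm.sign π₀) with h | h
        · exact absurd h hs
        · rw [h]
          simp
      · rw [Equiv.Perm.mul_apply, Equiv.swap_apply_of_ne_of_ne (by rintro rfl; exact hl hj) (by rintro rfl; exact hl'.2 hj)]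
        exact hπ₀ j hj
  obtain ⟨g, hg, hgx⟩ := C.perm_lift π hπs
  have hiso := C.iso hg
  have co_act : ∀ i v, co Q e c (π i) (g ⋆ v) = co Q e c i v := by
    intro i v
    simp only [co]
    rw [← hgx, polar_iso hiso]
  obtain ⟨x, hxd⟩ : ∃ x, x = g ⋆ e₀ := ⟨_, rfl⟩
  have hxco : ∀ i ∈ A, co Q e c i x = 0 := by
    intro i hi
    have h1 := co_act (π.symm i) e₀
    rw [Equiv.apply_symm_apply, ← hxd] at h1
    rw [h1]
    by_contra h3
    have := hπA _ (hA _ h3)
    rw [Equiv.apply_symm_apply] at this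
    exact this hi
  have hxe : polar Q e₀ x = 0 := by
    rw [hfr.polar_eq]
    rw [Finset.sum_eq_zero, mul_zero]
    intro j _
    by_cases h0 : co Q e c j e₀ = 0
    · rw [h0, zero_mul]
    · rw [hxco j (hA j h0), mul_zero]
  obtain ⟨i₀, hi₀⟩ : ∃ i, co Q e c i e₀ ≠ 0 := by
    by_contra hcon
    push Not at hcon
    exact hne (hfr.zero_of_co hcon)
  have hi₀A := hA i₀ hi₀
  obtain ⟨j₀, hj₀⟩ : ∃ j, j = π i₀ := ⟨_, rfl⟩
  have hj₀A : j₀ ∉ A := by rw [hj₀]; exact hπA _ hi₀A
  have hj₀x : co Q e c j₀ x ≠ 0 := by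
    rw [hj₀, hxd, co_act]
    exact hi₀
  have step3 : ∀ y', (∀ j, j ∉ A → co Q e c j y' = 0) → polar Q e₀ y' = 0 → R hQ M e₀ y' := by
    intro y' hy' hpy
    have hz : R hQ M e₀ (g⁻¹ ⋆ y') := by
      refine step2 _ (fun i hi => ?_)
      rw [← co_act i, mulVec_inv_GL]
      exact hy' _ (hπA i hi)
    have hxy : R hQ M x y' := by
      have := R_conj hiso hg hz
      rwa [mulVec_inv_GL, ← hxd] at this
    obtain ⟨hxs, hxyp, hT⟩ := hxy
    have h1 := R_conj (sE_iso hQ hxs hxyp) hT (step1 j₀ hj₀A)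
    have e1 : sE hQ hxs hxyp ⋆ e₀ = e₀ := by
      rw [sE_apply', hxe, hpy]
      simp
    have hj0y : polar Q (e j₀) y' = 0 := by
      rw [polar_comm, hfr.polar_e, hy' j₀ hj₀A, mul_zero]
    rw [e1, sE_apply', hj0y] at h1
    obtain ⟨κ, hκ⟩ : ∃ κ, κ = polar Q (e j₀) x := ⟨_, rfl⟩
    have hκ0 : κ ≠ 0 := by
      rw [hκ, polar_comm, hfr.polar_e]
      exact mul_ne_zero hc2 hj₀x
    rw [← hκ] at h1
    have h2 := R_add (R_sub h1 (step1 j₀ hj₀A)) (R_smul' hpf (step2 x hxco) (0 + Q y' * κ))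
    have h3 := R_smul' hpf h2 κ⁻¹
    convert h3 using 1
    have : e j₀ + κ • y' - (0 + Q y' * κ) • x - e j₀ + (0 + Q y' * κ) • x = κ • y' := by abel
    rw [this, smul_smul, inv_mul_cancel₀ hκ0, one_smul]
  have step4 : T hQ M e₀ := by
    refine ⟨he₀, fun y hy => ?_⟩
    obtain ⟨yA, hyA⟩ : ∃ yA, yA = ∑ i ∈ A, co Q e c i y • e i := ⟨_, rfl⟩
    have hco : ∀ j, co Q e c j yA = if j ∈ A then co Q e c j y else 0 := by
      intro j
      rw [hyA, co_sum]
      by_cases hj : j ∈ A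
      · rw [if_pos hj, Finset.sum_eq_single j]
        · rw [co_smul, hfr.co_e_self, mul_one]
        · intro b _ hb
          rw [co_smul, hfr.co_e_ne hb, mul_zero]
        · exact fun h => absurd hj h
      · rw [if_neg hj]
        refine Finset.sum_eq_zero (fun i hi => ?_)
        rw [co_smul, hfr.co_e_ne (by rintro rfl; exact hj hi), mul_zero]
    have h1 : R hQ M e₀ (y - yA) := by
      refine step2 _ (fun i hi => ?_)
      rw [co_sub, hco, if_pos hi, sub_self]
    have h2 : polar Q e₀ yA = 0 := by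
      have h3 := h1.perp
      rw [polar_sub_right, hy, zero_sub, neg_eq_zero] at h3
      exact h3
    have h4 := R_add h1 (step3 yA (fun j hj => by rw [hco, if_neg hj]) h2)
    rwa [sub_add_cancel] at h4
  obtain ⟨t, ht, htx⟩ := C.exists_tau hn i₀
  have h5 := T_conj (C.iso ht) ht step4
  refine omega_le_of_opp h11 step4 h5 ?_
  rw [htx, polar_sub_left, polar_smul_l, polar_self', he₀, polar_comm Q (e i₀) e₀, hfr.polar_e]
  have hc := hfr.hc
  have : c⁻¹ * (2 * c * co Q e c i₀ e₀) * (2 * c * co Q e c i₀ e₀) - 2 * 0 = 4 * c * co Q e c i₀ e₀ ^ 2 := by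
    field_simp
    ring
  rw [this]
  have h4 : (4 : F) ≠ 0 := by
    have : (4 : F) = 2 * 2 := by norm_num
    rw [this]
    exact mul_ne_zero hfr.h2 hfr.h2
  exact mul_ne_zero (mul_ne_zero h4 hc) (pow_ne_zero _ hi₀)

end Cfsg.Agent.H28.FrB
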