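import Mathlib
import Cfsg.Agent.H28.FrB

/-!
# Vectors of small support
-/

set_option autoImplicit false
set_option linter.unusedVariables false
set_option linter.unusedSectionVars false
set_option linter.unusedSimpArgs false
set_option linter.style.longLine false

namespace Cfsg.Agent.H28.FrC

open Matrix QuadraticMap Cfsg Cfsg.Geo Module
open Cfsg.Agent.Lib.OrthoBasic Cfsg.Agent.Lib.OrthoSiegel Cfsg.Agent.Lib.OmCalc Cfsg.Agent.Lib.OmPair
  Cfsg.Agent.Lib.OrthGroup Cfsg.Agent.Lib.OrthOmega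
open Cfsg.Agent.H28.KlD Cfsg.Agent.H28.FrA Cfsg.Agent.H28.FrB
open Cfsg.Agent.Lib.SympT (GL_ext mulVec_mul_GL mulVec_inv_GL inv_mulVec_GL)

local notation:70 g:71 " ⋆ " x:70 => Matrix.mulVec (Units.val g) x

variable {ι : Type} [Fintype ι] [DecidableEq ι] {F : Type*} [Field F] [Fintype F]
  {Q : QuadraticForm F (ι → F)} {K : Type} [Fintype K] [DecidableEq K] {e : K → ι → F} {c : F}
  {M : Subgroup (GL ι F)}

lemma hpf_of {p : ℕ} [hp : Fact p.Prime] [CharP F p] (hF : Fintype.card F = p) : ∀ a : F, ∃ n : ℕ, (n : F) = a := by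
  intro a
  have hinj : Function.Injective (ZMod.castHom (dvd_refl p) F) := RingHom.injective _
  have hbij : Function.Bijective (ZMod.castHom (dvd_refl p) F) :=
    (Fintype.bijective_iff_injective_and_card _).2 ⟨hinj, by rw [ZMod.card, hF]⟩
  obtain ⟨z, rfl⟩ := hbij.2 a
  refine ⟨z.val, ?_⟩
  rw [← map_natCast (ZMod.castHom (dvd_refl p) F), ZMod.natCast_zmod_val]

/-- The part of `w` on `S`. -/
noncomputable def res (Q : QuadraticForm F (ι → F)) (e : K → ι → F) (c : F) (S : Finset K) (w : ι → F) : ι → F :=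
  ∑ i ∈ S, co Q e c i w • e i

namespace Fr

open Cfsg.Agent.H28.FrA.Fr

variable (h : Fr Q e c)
include h

lemma co_res (S : Finset K) (w : ι → F) (j : K) : co Q e c j (res Q e c S w) = if j ∈ S then co Q e c j w else 0 := by
  rw [res, co_sum]
  by_cases hj : j ∈ S
  · rw [if_pos hj, Finset.sum_eq_single j]
    · rw [co_smul, h.co_e_self, mul_one]
    · intro b _ hb
      rw [co_smul, h.co_e_ne hb, mul_zero]
    · exact fun h => absurd hj h
  · rw [if_neg hj]
    refine Finset.sum_eq_zero (fun i hi => ?_)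
    rw [co_smul, h.co_e_ne (by rintro rfl; exact hj hi), mul_zero]

lemma Q_res (S : Finset K) (w : ι → F) : Q (res Q e c S w) = c * ∑ i ∈ S, co Q e c i w ^ 2 := by
  rw [h.Q_eq]
  congr 1
  simp only [co_res h]
  rw [← Finset.sum_filter_add_sum_filter_not Finset.univ (· ∈ S)]
  have h1 : ∑ x ∈ Finset.univ.filter (fun x => ¬ x ∈ S), (if x ∈ S then co Q e c x w else 0) ^ 2 = 0 := by
    refine Finset.sum_eq_zero (fun i hi => ?_)
    rw [if_neg (Finset.mem_filter.1 hi).2]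
    ring
  rw [h1, add_zero, Finset.filter_mem_eq_inter, Finset.univ_inter]
  refine Finset.sum_congr rfl (fun i hi => by rw [if_pos hi])

lemma polar_res (S : Finset K) (w : ι → F) : polar Q w (res Q e c S w) = 2 * c * ∑ i ∈ S, co Q e c i w ^ 2 := by
  rw [res, polar_sum_r, Finset.mul_sum]
  refine Finset.sum_congr rfl (fun i _ => ?_)
  rw [polar_smul_r, h.polar_e]
  ring

lemma polar_disj {a b : ι → F} (hab : ∀ j, co Q e c j a = 0 ∨ co Q e c j b = 0) : polar Q a b = 0 := by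
  rw [h.polar_eq, Finset.sum_eq_zero, mul_zero]
  intro j _
  rcases hab j with h1 | h1 <;> simp [h1]

lemma sum_sq {w : ι → F} (hw : Q w = c) : ∑ j, co Q e c j w ^ 2 = 1 := by
  have h1 := h.Q_eq w
  rw [hw] at h1
  have hc := h.hc
  exact mul_left_cancel₀ hc (by rw [← h1, mul_one])

end Fr

namespace MC

variable (C : MC Q M e c)
include C

/-- Sign change at `k`: a Siegel vector on an axis. -/
lemma R_flip {hQ : Nondeg Q} (hn : Odd (Fintype.card K)) (hpf : ∀ a : F, ∃ n : ℕ, (n : F) = a) {z y : ι → F} {k : K}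
    (hzk : co Q e c k z = 0) (hyk : co Q e c k y ≠ 0) (hR : R hQ M z y) : R hQ M z (e k) := by
  have hfr := C.fr
  obtain ⟨t, ht, htx⟩ := C.exists_tau hn k
  have h1 := R_conj (C.iso ht) ht hR
  rw [htx, htx, hfr.polar_e, hfr.polar_e, hzk, mul_zero, mul_zero, zero_smul, zero_sub] at h1
  have h2 : R hQ M ((-1 : F) • z) ((c⁻¹ * (2 * c * co Q e c k y)) • e k - y) := by
    rwa [neg_one_smul]
  have h3 := R_smul_right hR.sing (-1) h2
  have hc := hfr.hc
  have hfa : c⁻¹ * (2 * c * co Q e c k y) = 2 * co Q e c k y := by field_simp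
  rw [hfa] at h3
  have h4 := R_sub hR h3
  have e1 : y - (-1 : F) • ((2 * co Q e c k y) • e k - y) = (2 * co Q e c k y) • e k := by module
  rw [e1] at h4
  have h5 := R_smul' hpf h4 (2 * co Q e c k y)⁻¹
  rwa [smul_smul, inv_mul_cancel₀ (mul_ne_zero hfr.h2 hyk), one_smul] at h5

/-- A zero-sum subset gives a Siegel vector. -/
theorem direct {hQ : Nondeg Q} (hn : Odd (Fintype.card K)) (hpf : ∀ a : F, ∃ n : ℕ, (n : F) = a) {w : ι → F}
    (hw : UU Q M c w) {S : Finset K} (hS : ∑ i ∈ S, co Q e c i w ^ 2 = 0) {k : K} (hkS : k ∉ S) (hk : co Q e c k w ≠ 0) :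
    R hQ M (res Q e c S w) (e k) := by
  have hfr := C.fr
  have hQ0 : Q (res Q e c S w) = 0 := by rw [Fr.Q_res hfr, hS, mul_zero]
  have hp : polar Q w (res Q e c S w) = 0 := by rw [Fr.polar_res hfr, hS, mul_zero]
  have hpp : polar Q (w - res Q e c S w) (res Q e c S w) = 0 := by
    rw [polar_sub_left, hp, polar_self', hQ0]
    ring
  have hy : Q (w - res Q e c S w) = c := by
    rw [Cfsg.Agent.Lib.OrthoBasic.Q_sub, hw.1, hQ0, hp]
    ring
  have u1 : UU Q M c ((w - res Q e c S w) + res Q e c S w) := by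
    rwa [sub_add_cancel]
  have u2 : UU Q M c ((w - res Q e c S w) - res Q e c S w) := by
    have := C.U_flipS hn S hw
    convert this using 1
    rw [two_smul, res]
    abel
  have h1 : R hQ M (res Q e c S w) (w - res Q e c S w) := R_of_unit hfr.h2 hfr.hc hpf hQ0 hpp hy u1 u2
  refine R_flip C hn hpf ?_ ?_ h1
  · rw [Fr.co_res hfr, if_neg hkS]
  · rw [co_sub, Fr.co_res hfr, if_neg hkS, sub_zero]
    exact hk

end MC

section stepB

variable {p : ℕ} [hp : Fact p.Prime] [CharP F p]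

include hp in
/-- Step B: a coordinate whose square is not in `{0, 1/2, 1}`, and small support. -/
theorem stepB (hQ : Nondeg Q) (C : MC Q M e c) (hn : Odd (Fintype.card K)) (h11 : 11 ≤ Fintype.card ι) (h13 : 11 ≤ Fintype.card K)
    (hF : Fintype.card F = p) (hodd : Odd p) {w : ι → F} (hw : UU Q M c w) {T : Finset K}
    (hT : ∀ j, co Q e c j w ≠ 0 → j ∈ T) (hT4 : T.card ≤ 4) {k : K} (hk : k ∈ T) {x : F} (hx : x = co Q e c k w)
    (hx0 : x ≠ 0) (hx1 : x ^ 2 ≠ 1) (hx2 : 2 * x ^ 2 ≠ 1) {ζ ω : F} (hzw : ζ ^ 2 + ω ^ 2 = x ^ 2 - 1) (hω : ω ^ 2 ≠ 1) :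
    omegaGL ⇑Q ≤ M := by
  have hfr := C.fr
  have hc := hfr.hc
  have h2 := hfr.h2
  have hc2 := hfr.c2
  have hpf := hpf_of hF
  -- new coordinates
  obtain ⟨k', hk'⟩ := exists_out T (by omega)
  obtain ⟨k'', hk''⟩ := exists_out (insert k' T) (by
    have := Finset.card_insert_le k' T
    omega)
  obtain ⟨l, hl⟩ := exists_out (insert k'' (insert k' T)) (by
    have := Finset.card_insert_le k' T
    have := Finset.card_insert_le k'' (insert k' T)
    omega)
  obtain ⟨l', hl'⟩ := exists_out (insert l (insert k'' (insert k' T))) (by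
    have := Finset.card_insert_le k' T
    have := Finset.card_insert_le k'' (insert k' T)
    have := Finset.card_insert_le l (insert k'' (insert k' T))
    omega)
  simp only [Finset.mem_insert, not_or] at hk'' hl hl'
  obtain ⟨hk''1, hk''2⟩ := hk''
  obtain ⟨hl1, hl2, hl3⟩ := hl
  obtain ⟨hl'1, hl'2, hl'3, hl'4⟩ := hl'
  have hkk' : k ≠ k' := by rintro rfl; exact hk' hk
  have hkk'' : k ≠ k'' := by rintro rfl; exact hk''2 hk
  have hkl : k ≠ l := by rintro rfl; exact hl3 hk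
  have hkl' : k ≠ l' := by rintro rfl; exact hl'4 hk
  obtain ⟨f, hf⟩ : ∃ f, f = w - x • e k := ⟨_, rfl⟩
  have hcof : ∀ j, co Q e c j f = co Q e c j w - x * (if k = j then 1 else 0) := by
    intro j
    rw [hf, co_sub, co_smul, hfr.co_e]
  have hfk : co Q e c k f = 0 := by
    rw [hcof, if_pos rfl, mul_one, hx, sub_self]
  have hfT : ∀ j, co Q e c j f ≠ 0 → j ∈ T ∧ j ≠ k := by
    intro j hj
    have hjk : j ≠ k := by rintro rfl; exact hj hfk
    refine ⟨hT j ?_, hjk⟩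
    rw [hcof, if_neg (Ne.symm hjk), mul_zero, sub_zero] at hj
    exact hj
  have hf0 : ∀ j, j ∉ T → co Q e c j f = 0 := by
    intro j hj
    by_contra h0
    exact hj (hfT j h0).1
  have hpf_e : ∀ j, j ∉ T → polar Q f (e j) = 0 := by
    intro j hj
    rw [hfr.polar_e, hf0 j hj, mul_zero]
  have hpfk : polar Q f (e k) = 0 := by rw [hfr.polar_e, hfk, mul_zero]
  have hwf : w = f + x • e k := by rw [hf]; abel
  have hQf : Q f = c * (1 - x ^ 2) := by
    have h3 : Q (f + x • e k) = Q f + x ^ 2 * c + x * polar Q f (e k) := by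
      rw [Cfsg.Agent.Lib.OrthoBasic.Q_add, Cfsg.Agent.Lib.OrthoBasic.Q_smul, hfr.he, polar_smul_r]
    rw [← hwf, hw.1, hpfk] at h3
    linear_combination -h3
  -- the monomial elements
  obtain ⟨J₁, hJ₁, hJ₁x⟩ := C.perm_lift (Equiv.swap k k' * Equiv.swap l l') (by
    rw [Equiv.Perm.sign_mul, Equiv.Perm.sign_swap hkk', Equiv.Perm.sign_swap (Ne.symm hl'1)]
    simp)
  obtain ⟨J₂, hJ₂, hJ₂x⟩ := C.perm_lift (Equiv.swap k' k'' * Equiv.swap l l') (by
    rw [Equiv.Perm.sign_mul, Equiv.Perm.sign_swap (Ne.symm hk''1), Equiv.Perm.sign_swap (Ne.symm hl'1)]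
    simp)
  have hJ₁f : J₁ ⋆ f = f := by
    refine hfr.fix_of J₁ (fun j hj => ?_)
    obtain ⟨j1, j2⟩ := hfT j hj
    have j3 : j ≠ l := by rintro rfl; exact hl3 j1
    have j4 : j ≠ l' := by rintro rfl; exact hl'4 j1
    have j5 : j ≠ k' := by rintro rfl; exact hk' j1
    rw [hJ₁x, Equiv.Perm.mul_apply, Equiv.swap_apply_of_ne_of_ne j3 j4, Equiv.swap_apply_of_ne_of_ne j2 j5]
  have hJ₁k : J₁ ⋆ e k = e k' := by
    rw [hJ₁x, Equiv.Perm.mul_apply, Equiv.swap_apply_of_ne_of_ne hkl hkl', Equiv.swap_apply_left]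
  have hJ₂f : J₂ ⋆ f = f := by
    refine hfr.fix_of J₂ (fun j hj => ?_)
    obtain ⟨j1, j2⟩ := hfT j hj
    have j3 : j ≠ l := by rintro rfl; exact hl3 j1
    have j4 : j ≠ l' := by rintro rfl; exact hl'4 j1
    have j5 : j ≠ k' := by rintro rfl; exact hk' j1
    have j6 : j ≠ k'' := by rintro rfl; exact hk''2 j1
    rw [hJ₂x, Equiv.Perm.mul_apply, Equiv.swap_apply_of_ne_of_ne j3 j4, Equiv.swap_apply_of_ne_of_ne j5 j6]
  have hJ₂k : J₂ ⋆ e k = e k := by
    rw [hJ₂x, Equiv.Perm.mul_apply, Equiv.swap_apply_of_ne_of_ne hkl hkl', Equiv.swap_apply_of_ne_of_ne hkk' hkk'']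
  have hJ₂k' : J₂ ⋆ e k' = e k'' := by
    rw [hJ₂x, Equiv.Perm.mul_apply, Equiv.swap_apply_of_ne_of_ne (Ne.symm hl2) (Ne.symm hl'3), Equiv.swap_apply_left]
  -- the Klein subspace
  have h01 : polar Q f (x • e k) = 0 := by rw [polar_smul_r, hpfk, mul_zero]
  have h02 : polar Q f (x • e k') = 0 := by rw [polar_smul_r, hpf_e k' hk', mul_zero]
  have h12 : polar Q (x • e k) (x • e k') = 0 := by
    rw [polar_smul_r, polar_smul_l, hfr.ho k k' hkk', mul_zero, mul_zero]
  have hq1 : Q (x • e k) = c * x ^ 2 := by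
    rw [Cfsg.Agent.Lib.OrthoBasic.Q_smul, hfr.he, mul_comm]
  have hq2 : Q (x • e k') = c * x ^ 2 := by
    rw [Cfsg.Agent.Lib.OrthoBasic.Q_smul, hfr.he, mul_comm]
  have hne1 : 1 - x ^ 2 ≠ 0 := fun h3 => hx1 (by linear_combination -h3)
  have u₁ : UU Q M c (f + x • e k) := by rwa [← hwf]
  have hflip : f - x • e k = w - (2 * co Q e c k w) • e k := by
    rw [← hx, hf, mul_smul, two_smul]
    abel
  have u₂ : UU Q M c (f - x • e k) := by
    rw [hflip]
    exact C.U_flip hn k hw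
  have u₃ : UU Q M c (f + x • e k') := by
    have h3 := C.U_conj hJ₁ u₁
    rwa [Matrix.mulVec_add, Matrix.mulVec_smul, hJ₁f, hJ₁k] at h3
  have u₄ : UU Q M c (f - x • e k') := by
    have h3 := C.U_conj hJ₁ u₂
    rwa [Matrix.mulVec_sub, Matrix.mulVec_smul, hJ₁f, hJ₁k] at h3
  have hK := klein_trans hF hodd h2 hc h01 h02 h12 (by rw [hq1, hq2])
    (by
      rw [hQf, hq1]
      intro h3
      have h4 := mul_left_cancel₀ hc h3
      exact hx2 (by linear_combination -h4))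
    (by rw [hQf]; exact mul_ne_zero hc hne1)
    (by rw [hq1]; exact mul_ne_zero hc (pow_ne_zero _ hx0))
    (by rw [hQf, hq1]; ring) u₁ u₂ u₃ u₄
  have hQbb : ∀ v : Fin 3 → F, Q (bb f (x • e k) (x • e k') v) = c * ((1 - x ^ 2) * v 0 ^ 2 + x ^ 2 * v 1 ^ 2 + x ^ 2 * v 2 ^ 2) := by
    intro v
    rw [Q_bb h2 h01 h02 h12, hQf, hq1, hq2]
    ring
  have hSY : ∀ v : Fin 3 → F, Q (bb f (x • e k) (x • e k') v) = c → UU Q M c (bb f (x • e k) (x • e k') v) := by
    intro v hv
    have hbw : bb f (x • e k) (x • e k') ![1, 1, 0] = f + x • e k := by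
      simp [bb]
    obtain ⟨g, hg, -, -, -, hgx⟩ := hK ![1, 1, 0] v (by rw [hv, hbw, ← hwf, hw.1]) (by rw [hbw, ← hwf, hw.1]; exact hc)
    have := C.U_conj hg u₁
    rw [← hbw, hgx] at this
    exact this
  -- the singular vector
  obtain ⟨z, hz⟩ : ∃ z, z = f + ζ • e k' + ω • e k'' := ⟨_, rfl⟩
  have hd : c * (1 - x ^ 2) ≠ 0 := mul_ne_zero hc hne1
  obtain ⟨α, β, hαβ⟩ := exists_diag h2 hd hc (c * (1 - ω ^ 2))
  have hω1 : 1 - ω ^ 2 ≠ 0 := fun h3 => hω (by linear_combination -h3)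
  have hxi : x * x⁻¹ = 1 := mul_inv_cancel₀ hx0
  have hb1 : bb f (x • e k) (x • e k') ![α, β * x⁻¹, 0] = α • f + β • e k := by
    simp only [bb, Matrix.cons_val_zero, Matrix.cons_val_one, Matrix.cons_val, smul_smul, zero_mul, zero_smul, add_zero]
    rw [mul_assoc, inv_mul_cancel₀ hx0, mul_one]
  have hb2 : bb f (x • e k) (x • e k') ![1, x⁻¹, ζ * x⁻¹] = f + e k + ζ • e k' := by
    simp only [bb, Matrix.cons_val_zero, Matrix.cons_val_one, Matrix.cons_val, smul_smul, one_smul]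
    rw [inv_mul_cancel₀ hx0, mul_assoc, inv_mul_cancel₀ hx0, mul_one, one_smul]
  have hq3 : Q (bb f (x • e k) (x • e k') ![α, β * x⁻¹, 0]) = c * (1 - ω ^ 2) := by
    rw [hQbb]
    simp only [Matrix.cons_val_zero, Matrix.cons_val_one, Matrix.cons_val]
    rw [← hαβ]
    field_simp
    ring
  have hq4 : Q (bb f (x • e k) (x • e k') ![1, x⁻¹, ζ * x⁻¹]) = c * (1 - ω ^ 2) := by
    rw [hQbb]
    simp only [Matrix.cons_val_zero, Matrix.cons_val_one, Matrix.cons_val]
    field_simp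
    linear_combination hzw
  obtain ⟨g, hg, δ, hδ, hgz, hgx⟩ := hK ![α, β * x⁻¹, 0] ![1, x⁻¹, ζ * x⁻¹] (by rw [hq3, hq4]) (by rw [hq3]; exact mul_ne_zero hc hω1)
  rw [hb1, hb2] at hgx
  have hk''c : k'' ≠ k := Ne.symm hkk''
  have hgk'' : g ⋆ e k'' = δ • e k'' := by
    refine hgz _ ?_ ?_ ?_
    · rw [polar_comm]; exact hpf_e k'' hk''2
    · rw [polar_smul_r, hfr.ho k'' k hk''c, mul_zero]
    · rw [polar_smul_r, hfr.ho k'' k' hk''1, mul_zero]
  -- the vector `α f + β e_k + δ ω e_k'` of norm `c`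
  have hu3 : UU Q M c (α • f + β • e k + (δ * ω) • e k') := by
    have h3 := hSY ![α, β * x⁻¹, δ * ω * x⁻¹] (by
      rw [hQbb]
      simp only [Matrix.cons_val_zero, Matrix.cons_val_one, Matrix.cons_val]
      have e3 : c * ((1 - x ^ 2) * α ^ 2 + x ^ 2 * (β * x⁻¹) ^ 2 + x ^ 2 * (δ * ω * x⁻¹) ^ 2) =
          c * (1 - x ^ 2) * α ^ 2 + c * β ^ 2 + c * δ ^ 2 * ω ^ 2 := by
        field_simp
      rw [e3, hαβ, hδ]
      ring)
    convert h3 using 1
    simp only [bb, Matrix.cons_val_zero, Matrix.cons_val_one, Matrix.cons_val, smul_smul]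
    rw [mul_assoc, inv_mul_cancel₀ hx0, mul_one, mul_assoc, inv_mul_cancel₀ hx0, mul_one]
  have hu4 : UU Q M c (α • f + β • e k + (δ * ω) • e k'') := by
    have h3 := C.U_conj hJ₂ hu3
    rwa [Matrix.mulVec_add, Matrix.mulVec_add, Matrix.mulVec_smul, Matrix.mulVec_smul, Matrix.mulVec_smul, hJ₂f, hJ₂k, hJ₂k'] at h3
  have hu5 : UU Q M c (e k + z) := by
    have h3 := C.U_conj hg hu4
    rw [Matrix.mulVec_add, hgx, Matrix.mulVec_smul, hgk'', smul_smul] at h3
    have e4 : δ * ω * δ = ω := by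
      linear_combination ω * hδ
    rw [e4] at h3
    convert h3 using 1
    rw [hz]
    abel
  have hcoz : co Q e c k z = 0 := by
    rw [hz, co_add, co_add, hfk, co_smul, co_smul, hfr.co_e_ne (Ne.symm hkk'), hfr.co_e_ne (Ne.symm hkk'')]
    ring
  have hu6 : UU Q M c (e k - z) := by
    have h3 := MC.U_neg (C.U_flip hn k hu5)
    rw [co_add, hcoz, hfr.co_e_self] at h3
    convert h3 using 1
    have : (2 * (1 + 0) : F) = 2 := by ring
    rw [this, two_smul]
    abel
  have hpz : polar Q (e k) z = 0 := by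
    rw [polar_comm, hfr.polar_e, hcoz, mul_zero]
  have h0k' : polar Q f (e k'') = 0 := hpf_e k'' hk''2
  have hQz : Q z = 0 := by
    have h3 : Q (f + ζ • e k' + ω • e k'') = Q (bb f (e k') (e k'') ![1, ζ, ω]) := by
      simp [bb]
    rw [hz, h3, Q_bb h2 (hpf_e k' hk') h0k' (hfr.ho k' k'' (Ne.symm hk''1)), hQf, hfr.he, hfr.he]
    simp only [Matrix.cons_val_zero, Matrix.cons_val_one, Matrix.cons_val]
    linear_combination c * hzw
  have hR : R hQ M z (e k) := R_of_unit h2 hc hpf hQz hpz (hfr.he k) hu5 hu6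
  have hz0 : z ≠ 0 := by
    intro h0
    have h3 : polar Q z f = 2 * Q f := by
      rw [hz, polar_add_left, polar_add_left, polar_self', polar_smul_l, polar_smul_l, polar_comm Q (e k') f,
        polar_comm Q (e k'') f, hpf_e k' hk', h0k']
      ring
    rw [h0, polar_zero_left, hQf] at h3
    exact mul_ne_zero h2 hd h3.symm
  refine stage2 hQ C hn h11 hpf (A := insert k' (insert k'' (T.erase k))) (k := k) ?_ ?_ h13 hQz hz0 ?_ hR
  · intro j hj
    simp only [Finset.mem_insert, Finset.mem_erase]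
    by_contra hcon
    push Not at hcon
    obtain ⟨j1, j2, j3⟩ := hcon
    apply hj
    rw [hz, co_add, co_add, co_smul, co_smul, hfr.co_e_ne (Ne.symm j1), hfr.co_e_ne (Ne.symm j2)]
    have : co Q e c j f = 0 := by
      by_contra h0
      obtain ⟨a, b⟩ := hfT j h0
      exact j3 b a
    rw [this]
    ring
  · have h3 := Finset.card_insert_le k' (insert k'' (T.erase k))
    have h4 := Finset.card_insert_le k'' (T.erase k)
    have h5 := Finset.card_erase_of_mem hk
    have h6 : 0 < T.card := Finset.card_pos.2 ⟨k, hk⟩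
    omega
  · simp only [Finset.mem_insert, Finset.mem_erase, not_or, not_and, not_not]
    exact ⟨hkk', hkk'', fun h => (h rfl).elim⟩

end stepB

end Cfsg.Agent.H28.FrC
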