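import Mathlib
import Cfsg.Agent.H28.FrC

/-!
# Reducing the support
-/

set_option autoImplicit false
set_option linter.unusedVariables false
set_option linter.unusedSectionVars false
set_option linter.unusedSimpArgs false
set_option linter.style.longLine false

namespace Cfsg.Agent.H28.FrD

open Matrix QuadraticMap Cfsg Cfsg.Geo Module
open Cfsg.Agent.Lib.OrthoBasic Cfsg.Agent.Lib.OrthoSiegel Cfsg.Agent.Lib.OmCalc Cfsg.Agent.Lib.OmPair
  Cfsg.Agent.Lib.OrthGroup Cfsg.Agent.Lib.OrthOmega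
open Cfsg.Agent.H28.KlD Cfsg.Agent.H28.FrA Cfsg.Agent.H28.FrB Cfsg.Agent.H28.FrC
open Cfsg.Agent.Lib.SympT (GL_ext mulVec_mul_GL mulVec_inv_GL inv_mulVec_GL)

local notation:70 g:71 " ⋆ " x:70 => Matrix.mulVec (Units.val g) x

variable {ι : Type} [Fintype ι] [DecidableEq ι] {F : Type*} [Field F] [Fintype F]
  {Q : QuadraticForm F (ι → F)} {K : Type} [Fintype K] [DecidableEq K] {e : K → ι → F} {c : F}
  {M : Subgroup (GL ι F)}

lemma Q_bb' (h2 : (2 : F) ≠ 0) {a b : ι → F} (hab : polar Q a b = 0) (x y : F) :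
    Q (x • a + y • b) = x ^ 2 * Q a + y ^ 2 * Q b := by
  rw [Cfsg.Agent.Lib.OrthoBasic.Q_add, Cfsg.Agent.Lib.OrthoBasic.Q_smul, Cfsg.Agent.Lib.OrthoBasic.Q_smul, polar_smul_l, polar_smul_r, hab]
  ring

lemma exists_circle_B (h2 : (2 : F) ≠ 0) (h3 : (3 : F) ≠ 0) (h5 : (5 : F) ≠ 0) (m : F) :
    ∃ ζ ω : F, ζ ^ 2 + ω ^ 2 = m ∧ ω ^ 2 ≠ 1 := by
  obtain ⟨ζ₀, ω₀, h0⟩ := exists_diag h2 (one_ne_zero (α := F)) (one_ne_zero (α := F)) m
  have h0' : ζ₀ ^ 2 + ω₀ ^ 2 = m := by linear_combination h0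
  by_cases a0 : ω₀ ^ 2 = 1
  · by_cases a1 : ((4 * ζ₀ + 3 * ω₀) / 5) ^ 2 = 1
    · by_cases a2 : ((4 * ζ₀ - 3 * ω₀) / 5) ^ 2 = 1
      · exfalso
        have b1 : (4 * ζ₀ + 3 * ω₀) ^ 2 = 25 := by
          field_simp at a1
          linear_combination a1
        have b2 : (4 * ζ₀ - 3 * ω₀) ^ 2 = 25 := by
          field_simp at a2
          linear_combination a2
        have b3 : 48 * (ζ₀ * ω₀) = 0 := by linear_combination (1 / 1 : F) * b1 - b2
        have h48 : (48 : F) ≠ 0 := by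
          have : (48 : F) = 2 * 2 * 2 * 2 * 3 := by norm_num
          rw [this]
          exact mul_ne_zero (mul_ne_zero (mul_ne_zero (mul_ne_zero h2 h2) h2) h2) h3
        have b4 : ζ₀ * ω₀ = 0 := (mul_eq_zero.1 b3).resolve_left h48
        have hω0 : ω₀ ≠ 0 := by
          rintro rfl
          norm_num at a0
        have b5 : ζ₀ = 0 := (mul_eq_zero.1 b4).resolve_right hω0
        rw [b5] at b1
        have b6 : (16 : F) = 0 := by linear_combination -(1 : F) * b1 + 9 * a0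
        have : (16 : F) = 2 * 2 * 2 * 2 := by norm_num
        rw [this] at b6
        exact mul_ne_zero (mul_ne_zero (mul_ne_zero h2 h2) h2) h2 b6
      · refine ⟨(3 * ζ₀ + 4 * ω₀) / 5, (4 * ζ₀ - 3 * ω₀) / 5, ?_, a2⟩
        rw [← h0']
        field_simp
        ring
    · refine ⟨(3 * ζ₀ - 4 * ω₀) / 5, (4 * ζ₀ + 3 * ω₀) / 5, ?_, a1⟩
      rw [← h0']
      field_simp
      ring
  · exact ⟨ζ₀, ω₀, h0', a0⟩

lemma exists_circle_A (h2 : (2 : F) ≠ 0) (h3 : (3 : F) ≠ 0) (h5 : (5 : F) ≠ 0) {β x y : F} (hβ : β ≠ 0) (hx : x ≠ 0) (hy : y ≠ 0) :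
    ∃ η ζ : F, β * η ^ 2 + β * ζ ^ 2 = 1 ∧ η * x - ζ * y ≠ 0 ∧ η * y + ζ * x ≠ 0 := by
  obtain ⟨η₀, ζ₀, h0⟩ := exists_diag h2 hβ hβ 1
  have hne : ¬ (η₀ = 0 ∧ ζ₀ = 0) := by
    rintro ⟨rfl, rfl⟩
    norm_num at h0
  by_cases hxy : x ^ 2 = y ^ 2
  · have key : ∀ η ζ : F, η ^ 2 ≠ ζ ^ 2 → η * x - ζ * y ≠ 0 ∧ η * y + ζ * x ≠ 0 := by
      intro η ζ h
      constructor
      · intro h1
        apply h
        have h4 : η * x = ζ * y := by linear_combination h1
        have h5 : η ^ 2 * x ^ 2 = ζ ^ 2 * x ^ 2 := by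
          calc η ^ 2 * x ^ 2 = (η * x) ^ 2 := by ring
            _ = (ζ * y) ^ 2 := by rw [h4]
            _ = ζ ^ 2 * y ^ 2 := by ring
            _ = ζ ^ 2 * x ^ 2 := by rw [hxy]
        exact mul_right_cancel₀ (pow_ne_zero 2 hx) h5
      · intro h1
        apply h
        have h4 : η * y = - (ζ * x) := by linear_combination h1
        have h5 : η ^ 2 * y ^ 2 = ζ ^ 2 * y ^ 2 := by
          calc η ^ 2 * y ^ 2 = (η * y) ^ 2 := by ring
            _ = (ζ * x) ^ 2 := by rw [h4]; ring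
            _ = ζ ^ 2 * x ^ 2 := by ring
            _ = ζ ^ 2 * y ^ 2 := by rw [hxy]
        exact mul_right_cancel₀ (pow_ne_zero 2 hy) h5
    by_cases ha : η₀ ^ 2 = ζ₀ ^ 2
    · have hη : η₀ ≠ 0 := by
        rintro rfl
        apply hne
        refine ⟨rfl, ?_⟩
        have : ζ₀ ^ 2 = 0 := by rw [← ha]; ring
        exact pow_eq_zero_iff (two_ne_zero) |>.1 this
      have hζ : ζ₀ ≠ 0 := by
        rintro rfl
        apply hη
        have : η₀ ^ 2 = 0 := by rw [ha]; ring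
        exact pow_eq_zero_iff (two_ne_zero) |>.1 this
      refine ⟨(3 * η₀ - 4 * ζ₀) / 5, (4 * η₀ + 3 * ζ₀) / 5, ?_, key _ _ ?_⟩
      · rw [← h0]
        field_simp
        ring
      · intro h1
        field_simp at h1
        have h4 : 48 * (η₀ * ζ₀) = 0 := by linear_combination -(1 : F) * h1 + (-7 : F) * ha
        have h48 : (48 : F) ≠ 0 := by
          have : (48 : F) = 2 * 2 * 2 * 2 * 3 := by norm_num
          rw [this]
          exact mul_ne_zero (mul_ne_zero (mul_ne_zero (mul_ne_zero h2 h2) h2) h2) h3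
        exact mul_ne_zero h48 (mul_ne_zero hη hζ) h4
    · exact ⟨η₀, ζ₀, h0, key _ _ ha⟩
  · by_cases ha : η₀ * x - ζ₀ * y ≠ 0 ∧ η₀ * y + ζ₀ * x ≠ 0
    · exact ⟨η₀, ζ₀, h0, ha.1, ha.2⟩
    · refine ⟨η₀, -ζ₀, by rw [← h0]; ring, ?_⟩
      have hdiff : x ^ 2 - y ^ 2 ≠ 0 := sub_ne_zero.2 hxy
      rw [not_and_or, not_not, not_not] at ha
      rcases ha with ha | ha
      · have hη : η₀ ≠ 0 := by
          rintro rfl
          apply hne
          refine ⟨rfl, ?_⟩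
          have : ζ₀ * y = 0 := by linear_combination -(1 : F) * ha
          exact (mul_eq_zero.1 this).resolve_right hy
        constructor
        · intro h4
          have : η₀ * x = 0 := by
            have h9 : 2 * (η₀ * x) = 0 := by linear_combination h4 + ha
            exact (mul_eq_zero.1 h9).resolve_left h2
          exact mul_ne_zero hη hx this
        · intro h4
          have : η₀ * (x ^ 2 - y ^ 2) = 0 := by linear_combination x * ha + (-y) * h4 + (ζ₀ * x * y - ζ₀ * x * y) * (0 : F)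
          exact mul_ne_zero hη hdiff this
      · have hη : η₀ ≠ 0 := by
          rintro rfl
          apply hne
          refine ⟨rfl, ?_⟩
          have : ζ₀ * x = 0 := by linear_combination ha
          exact (mul_eq_zero.1 this).resolve_right hx
        constructor
        · intro h4
          have : η₀ * (x ^ 2 - y ^ 2) = 0 := by linear_combination x * h4 + (-y) * ha
          exact mul_ne_zero hη hdiff this
        · intro h4
          have : η₀ * y = 0 := by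
            have h9 : 2 * (η₀ * y) = 0 := by linear_combination h4 + ha
            exact (mul_eq_zero.1 h9).resolve_left h2
          exact mul_ne_zero hη hy this

section stepA

variable {p : ℕ} [hp : Fact p.Prime] [CharP F p]

include hp in
/-- Step A: passing to a vector with support in four given coordinates. -/
theorem stepA (C : MC Q M e c) (hn : Odd (Fintype.card K)) (hF : Fintype.card F = p) (hodd : Odd p)
    (h3 : (3 : F) ≠ 0) (h5 : (5 : F) ≠ 0) {w : ι → F} (hw : UU Q M c w) {k k' l l' : K}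
    (n1 : k ≠ k') (n2 : k ≠ l) (n3 : k ≠ l') (n4 : k' ≠ l) (n5 : k' ≠ l') (n6 : l ≠ l')
    (hx₁ : co Q e c k w ≠ 0) (hx₂ : co Q e c k' w ≠ 0) (hB : co Q e c l w ^ 2 + co Q e c l' w ^ 2 ≠ 0)
    (hβ0 : co Q e c k w ^ 2 + co Q e c k' w ^ 2 + (co Q e c l w ^ 2 + co Q e c l' w ^ 2) ≠ 0)
    (hβ1 : co Q e c k w ^ 2 + co Q e c k' w ^ 2 + (co Q e c l w ^ 2 + co Q e c l' w ^ 2) ≠ 1)
    (hβ2 : 2 * (co Q e c k w ^ 2 + co Q e c k' w ^ 2 + (co Q e c l w ^ 2 + co Q e c l' w ^ 2)) ≠ 1) :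
    ∃ w₁, UU Q M c w₁ ∧ (∀ j, co Q e c j w₁ ≠ 0 → j = k ∨ j = k' ∨ j = l ∨ j = l') ∧ co Q e c k w₁ ≠ 0 ∧ co Q e c k' w₁ ≠ 0 ∧
      (co Q e c l w₁ ≠ 0 ∨ co Q e c l' w₁ ≠ 0) := by
  have hfr := C.fr
  have hc := hfr.hc
  have h2 := hfr.h2
  obtain ⟨x₁, hd₁⟩ : ∃ x, x = co Q e c k w := ⟨_, rfl⟩
  obtain ⟨x₂, hd₂⟩ : ∃ x, x = co Q e c k' w := ⟨_, rfl⟩
  obtain ⟨x₃, hd₃⟩ : ∃ x, x = co Q e c l w := ⟨_, rfl⟩
  obtain ⟨x₄, hd₄⟩ : ∃ x, x = co Q e c l' w := ⟨_, rfl⟩
  rw [← hd₁, ← hd₂, ← hd₃, ← hd₄] at hβ0 hβ1 hβ2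
  rw [← hd₃, ← hd₄] at hB
  rw [← hd₁] at hx₁
  rw [← hd₂] at hx₂
  obtain ⟨S, hS⟩ : ∃ S : Finset K, S = {k, k', l, l'} := ⟨_, rfl⟩
  have hmem : ∀ j, j ∈ S ↔ j = k ∨ j = k' ∨ j = l ∨ j = l' := by
    intro j
    rw [hS]
    simp
  obtain ⟨v, hv⟩ : ∃ v, v = res Q e c S w := ⟨_, rfl⟩
  have hvexp : v = x₁ • e k + x₂ • e k' + x₃ • e l + x₄ • e l' := by
    rw [hv, res, hS, Finset.sum_insert (by simp [n1, n2, n3]), Finset.sum_insert (by simp [n4, n5]),
      Finset.sum_insert (by simp [n6]), Finset.sum_singleton, hd₁, hd₂, hd₃, hd₄]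
    abel
  obtain ⟨f, hf⟩ : ∃ f, f = w - v := ⟨_, rfl⟩
  have hcof : ∀ j, co Q e c j f = if j ∈ S then 0 else co Q e c j w := by
    intro j
    rw [hf, co_sub, hv, Fr.co_res hfr]
    by_cases hj : j ∈ S <;> simp [hj]
  have hcov : ∀ j, co Q e c j v = if j ∈ S then co Q e c j w else 0 := by
    intro j
    rw [hv, Fr.co_res hfr]
  have hfS : ∀ j, j ∈ S → polar Q f (e j) = 0 := by
    intro j hj
    rw [hfr.polar_e, hcof, if_pos hj, mul_zero]
  have hfv : polar Q f v = 0 := by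
    refine Fr.polar_disj hfr (fun j => ?_)
    rw [hcof, hcov]
    by_cases hj : j ∈ S <;> simp [hj]
  obtain ⟨J, hJ, j1, j2, j3, j4, j5⟩ := C.exists_J n1 n2 n3 n4 n5 n6
  have hJf : J ⋆ f = f := by
    refine hfr.fix_of J (fun j hj => ?_)
    have hjS : j ∉ S := by
      intro h4
      apply hj
      rw [hcof, if_pos h4]
    rw [hmem] at hjS
    push Not at hjS
    exact j5 j hjS.1 hjS.2.1 hjS.2.2.1 hjS.2.2.2
  obtain ⟨v', hv'⟩ : ∃ v', v' = x₁ • e k' - x₂ • e k + x₃ • e l' - x₄ • e l := ⟨_, rfl⟩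
  have hJv : J ⋆ v = v' := by
    rw [hvexp, hv', Matrix.mulVec_add, Matrix.mulVec_add, Matrix.mulVec_add, Matrix.mulVec_smul, Matrix.mulVec_smul,
      Matrix.mulVec_smul, Matrix.mulVec_smul, j1, j2, j3, j4, smul_neg, smul_neg]
    abel
  have hwfv : w = f + v := by rw [hf]; abel
  have hQw := hw.1
  have hβeq : ∑ i ∈ S, co Q e c i w ^ 2 = x₁ ^ 2 + x₂ ^ 2 + (x₃ ^ 2 + x₄ ^ 2) := by
    rw [hS, Finset.sum_insert (by simp [n1, n2, n3]), Finset.sum_insert (by simp [n4, n5]),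
      Finset.sum_insert (by simp [n6]), Finset.sum_singleton, hd₁, hd₂, hd₃, hd₄]
    ring
  obtain ⟨β, hβd⟩ : ∃ β, β = x₁ ^ 2 + x₂ ^ 2 + (x₃ ^ 2 + x₄ ^ 2) := ⟨_, rfl⟩
  rw [← hβd] at hβ0 hβ1 hβ2 hβeq
  have hQv : Q v = c * β := by
    rw [hv, Fr.Q_res hfr, hβeq]
  have hQf : Q f = c * (1 - β) := by
    have h4 : Q (f + v) = Q f + Q v + polar Q f v := Cfsg.Agent.Lib.OrthoBasic.Q_add Q f v
    rw [← hwfv, hQw, hfv, hQv] at h4
    linear_combination -h4
  have hQv' : Q v' = c * β := by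
    rw [← hJv, C.iso hJ, hQv]
  have hcov' : ∀ j, co Q e c j v' = x₁ * (if k' = j then 1 else 0) - x₂ * (if k = j then 1 else 0) +
      x₃ * (if l' = j then 1 else 0) - x₄ * (if l = j then 1 else 0) := by
    intro j
    rw [hv', co_sub, co_add, co_sub, co_smul, co_smul, co_smul, co_smul, hfr.co_e, hfr.co_e, hfr.co_e, hfr.co_e]
  have m1 : k ∈ S := (hmem k).2 (Or.inl rfl)
  have m2 : k' ∈ S := (hmem k').2 (Or.inr (Or.inl rfl))
  have m3 : l ∈ S := (hmem l).2 (Or.inr (Or.inr (Or.inl rfl)))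
  have m4 : l' ∈ S := (hmem l').2 (Or.inr (Or.inr (Or.inr rfl)))
  have h01 : polar Q f v = 0 := hfv
  have h02 : polar Q f v' = 0 := by
    rw [hv', polar_sub_right, polar_add_right, polar_sub_right, polar_smul_r, polar_smul_r, polar_smul_r, polar_smul_r,
      hfS _ m1, hfS _ m2, hfS _ m3, hfS _ m4]
    ring
  have hvco : ∀ j ∈ S, polar Q v (e j) = 2 * c * co Q e c j w := by
    intro j hj
    rw [hfr.polar_e, hcov, if_pos hj]
  have h12 : polar Q v v' = 0 := by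
    rw [hv', polar_sub_right, polar_add_right, polar_sub_right, polar_smul_r, polar_smul_r, polar_smul_r, polar_smul_r,
      hvco _ m1, hvco _ m2, hvco _ m3, hvco _ m4, ← hd₁, ← hd₂, ← hd₃, ← hd₄]
    ring
  have u₁ : UU Q M c (f + v) := by rwa [← hwfv]
  have u₂ : UU Q M c (f - v) := by
    have h4 := C.U_flipS hn S hw
    convert h4 using 1
    rw [← res, ← hv, hf, two_smul]
    abel
  have u₃ : UU Q M c (f + v') := by
    have h4 := C.U_conj hJ u₁
    rwa [Matrix.mulVec_add, hJf, hJv] at h4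
  have u₄ : UU Q M c (f - v') := by
    have h4 := C.U_conj hJ u₂
    rwa [Matrix.mulVec_sub, hJf, hJv] at h4
  have hne1 : 1 - β ≠ 0 := fun h4 => hβ1 (by linear_combination -h4)
  have hK := klein_trans hF hodd h2 hc h01 h02 h12 (by rw [hQv, hQv'])
    (by
      rw [hQf, hQv]
      intro h4
      have h6 := mul_left_cancel₀ hc h4
      exact hβ2 (by linear_combination -h6))
    (by rw [hQf]; exact mul_ne_zero hc hne1)
    (by rw [hQv]; exact mul_ne_zero hc hβ0)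
    (by rw [hQf, hQv]; ring) u₁ u₂ u₃ u₄
  obtain ⟨η, ζ, hηζ, hA, hB'⟩ := exists_circle_A h2 h3 h5 hβ0 hx₁ hx₂
  have hbw : bb f v v' ![1, 1, 0] = f + v := by
    simp [bb]
  have hb1 : bb f v v' ![0, η, ζ] = η • v + ζ • v' := by
    simp [bb]
  obtain ⟨g, hg, -, -, -, hgx⟩ := hK ![1, 1, 0] ![0, η, ζ]
    (by
      rw [hbw, ← hwfv, hQw, hb1, Q_bb' h2 h12, hQv, hQv']
      linear_combination (-c) * hηζ)
    (by rw [hbw, ← hwfv, hQw]; exact hc)
  have hU : UU Q M c (η • v + ζ • v') := by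
    have := C.U_conj hg u₁
    rw [← hbw, hgx, hb1] at this
    exact this
  have hcoz : ∀ j, co Q e c j (η • v + ζ • v') = η * co Q e c j v + ζ * co Q e c j v' := by
    intro j
    rw [co_add, co_smul, co_smul]
  refine ⟨_, hU, ?_, ?_, ?_, ?_⟩
  · intro j hj
    rw [← hmem]
    by_contra hjS
    apply hj
    have hjS' := hjS
    rw [hmem] at hjS'
    push Not at hjS'
    obtain ⟨a, b, c', d⟩ := hjS'
    rw [hcoz, hcov, if_neg hjS, hcov', if_neg (Ne.symm a), if_neg (Ne.symm b), if_neg (Ne.symm c'), if_neg (Ne.symm d)]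
    ring
  · rw [hcoz, hcov, if_pos m1, hcov', if_neg n1.symm, if_pos rfl, if_neg n3.symm, if_neg n2.symm, ← hd₁]
    convert hA using 1
    ring
  · rw [hcoz, hcov, if_pos m2, hcov', if_pos rfl, if_neg n1, if_neg n5.symm, if_neg n4.symm, ← hd₂]
    convert hB' using 1
    ring
  · by_contra hcon
    push Not at hcon
    obtain ⟨a, b⟩ := hcon
    rw [hcoz, hcov, if_pos m3, hcov', if_neg n4, if_neg n2, if_neg n6.symm, if_pos rfl, ← hd₃] at a
    rw [hcoz, hcov, if_pos m4, hcov', if_neg n5, if_neg n3, if_pos rfl, if_neg n6, ← hd₄] at b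
    have h6 : (η ^ 2 + ζ ^ 2) * (x₃ ^ 2 + x₄ ^ 2) = 0 := by
      have a' : η * x₃ - ζ * x₄ = 0 := by linear_combination a
      have b' : η * x₄ + ζ * x₃ = 0 := by linear_combination b
      linear_combination (η * x₃ - ζ * x₄) * a' + (η * x₄ + ζ * x₃) * b'
    have h7 : η ^ 2 + ζ ^ 2 ≠ 0 := by
      intro h8
      have : (1 : F) = 0 := by rw [← hηζ]; linear_combination β * h8
      exact one_ne_zero this
    exact mul_ne_zero h7 hB h6

end stepA

end Cfsg.Agent.H28.FrD
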