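import Mathlib
import Cfsg.Agent.H28.FrD

/-!
# Every vector off the axes gives all of `Ω`
-/

set_option autoImplicit false
set_option linter.unusedVariables false
set_option linter.unusedSectionVars false
set_option linter.unusedSimpArgs false
set_option linter.style.longLine false

namespace Cfsg.Agent.H28.FrE

open Matrix QuadraticMap Cfsg Cfsg.Geo Module
open Cfsg.Agent.Lib.OrthoBasic Cfsg.Agent.Lib.OrthoSiegel Cfsg.Agent.Lib.OmCalc Cfsg.Agent.Lib.OmPair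
  Cfsg.Agent.Lib.OrthGroup Cfsg.Agent.Lib.OrthOmega
open Cfsg.Agent.H28.KlD Cfsg.Agent.H28.FrA Cfsg.Agent.H28.FrB Cfsg.Agent.H28.FrC Cfsg.Agent.H28.FrD
open Cfsg.Agent.Lib.SympT (GL_ext mulVec_mul_GL mulVec_inv_GL inv_mulVec_GL)

local notation:70 g:71 " ⋆ " x:70 => Matrix.mulVec (Units.val g) x

variable {ι : Type} [Fintype ι] [DecidableEq ι] {F : Type*} [Field F] [Fintype F]
  {Q : QuadraticForm F (ι → F)} {K : Type} [Fintype K] [DecidableEq K] {e : K → ι → F} {c : F}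
  {M : Subgroup (GL ι F)}

/-- Multiples of a frame vector. -/
def Ax (Q : QuadraticForm F (ι → F)) (e : K → ι → F) (c : F) (w : ι → F) : Prop :=
  ∃ i, ∀ j, j ≠ i → co Q e c j w = 0

/-- Two coordinates with squares `1/2`. -/
def Bad (Q : QuadraticForm F (ι → F)) (e : K → ι → F) (c : F) (w : ι → F) : Prop :=
  ∃ a b, a ≠ b ∧ (∀ j, j ≠ a → j ≠ b → co Q e c j w = 0) ∧ 2 * co Q e c a w ^ 2 = 1 ∧ 2 * co Q e c b w ^ 2 = 1

lemma exists_four {S : Finset K} (h : 4 ≤ S.card) :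
    ∃ a b c d, a ∈ S ∧ b ∈ S ∧ c ∈ S ∧ d ∈ S ∧ a ≠ b ∧ a ≠ c ∧ a ≠ d ∧ b ≠ c ∧ b ≠ d ∧ c ≠ d := by
  obtain ⟨a, ha⟩ := Finset.card_pos.1 (show 0 < S.card by omega)
  have h1 := Finset.card_erase_of_mem ha
  obtain ⟨b, hb⟩ := Finset.card_pos.1 (show 0 < (S.erase a).card by omega)
  have h2 := Finset.card_erase_of_mem hb
  obtain ⟨c, hc⟩ := Finset.card_pos.1 (show 0 < ((S.erase a).erase b).card by omega)
  have h3 := Finset.card_erase_of_mem hc
  obtain ⟨d, hd⟩ := Finset.card_pos.1 (show 0 < (((S.erase a).erase b).erase c).card by omega)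
  simp only [Finset.mem_erase] at hb hc hd
  obtain ⟨b1, b2⟩ := hb
  obtain ⟨c1, c2, c3⟩ := hc
  obtain ⟨d1, d2, d3, d4⟩ := hd
  exact ⟨a, b, c, d, ha, b2, c3, d4, Ne.symm b1, Ne.symm c2, Ne.symm d3, Ne.symm c1, Ne.symm d2, Ne.symm d1⟩

lemma exists_lambda (h2 : (2 : F) ≠ 0) (h3 : (3 : F) ≠ 0) (h5 : (5 : F) ≠ 0) {β : F} (hβ : β ≠ 0) :
    ∃ l : F, l ≠ 0 ∧ l ^ 2 * β ≠ 1 ∧ 2 * (l ^ 2 * β) ≠ 1 := by
  have d1 : 3 * β ≠ 0 := mul_ne_zero h3 hβ
  have d2 : 2 * (3 * β) ≠ 0 := mul_ne_zero h2 d1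
  have d3 : 2 * (2 * (2 * β)) ≠ 0 := mul_ne_zero h2 (mul_ne_zero h2 (mul_ne_zero h2 hβ))
  have d4 : 2 * (5 * β) ≠ 0 := mul_ne_zero h2 (mul_ne_zero h5 hβ)
  have d5 : 2 * (2 * (2 * (2 * β))) ≠ 0 := mul_ne_zero h2 d3
  by_cases a : (1 : F) ^ 2 * β ≠ 1 ∧ 2 * ((1 : F) ^ 2 * β) ≠ 1
  · exact ⟨1, one_ne_zero, a.1, a.2⟩
  by_cases b : (2 : F) ^ 2 * β ≠ 1 ∧ 2 * ((2 : F) ^ 2 * β) ≠ 1
  · exact ⟨2, h2, b.1, b.2⟩
  by_cases d : (3 : F) ^ 2 * β ≠ 1 ∧ 2 * ((3 : F) ^ 2 * β) ≠ 1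
  · exact ⟨3, h3, d.1, d.2⟩
  exfalso
  rw [not_and_or, not_not, not_not] at a b d
  rcases a with a | a <;> rcases b with b | b <;> rcases d with d | d
  · exact d1 (by linear_combination b - a)
  · exact d1 (by linear_combination b - a)
  · exact d3 (by linear_combination d - a)
  · exact d4 (by linear_combination d - b)
  · exact d4 (by linear_combination 2 * (d - b))
  · exact d5 (by linear_combination d - a)
  · exact d2 (by linear_combination b - a)
  · exact d2 (by linear_combination b - a)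

lemma arith (hs : ∀ n : ℕ, 1 ≤ n → n ≤ 6 → (n : F) ≠ 0) {a₁ a₂ a₃ a₄ : F} (hsum : a₁ + a₂ + (a₃ + a₄) = 1)
    (h1 : a₁ ≠ 0) (h2 : a₂ ≠ 0) (h3 : a₃ ≠ 0 ∨ a₄ ≠ 0)
    (hall : ∀ a ∈ ({a₁, a₂, a₃, a₄} : Set F), a = 0 ∨ a = 1 ∨ 2 * a = 1) : False := by
  have key : ∀ a : F, (a = 0 ∨ a = 1 ∨ 2 * a = 1) → ∃ n : ℕ, n ≤ 2 ∧ (n : F) = 2 * a ∧ (a ≠ 0 → 1 ≤ n) := by
    intro a ha
    rcases ha with rfl | rfl | ha
    · exact ⟨0, by omega, by simp, fun h => absurd rfl h⟩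
    · exact ⟨2, by omega, by norm_num, fun _ => by omega⟩
    · exact ⟨1, by omega, by simpa using ha.symm, fun _ => by omega⟩
  obtain ⟨n₁, b1, c1, d1⟩ := key a₁ (hall _ (by simp))
  obtain ⟨n₂, b2, c2, d2⟩ := key a₂ (hall _ (by simp))
  obtain ⟨n₃, b3, c3, d3⟩ := key a₃ (hall _ (by simp))
  obtain ⟨n₄, b4, c4, d4⟩ := key a₄ (hall _ (by simp))
  have e1 := d1 h1
  have e2 := d2 h2
  have e3 : 1 ≤ n₃ + n₄ := by
    rcases h3 with h | h
    · have := d3 h
      omega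
    · have := d4 h
      omega
  have e4 : ((n₁ + n₂ + n₃ + n₄ - 2 : ℕ) : F) = 0 := by
    rw [Nat.cast_sub (by omega)]
    push_cast
    rw [c1, c2, c3, c4]
    linear_combination 2 * hsum
  exact hs _ (by omega) (by omega) e4

section main

variable {p : ℕ} [hp : Fact p.Prime] [CharP F p]

/-- A zero-sum small set finishes the proof. -/
theorem zs (hQ : Nondeg Q) (C : MC Q M e c) (hn : Odd (Fintype.card K)) (h11 : 11 ≤ Fintype.card ι) (h13 : 11 ≤ Fintype.card K)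
    (hpf : ∀ a : F, ∃ n : ℕ, (n : F) = a) {w : ι → F} (hw : UU Q M c w) {S : Finset K} (hS : ∀ j ∈ S, co Q e c j w ≠ 0)
    (hne : S.Nonempty) (h5 : S.card ≤ 5) (h0 : ∑ i ∈ S, co Q e c i w ^ 2 = 0) : omegaGL ⇑Q ≤ M := by
  have hfr := C.fr
  obtain ⟨k, hkS, hk⟩ : ∃ k, k ∉ S ∧ co Q e c k w ≠ 0 := by
    by_contra hcon
    push Not at hcon
    have h1 := Fr.sum_sq hfr hw.1
    rw [← Finset.sum_subset (Finset.subset_univ S) (fun j _ hj => by rw [hcon j hj]; ring), h0] at h1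
    exact zero_ne_one h1
  have hR := MC.direct C (hQ := hQ) hn hpf hw h0 hkS hk
  obtain ⟨i, hi⟩ := hne
  refine stage2 hQ C hn h11 hpf (A := S) (k := k) ?_ h5 h13 (by rw [Fr.Q_res hfr, h0, mul_zero]) ?_ hkS hR
  · intro j hj
    rw [Fr.co_res hfr] at hj
    by_contra hjS
    exact hj (if_neg hjS)
  · intro h3
    have h4 := Fr.co_res hfr S w i
    rw [h3, co_zero, if_pos hi] at h4
    exact hS i hi h4.symm

include hp in
/-- Step B with the choice of the auxiliary numbers. -/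
theorem stepB' (hQ : Nondeg Q) (C : MC Q M e c) (hn : Odd (Fintype.card K)) (h11 : 11 ≤ Fintype.card ι) (h13 : 11 ≤ Fintype.card K)
    (hF : Fintype.card F = p) (hodd : Odd p) (h3 : (3 : F) ≠ 0) (h5 : (5 : F) ≠ 0) {w : ι → F} (hw : UU Q M c w) {T : Finset K}
    (hT : ∀ j, co Q e c j w ≠ 0 → j ∈ T) (hT4 : T.card ≤ 4) {k : K} (hk : co Q e c k w ≠ 0)
    (hx1 : co Q e c k w ^ 2 ≠ 1) (hx2 : 2 * co Q e c k w ^ 2 ≠ 1) : omegaGL ⇑Q ≤ M := by
  obtain ⟨ζ, ω, h1, h4⟩ := exists_circle_B C.fr.h2 h3 h5 (co Q e c k w ^ 2 - 1)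
  exact stepB hQ C hn h11 h13 hF hodd hw hT hT4 (hT k hk) rfl hk hx1 hx2 h1 h4

include hp in
/-- What comes out of Step A finishes the proof. -/
theorem finish (hQ : Nondeg Q) (C : MC Q M e c) (hn : Odd (Fintype.card K)) (h11 : 11 ≤ Fintype.card ι) (h13 : 11 ≤ Fintype.card K)
    (hF : Fintype.card F = p) (hodd : Odd p) (hs : ∀ n : ℕ, 1 ≤ n → n ≤ 6 → (n : F) ≠ 0) {w : ι → F} (hw : UU Q M c w) {k k' l l' : K}
    (n1 : k ≠ k') (n2 : k ≠ l) (n3 : k ≠ l') (n4 : k' ≠ l) (n5 : k' ≠ l') (n6 : l ≠ l')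
    (hsup : ∀ j, co Q e c j w ≠ 0 → j = k ∨ j = k' ∨ j = l ∨ j = l') (h1 : co Q e c k w ≠ 0) (h2 : co Q e c k' w ≠ 0)
    (h3 : co Q e c l w ≠ 0 ∨ co Q e c l' w ≠ 0) : omegaGL ⇑Q ≤ M := by
  have hfr := C.fr
  have h3' : (3 : F) ≠ 0 := by simpa using hs 3 (by omega) (by omega)
  have h5' : (5 : F) ≠ 0 := by simpa using hs 5 (by omega) (by omega)
  obtain ⟨S, hS⟩ : ∃ S : Finset K, S = {k, k', l, l'} := ⟨_, rfl⟩
  have hmem : ∀ j, j ∈ S ↔ j = k ∨ j = k' ∨ j = l ∨ j = l' := by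
    intro j
    rw [hS]
    simp
  have hcard : S.card ≤ 4 := by
    rw [hS]
    exact Finset.card_le_four
  have hT : ∀ j, co Q e c j w ≠ 0 → j ∈ S := fun j hj => (hmem j).2 (hsup j hj)
  have hsum : co Q e c k w ^ 2 + co Q e c k' w ^ 2 + (co Q e c l w ^ 2 + co Q e c l' w ^ 2) = 1 := by
    have h4 := Fr.sum_sq hfr hw.1
    rw [← Finset.sum_subset (Finset.subset_univ S) (fun j _ hj => by
      have : co Q e c j w = 0 := by
        by_contra h0
        exact hj (hT j h0)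
      rw [this]; ring), hS, Finset.sum_insert (by simp [n1, n2, n3]), Finset.sum_insert (by simp [n4, n5]),
      Finset.sum_insert (by simp [n6]), Finset.sum_singleton] at h4
    linear_combination h4
  by_contra hno
  refine arith hs hsum (pow_ne_zero 2 h1) (pow_ne_zero 2 h2) ?_ ?_
  · rcases h3 with h | h
    · exact Or.inl (pow_ne_zero 2 h)
    · exact Or.inr (pow_ne_zero 2 h)
  · have key : ∀ i, co Q e c i w ^ 2 = 0 ∨ co Q e c i w ^ 2 = 1 ∨ 2 * co Q e c i w ^ 2 = 1 := by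
      intro i
      by_contra hcon
      push Not at hcon
      obtain ⟨a, b, d⟩ := hcon
      have hi : co Q e c i w ≠ 0 := by
        intro h0
        rw [h0] at a
        exact a (by ring)
      exact hno (stepB' hQ C hn h11 h13 hF hodd h3' h5' hw hT hcard hi b d)
    intro a ha
    simp only [Set.mem_insert_iff, Set.mem_singleton_iff] at ha
    rcases ha with rfl | rfl | rfl | rfl <;> exact key _

include hp in
/-- The case of at most four coordinates, `p ≥ 7`. -/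
theorem small_support (hQ : Nondeg Q) (C : MC Q M e c) (hn : Odd (Fintype.card K)) (h11 : 11 ≤ Fintype.card ι) (h13 : 11 ≤ Fintype.card K)
    (hF : Fintype.card F = p) (hodd : Odd p) (hs : ∀ n : ℕ, 1 ≤ n → n ≤ 6 → (n : F) ≠ 0) {w : ι → F} (hw : UU Q M c w)
    (hAx : ¬ Ax Q e c w) (hBad : ¬ Bad Q e c w) {T : Finset K} (hmemT : ∀ j, j ∈ T ↔ co Q e c j w ≠ 0)
    (hT4 : T.card ≤ 4) : omegaGL ⇑Q ≤ M := by
  classical
  have hfr := C.fr
  have h2 := hfr.h2
  have h3' : (3 : F) ≠ 0 := by simpa using hs 3 (by omega) (by omega)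
  have h5' : (5 : F) ≠ 0 := by simpa using hs 5 (by omega) (by omega)
  by_contra hno
  have key : ∀ i ∈ T, co Q e c i w ^ 2 = 1 ∨ 2 * co Q e c i w ^ 2 = 1 := by
    intro i hi
    by_contra hcon
    push Not at hcon
    exact hno (stepB' hQ C hn h11 h13 hF hodd h3' h5' hw (fun j hj => (hmemT j).2 hj) hT4 ((hmemT i).1 hi) hcon.1 hcon.2)
  have hsum : ∑ i ∈ T, co Q e c i w ^ 2 = 1 := by
    have h4 := Fr.sum_sq hfr hw.1
    rwa [← Finset.sum_subset (Finset.subset_univ T) (fun j _ hj => by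
      have : co Q e c j w = 0 := by
        by_contra h0
        exact hj ((hmemT j).2 h0)
      rw [this]; ring)] at h4
  obtain ⟨a, ha⟩ : ∃ a : K → ℕ, a = fun i => if co Q e c i w ^ 2 = 1 then 2 else 1 := ⟨_, rfl⟩
  have ha1 : ∀ i ∈ T, ((a i : ℕ) : F) = 2 * co Q e c i w ^ 2 := by
    intro i hi
    rw [ha]
    by_cases h : co Q e c i w ^ 2 = 1
    · simp only [if_pos h, h]
      norm_num
    · simp only [if_neg h]
      have := (key i hi).resolve_left h
      rw [this]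
      simp
  have hN : ((∑ i ∈ T, a i : ℕ) : F) = 2 := by
    push_cast
    rw [Finset.sum_congr rfl ha1, ← Finset.mul_sum, hsum, mul_one]
  have hale : ∀ i, a i ≤ 2 := by
    intro i
    rw [ha]
    dsimp only
    split_ifs <;> omega
  have hage : ∀ i, 1 ≤ a i := by
    intro i
    rw [ha]
    dsimp only
    split_ifs <;> omega
  have hNle : ∑ i ∈ T, a i ≤ 8 := by
    calc ∑ i ∈ T, a i ≤ ∑ i ∈ T, 2 := Finset.sum_le_sum (fun i _ => hale i)
      _ = T.card * 2 := by simp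
      _ ≤ 8 := by omega
  have hNge : T.card ≤ ∑ i ∈ T, a i := by
    calc T.card = ∑ i ∈ T, 1 := by simp
      _ ≤ ∑ i ∈ T, a i := Finset.sum_le_sum (fun i _ => hage i)
  have hNeq : ∑ i ∈ T, a i = 2 := by
    by_contra hne
    have hlt : ∑ i ∈ T, a i = 0 ∨ ∑ i ∈ T, a i = 1 ∨ 3 ≤ ∑ i ∈ T, a i := by omega
    rcases hlt with h | h | h
    · rw [h] at hN
      exact h2 (by simpa using hN.symm)
    · rw [h] at hN
      have : (1 : F) = 2 := by simpa using hN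
      exact one_ne_zero (α := F) (by linear_combination -this)
    · refine hs (∑ i ∈ T, a i - 2) (by omega) (by omega) ?_
      rw [Nat.cast_sub (by omega), hN]
      simp
  have hcard : T.card ≤ 2 := by omega
  have hcases : T.card = 0 ∨ T.card = 1 ∨ T.card = 2 := by omega
  rcases hcases with h | h | h
  · rw [Finset.card_eq_zero] at h
    rw [h] at hNeq
    simp at hNeq
  · obtain ⟨i, rfl⟩ := Finset.card_eq_one.1 h
    refine hAx ⟨i, fun j hj => ?_⟩
    by_contra h0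
    have := (hmemT j).2 h0
    simp at this
    exact hj this
  · obtain ⟨x, y, hxy, rfl⟩ := Finset.card_eq_two.1 h
    rw [Finset.sum_pair hxy] at hNeq
    have hx1 : a x = 1 := by have := hage x; have := hage y; omega
    have hy1 : a y = 1 := by have := hage x; have := hage y; omega
    have hxs : 2 * co Q e c x w ^ 2 = 1 := by
      have := ha1 x (by simp)
      rw [hx1] at this
      rw [← this]
      simp
    have hys : 2 * co Q e c y w ^ 2 = 1 := by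
      have := ha1 y (by simp)
      rw [hy1] at this
      rw [← this]
      simp
    refine hBad ⟨x, y, hxy, fun j j1 j2 => ?_, hxs, hys⟩
    by_contra h0
    have := (hmemT j).2 h0
    simp only [Finset.mem_insert, Finset.mem_singleton] at this
    rcases this with h | h
    · exact j1 h
    · exact j2 h

end main

end Cfsg.Agent.H28.FrE
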