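import Mathlib
import Cfsg.Agent.H28.FrE

/-!
# Every vector off the axes gives all of `Ω`: the large supports and the small primes
-/

set_option autoImplicit false
set_option linter.unusedVariables false
set_option linter.unusedSectionVars false
set_option linter.unusedSimpArgs false
set_option linter.style.longLine false

namespace Cfsg.Agent.H28.FrF

open Matrix QuadraticMap Cfsg Cfsg.Geo Module
open Cfsg.Agent.Lib.OrthoBasic Cfsg.Agent.Lib.OrthoSiegel Cfsg.Agent.Lib.OmCalc Cfsg.Agent.Lib.OmPair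
  Cfsg.Agent.Lib.OrthGroup Cfsg.Agent.Lib.OrthOmega
open Cfsg.Agent.H28.KlD Cfsg.Agent.H28.FrA Cfsg.Agent.H28.FrB Cfsg.Agent.H28.FrC Cfsg.Agent.H28.FrD Cfsg.Agent.H28.FrE
open Cfsg.Agent.Lib.SympT (GL_ext mulVec_mul_GL mulVec_inv_GL inv_mulVec_GL)

local notation:70 g:71 " ⋆ " x:70 => Matrix.mulVec (Units.val g) x

variable {ι : Type} [Fintype ι] [DecidableEq ι] {F : Type*} [Field F] [Fintype F]
  {Q : QuadraticForm F (ι → F)} {K : Type} [Fintype K] [DecidableEq K] {e : K → ι → F} {c : F}
  {M : Subgroup (GL ι F)}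

lemma exists_three {S : Finset K} (h : 3 ≤ S.card) :
    ∃ a b c, a ∈ S ∧ b ∈ S ∧ c ∈ S ∧ a ≠ b ∧ a ≠ c ∧ b ≠ c := by
  obtain ⟨a, ha⟩ := Finset.card_pos.1 (show 0 < S.card by omega)
  have h1 := Finset.card_erase_of_mem ha
  obtain ⟨b, hb⟩ := Finset.card_pos.1 (show 0 < (S.erase a).card by omega)
  have h2 := Finset.card_erase_of_mem hb
  obtain ⟨c, hc⟩ := Finset.card_pos.1 (show 0 < ((S.erase a).erase b).card by omega)
  simp only [Finset.mem_erase] at hb hc
  obtain ⟨b1, b2⟩ := hb
  obtain ⟨c1, c2, c3⟩ := hc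
  exact ⟨a, b, c, ha, b2, c3, Ne.symm b1, Ne.symm c2, Ne.symm c1⟩

lemma sq_eq_one_iff_of_ne_zero_aux {x : F} (h : x ^ 2 = 1) : x = 1 ∨ x = -1 := by
  have h1 : (x - 1) * (x + 1) = 0 := by linear_combination h
  rcases mul_eq_zero.1 h1 with h2 | h2
  · exact Or.inl (sub_eq_zero.1 h2)
  · exact Or.inr (eq_neg_of_add_eq_zero_left h2)

section main

variable {p : ℕ} [hp : Fact p.Prime] [CharP F p]

include hp in
theorem large_support (hQ : Nondeg Q) (C : MC Q M e c) (hn : Odd (Fintype.card K)) (h11 : 11 ≤ Fintype.card ι) (h13 : 11 ≤ Fintype.card K)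
    (hF : Fintype.card F = p) (hodd : Odd p) (hs : ∀ n : ℕ, 1 ≤ n → n ≤ 6 → (n : F) ≠ 0) {w : ι → F} (hw : UU Q M c w)
    {T : Finset K} (hmemT : ∀ j, j ∈ T ↔ co Q e c j w ≠ 0) (hT5 : 5 ≤ T.card) : omegaGL ⇑Q ≤ M := by
  classical
  have hfr := C.fr
  have hc := hfr.hc
  have h2 := hfr.h2
  have hc2 := hfr.c2
  have h3 : (3 : F) ≠ 0 := by simpa using hs 3 (by omega) (by omega)
  have h5 : (5 : F) ≠ 0 := by simpa using hs 5 (by omega) (by omega)
  have hpf := hpf_of hF
  have hsum : ∑ i ∈ T, co Q e c i w ^ 2 = 1 := by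
    have h4 := Fr.sum_sq hfr hw.1
    rwa [← Finset.sum_subset (Finset.subset_univ T) (fun j _ hj => by
      have : co Q e c j w = 0 := by
        by_contra h0
        exact hj ((hmemT j).2 h0)
      rw [this]; ring)] at h4
  by_contra hno
  have hsmall : ∀ S : Finset K, S ⊆ T → S.Nonempty → S.card ≤ 5 → ∑ i ∈ S, co Q e c i w ^ 2 ≠ 0 := by
    intro S hS hne h5' h0
    exact hno (zs hQ C hn h11 h13 hpf hw (fun j hj => (hmemT j).1 (hS hj)) hne h5' h0)
  by_cases hZ : ∃ S : Finset K, S ⊆ T ∧ S.Nonempty ∧ ∑ i ∈ S, co Q e c i w ^ 2 = 0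
  · obtain ⟨S, hST, hne, hS0⟩ := hZ
    have hcardS : 6 ≤ S.card := by
      by_contra hlt
      exact hsmall S hST hne (by omega) hS0
    obtain ⟨k, hkS, hk⟩ : ∃ k, k ∉ S ∧ co Q e c k w ≠ 0 := by
      by_contra hcon
      push Not at hcon
      have h1 := Fr.sum_sq hfr hw.1
      rw [← Finset.sum_subset (Finset.subset_univ S) (fun j _ hj => by rw [hcon j hj]; ring), hS0] at h1
      exact zero_ne_one h1
    have hR := MC.direct C (hQ := hQ) hn hpf hw hS0 hkS hk
    obtain ⟨z, hz⟩ : ∃ z, z = res Q e c S w := ⟨_, rfl⟩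
    rw [← hz] at hR
    have hzco : ∀ j, co Q e c j z = if j ∈ S then co Q e c j w else 0 := by
      intro j
      rw [hz, Fr.co_res hfr]
    obtain ⟨a, b, d₁, d₂, ma, mb, md₁, md₂, n1, n2, n3, n4, n5, n6⟩ := exists_four (show 4 ≤ S.card by omega)
    have hβ0 : co Q e c a w ^ 2 + co Q e c b w ^ 2 + (co Q e c d₁ w ^ 2 + co Q e c d₂ w ^ 2) ≠ 0 := by
      intro h0
      refine hsmall {a, b, d₁, d₂} ?_ ⟨a, by simp⟩ (le_trans Finset.card_le_four (by omega)) ?_
      · intro i hi
        simp only [Finset.mem_insert, Finset.mem_singleton] at hi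
        rcases hi with rfl | rfl | rfl | rfl <;> apply hST <;> assumption
      · rw [Finset.sum_insert (by simp [n1, n2, n3]), Finset.sum_insert (by simp [n4, n5]),
          Finset.sum_insert (by simp [n6]), Finset.sum_singleton]
        linear_combination h0
    have hB0 : co Q e c d₁ w ^ 2 + co Q e c d₂ w ^ 2 ≠ 0 := by
      intro h0
      refine hsmall {d₁, d₂} ?_ ⟨d₁, by simp⟩ (le_trans Finset.card_le_two (by omega)) ?_
      · intro i hi
        simp only [Finset.mem_insert, Finset.mem_singleton] at hi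
        rcases hi with rfl | rfl <;> apply hST <;> assumption
      · rw [Finset.sum_pair n6]
        exact h0
    obtain ⟨l, hl0, hl1, hl2⟩ := exists_lambda h2 h3 h5 hβ0
    have hzs : Q z = 0 := hR.sing
    have hpk : polar Q (e k) z = 0 := by
      rw [polar_comm, hfr.polar_e, hzco, if_neg hkS, mul_zero]
    have hU : UU Q M c (e k + l • z) := by
      have hR' := R_smul' hpf hR (-(l * (2 * c)⁻¹))
      obtain ⟨he', hy', hT'⟩ := hR'
      have h1 := C.U_conj hT' (C.U_e hn k)
      rw [sE_apply', hpk, zero_smul, add_zero, polar_smul_r, polar_self', hfr.he, mul_zero, add_zero] at h1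
      convert h1 using 1
      rw [sub_eq_add_neg, ← neg_smul]
      congr 2
      field_simp
    have hcow : ∀ j ∈ S, co Q e c j (e k + l • z) = l * co Q e c j w := by
      intro j hj
      rw [co_add, co_smul, hzco, if_pos hj, hfr.co_e_ne (by rintro rfl; exact hkS hj), zero_add]
    obtain ⟨w₁, hw₁, hsup, h1, h2', h3'⟩ := stepA (hp := hp) C hn hF hodd h3 h5 hU n1 n2 n3 n4 n5 n6
      (by rw [hcow a ma]; exact mul_ne_zero hl0 ((hmemT a).1 (hST ma)))
      (by rw [hcow b mb]; exact mul_ne_zero hl0 ((hmemT b).1 (hST mb)))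
      (by
        rw [hcow _ md₁, hcow _ md₂]
        intro h0
        apply mul_ne_zero (pow_ne_zero 2 hl0) hB0
        linear_combination h0)
      (by
        rw [hcow _ ma, hcow _ mb, hcow _ md₁, hcow _ md₂]
        intro h0
        apply mul_ne_zero (pow_ne_zero 2 hl0) hβ0
        linear_combination h0)
      (by
        rw [hcow _ ma, hcow _ mb, hcow _ md₁, hcow _ md₂]
        intro h0
        apply hl1
        linear_combination h0)
      (by
        rw [hcow _ ma, hcow _ mb, hcow _ md₁, hcow _ md₂]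
        intro h0
        apply hl2
        linear_combination h0)
    exact hno (finish hQ C hn h11 h13 hF hodd hs hw₁ n1 n2 n3 n4 n5 n6 hsup h1 h2' h3')
  · push Not at hZ
    have hnz : ∀ S : Finset K, S ⊆ T → S.Nonempty → ∑ i ∈ S, co Q e c i w ^ 2 ≠ 0 := hZ
    by_cases h4 : ∃ a b d₁ d₂, a ∈ T ∧ b ∈ T ∧ d₁ ∈ T ∧ d₂ ∈ T ∧ a ≠ b ∧ a ≠ d₁ ∧ a ≠ d₂ ∧ b ≠ d₁ ∧ b ≠ d₂ ∧ d₁ ≠ d₂ ∧
        2 * (co Q e c a w ^ 2 + co Q e c b w ^ 2 + (co Q e c d₁ w ^ 2 + co Q e c d₂ w ^ 2)) ≠ 1
    · obtain ⟨a, b, d₁, d₂, ma, mb, md₁, md₂, n1, n2, n3, n4, n5, n6, hhalf⟩ := h4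
      have hsub : ({a, b, d₁, d₂} : Finset K) ⊆ T := by
        intro i hi
        simp only [Finset.mem_insert, Finset.mem_singleton] at hi
        rcases hi with rfl | rfl | rfl | rfl <;> assumption
      have hsumP : ∑ i ∈ ({a, b, d₁, d₂} : Finset K), co Q e c i w ^ 2 = co Q e c a w ^ 2 + co Q e c b w ^ 2 + (co Q e c d₁ w ^ 2 + co Q e c d₂ w ^ 2) := by
        rw [Finset.sum_insert (by simp [n1, n2, n3]), Finset.sum_insert (by simp [n4, n5]),
          Finset.sum_insert (by simp [n6]), Finset.sum_singleton]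
        ring
      have hβ0 : co Q e c a w ^ 2 + co Q e c b w ^ 2 + (co Q e c d₁ w ^ 2 + co Q e c d₂ w ^ 2) ≠ 0 := by
        rw [← hsumP]
        exact hnz _ hsub ⟨a, by simp⟩
      have hβ1 : co Q e c a w ^ 2 + co Q e c b w ^ 2 + (co Q e c d₁ w ^ 2 + co Q e c d₂ w ^ 2) ≠ 1 := by
        intro h1
        have hcomp : (T \ {a, b, d₁, d₂}).Nonempty := by
          rw [← Finset.card_pos, Finset.card_sdiff_of_subset hsub]
          have := Finset.card_le_four (a := a) (b := b) (c := d₁) (d := d₂)
          omega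
        refine hnz _ Finset.sdiff_subset hcomp ?_
        have := Finset.sum_sdiff (f := fun i => co Q e c i w ^ 2) hsub
        rw [hsumP, h1, hsum] at this
        linear_combination this
      have hB0 : co Q e c d₁ w ^ 2 + co Q e c d₂ w ^ 2 ≠ 0 := by
        have e9 := Finset.sum_pair (f := fun i => co Q e c i w ^ 2) n6
        rw [← e9]
        refine hnz _ ?_ ⟨d₁, by simp⟩
        intro i hi
        simp only [Finset.mem_insert, Finset.mem_singleton] at hi
        rcases hi with rfl | rfl <;> assumption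
      obtain ⟨w₁, hw₁, hsup, h1, h2', h3'⟩ := stepA (hp := hp) C hn hF hodd h3 h5 hw n1 n2 n3 n4 n5 n6
        ((hmemT a).1 ma) ((hmemT b).1 mb) hB0 hβ0 hβ1 hhalf
      exact hno (finish hQ C hn h11 h13 hF hodd hs hw₁ n1 n2 n3 n4 n5 n6 hsup h1 h2' h3')
    · push Not at h4
      have heq : ∀ a ∈ T, ∀ b ∈ T, co Q e c a w ^ 2 = co Q e c b w ^ 2 := by
        intro a ha b hb
        by_cases hab : a = b
        · rw [hab]
        have h6 : 3 ≤ ((T.erase a).erase b).card := by
          rw [Finset.card_erase_of_mem (Finset.mem_erase.2 ⟨Ne.symm hab, hb⟩), Finset.card_erase_of_mem ha]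
          omega
        obtain ⟨x, y, z, hx, hy, hz, nxy, nxz, nyz⟩ := exists_three h6
        simp only [Finset.mem_erase] at hx hy hz
        have e1 := h4 a x y z ha hx.2.2 hy.2.2 hz.2.2 (Ne.symm hx.2.1) (Ne.symm hy.2.1) (Ne.symm hz.2.1) nxy nxz nyz
        have e2 := h4 b x y z hb hx.2.2 hy.2.2 hz.2.2 (Ne.symm hx.1) (Ne.symm hy.1) (Ne.symm hz.1) nxy nxz nyz
        have e3 : 2 * (co Q e c a w ^ 2 - co Q e c b w ^ 2) = 0 := by linear_combination e1 - e2
        exact sub_eq_zero.1 ((mul_eq_zero.1 e3).resolve_left h2)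
      have h8 : ∀ a ∈ T, 8 * co Q e c a w ^ 2 = 1 := by
        intro a ha
        have h6 : 3 ≤ (T.erase a).card := by
          rw [Finset.card_erase_of_mem ha]
          omega
        obtain ⟨x, y, z, hx, hy, hz, nxy, nxz, nyz⟩ := exists_three h6
        simp only [Finset.mem_erase] at hx hy hz
        have e1 := h4 a x y z ha hx.2 hy.2 hz.2 (Ne.symm hx.1) (Ne.symm hy.1) (Ne.symm hz.1) nxy nxz nyz
        rw [← heq a ha x hx.2, ← heq a ha y hy.2, ← heq a ha z hz.2] at e1
        linear_combination e1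
      obtain ⟨a, b, d₁, d₂, ma, mb, md₁, md₂, n1, n2, n3, n4, n5, n6⟩ := exists_four (show 4 ≤ T.card by omega)
      have hs8 := h8 a ma
      obtain ⟨s, hsd⟩ : ∃ s, s = co Q e c a w ^ 2 := ⟨_, rfl⟩
      rw [← hsd] at hs8
      have hs0 : s ≠ 0 := by
        rintro rfl
        norm_num at hs8
      by_cases hz : ∃ z, z ∉ T
      · obtain ⟨z, hz⟩ := hz
        have hcoz : co Q e c z w = 0 := by
          by_contra h0
          exact hz ((hmemT z).2 h0)
        have n7 : a ≠ z := by rintro rfl; exact hz ma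
        have n8 : b ≠ z := by rintro rfl; exact hz mb
        have n9 : d₁ ≠ z := by rintro rfl; exact hz md₁
        have e1 : co Q e c b w ^ 2 = s := by rw [hsd]; exact heq b mb a ma
        have e2 : co Q e c d₁ w ^ 2 = s := by rw [hsd]; exact heq d₁ md₁ a ma
        have e3 : co Q e c z w ^ 2 = 0 := by rw [hcoz]; ring
        obtain ⟨w₁, hw₁, hsup, h1, h2', h3'⟩ := stepA (hp := hp) C hn hF hodd h3 h5 hw n1 n2 n7 n4 n8 n9
          ((hmemT a).1 ma) ((hmemT b).1 mb)
          (by rw [e2, e3, add_zero]; exact hs0)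
          (by
            rw [← hsd, e1, e2, e3]
            intro h0
            apply h3
            linear_combination 8 * h0 - 3 * hs8)
          (by
            rw [← hsd, e1, e2, e3]
            intro h0
            apply h5
            linear_combination -8 * h0 + 3 * hs8)
          (by
            rw [← hsd, e1, e2, e3]
            intro h0
            apply one_ne_zero (α := F)
            linear_combination -4 * h0 + 3 * hs8)
        exact hno (finish hQ C hn h11 h13 hF hodd hs hw₁ n1 n2 n7 n4 n8 n9 hsup h1 h2' h3')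
      · push Not at hz
        have hTu : T = Finset.univ := Finset.eq_univ_iff_forall.2 hz
        have hcard : T.card = Fintype.card K := by rw [hTu, Finset.card_univ]
        have hall : ∀ i ∈ T, co Q e c i w ^ 2 = s := fun i hi => by rw [hsd]; exact heq i hi a ma
        have h9 : ((T.card : ℕ) : F) * s = 1 := by
          rw [← hsum, Finset.sum_congr rfl hall, Finset.sum_const, nsmul_eq_mul]
        have h10 : ((T.card - 8 : ℕ) : F) = 0 := by
          rw [Nat.cast_sub (by omega)]
          apply mul_right_cancel₀ hs0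
          push_cast
          linear_combination h9 - hs8
        have hdvd : p ∣ T.card - 8 := (CharP.cast_eq_zero_iff F p _).1 h10
        have hple : p ≤ T.card - 8 := Nat.le_of_dvd (by omega) hdvd
        obtain ⟨S, hS, hSc⟩ := Finset.exists_subset_card_eq (show p ≤ T.card by omega)
        refine hnz S hS (Finset.card_pos.1 (by rw [hSc]; exact hp.out.pos)) ?_
        rw [Finset.sum_congr rfl (fun i hi => hall i (hS hi)), Finset.sum_const, hSc, nsmul_eq_mul, CharP.cast_eq_zero F p, zero_mul]

include hp in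
/-- The field of three elements. -/
theorem p_three (hQ : Nondeg Q) (C : MC Q M e c) (hn : Odd (Fintype.card K)) (h11 : 11 ≤ Fintype.card ι) (h13 : 11 ≤ Fintype.card K)
    (hF : Fintype.card F = p) (h3p : p = 3) {w : ι → F} (hw : UU Q M c w) (hAx : ¬ Ax Q e c w)
    {T : Finset K} (hmemT : ∀ j, j ∈ T ↔ co Q e c j w ≠ 0) : omegaGL ⇑Q ≤ M := by
  classical
  subst h3p
  have hfr := C.fr
  have h2 := hfr.h2
  have hpf := hpf_of hF
  have h30 : (3 : F) = 0 := by exact_mod_cast CharP.cast_eq_zero F 3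
  have hsq : ∀ i ∈ T, co Q e c i w ^ 2 = 1 := by
    intro i hi
    have := FiniteField.pow_card_sub_one_eq_one _ ((hmemT i).1 hi)
    rwa [hF] at this
  have hsum : ∑ i ∈ T, co Q e c i w ^ 2 = 1 := by
    have h4 := Fr.sum_sq hfr hw.1
    rwa [← Finset.sum_subset (Finset.subset_univ T) (fun j _ hj => by
      have : co Q e c j w = 0 := by
        by_contra h0
        exact hj ((hmemT j).2 h0)
      rw [this]; ring)] at h4
  by_cases h : 3 ≤ T.card
  · obtain ⟨S, hS, hSc⟩ := Finset.exists_subset_card_eq h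
    refine zs hQ C hn h11 h13 hpf hw (fun j hj => (hmemT j).1 (hS hj)) (Finset.card_pos.1 (by omega)) (by omega) ?_
    rw [Finset.sum_congr rfl (fun i hi => hsq i (hS hi)), Finset.sum_const, hSc, nsmul_eq_mul, mul_one]
    exact_mod_cast h30
  · rw [Finset.sum_congr rfl hsq, Finset.sum_const, nsmul_eq_mul, mul_one] at hsum
    have hcases : T.card = 0 ∨ T.card = 1 ∨ T.card = 2 := by omega
    rcases hcases with h1 | h1 | h1
    · rw [h1] at hsum
      simp at hsum
    · obtain ⟨i, rfl⟩ := Finset.card_eq_one.1 h1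
      exfalso
      refine hAx ⟨i, fun j hj => ?_⟩
      by_contra h0
      have := (hmemT j).2 h0
      simp at this
      exact hj this
    · rw [h1] at hsum
      exfalso
      apply one_ne_zero (α := F)
      have : (2 : F) = 1 := by exact_mod_cast hsum
      linear_combination this

include hp in
/-- The field of five elements. -/
theorem p_five (hQ : Nondeg Q) (C : MC Q M e c) (hn : Odd (Fintype.card K)) (h11 : 11 ≤ Fintype.card ι) (h13 : 11 ≤ Fintype.card K)
    (hF : Fintype.card F = p) (h5p : p = 5) {w : ι → F} (hw : UU Q M c w) (hAx : ¬ Ax Q e c w)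
    {T : Finset K} (hmemT : ∀ j, j ∈ T ↔ co Q e c j w ≠ 0) : omegaGL ⇑Q ≤ M := by
  classical
  subst h5p
  have hfr := C.fr
  have h2 := hfr.h2
  have hpf := hpf_of hF
  have h50 : (5 : F) = 0 := by exact_mod_cast CharP.cast_eq_zero F 5
  have h3 : (3 : F) ≠ 0 := by
    intro h30
    apply h2
    linear_combination h50 - h30
  have hsq : ∀ i ∈ T, co Q e c i w ^ 2 = 1 ∨ co Q e c i w ^ 2 = -1 := by
    intro i hi
    have := FiniteField.pow_card_sub_one_eq_one _ ((hmemT i).1 hi)
    rw [hF] at this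
    have h4 : (co Q e c i w ^ 2) ^ 2 = 1 := by
      rw [← this]
      ring
    exact sq_eq_one_iff_of_ne_zero_aux h4
  have hsum : ∑ i ∈ T, co Q e c i w ^ 2 = 1 := by
    have h4 := Fr.sum_sq hfr hw.1
    rwa [← Finset.sum_subset (Finset.subset_univ T) (fun j _ hj => by
      have : co Q e c j w = 0 := by
        by_contra h0
        exact hj ((hmemT j).2 h0)
      rw [this]; ring)] at h4
  by_cases hmix : ∃ a ∈ T, ∃ b ∈ T, co Q e c a w ^ 2 = 1 ∧ co Q e c b w ^ 2 = -1
  · obtain ⟨a, ha, b, hb, h1, h4⟩ := hmix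
    have hab : a ≠ b := by
      rintro rfl
      rw [h1] at h4
      apply h2
      linear_combination h4
    refine zs hQ C hn h11 h13 hpf hw (S := {a, b}) (fun j hj => ?_) ⟨a, by simp⟩ (le_trans Finset.card_le_two (by omega)) ?_
    · simp only [Finset.mem_insert, Finset.mem_singleton] at hj
      rcases hj with rfl | rfl
      · exact (hmemT _).1 ha
      · exact (hmemT _).1 hb
    · rw [Finset.sum_pair hab, h1, h4]
      ring
  · push Not at hmix
    by_cases hall : ∀ j ∈ T, co Q e c j w ^ 2 = 1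
    · by_cases h : 5 ≤ T.card
      · obtain ⟨S, hS, hSc⟩ := Finset.exists_subset_card_eq h
        refine zs hQ C hn h11 h13 hpf hw (fun j hj => (hmemT j).1 (hS hj)) (Finset.card_pos.1 (by omega)) (by omega) ?_
        rw [Finset.sum_congr rfl (fun i hi => hall i (hS hi)), Finset.sum_const, hSc, nsmul_eq_mul, mul_one]
        exact_mod_cast h50
      · rw [Finset.sum_congr rfl hall, Finset.sum_const, nsmul_eq_mul, mul_one] at hsum
        have hcases : T.card = 0 ∨ T.card = 1 ∨ T.card = 2 ∨ T.card = 3 ∨ T.card = 4 := by omega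
        exfalso
        rcases hcases with h1 | h1 | h1 | h1 | h1
        · rw [h1] at hsum
          simp at hsum
        · obtain ⟨i, rfl⟩ := Finset.card_eq_one.1 h1
          refine hAx ⟨i, fun j hj => ?_⟩
          by_contra h0
          have := (hmemT j).2 h0
          simp at this
          exact hj this
        · rw [h1] at hsum
          apply one_ne_zero (α := F)
          have : (2 : F) = 1 := by exact_mod_cast hsum
          linear_combination this
        · rw [h1] at hsum
          apply h2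
          have : (3 : F) = 1 := by exact_mod_cast hsum
          linear_combination this
        · rw [h1] at hsum
          apply h3
          have : (4 : F) = 1 := by exact_mod_cast hsum
          linear_combination this
    · push Not at hall
      obtain ⟨b, hb, hb1⟩ := hall
      have hb2 := (hsq b hb).resolve_left hb1
      have hallm : ∀ j ∈ T, co Q e c j w ^ 2 = -1 := by
        intro j hj
        rcases hsq j hj with h1 | h1
        · exact absurd hb2 (hmix j hj b hb h1)
        · exact h1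
      by_cases h : 5 ≤ T.card
      · obtain ⟨S, hS, hSc⟩ := Finset.exists_subset_card_eq h
        refine zs hQ C hn h11 h13 hpf hw (fun j hj => (hmemT j).1 (hS hj)) (Finset.card_pos.1 (by omega)) (by omega) ?_
        rw [Finset.sum_congr rfl (fun i hi => hallm i (hS hi)), Finset.sum_const, hSc, nsmul_eq_mul]
        have : ((5 : ℕ) : F) = 0 := by exact_mod_cast h50
        rw [this, zero_mul]
      · have hodd5 : Odd 5 := by decide
        refine stepB (hp := hp) hQ C hn h11 h13 hF hodd5 hw (T := T) (fun j hj => (hmemT j).2 hj) (by omega) hb rfl ((hmemT b).1 hb)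
          (by rw [hb2]; intro h4; apply h2; linear_combination -h4) (by rw [hb2]; intro h4; apply h3; linear_combination -h4)
          (ζ := 2) (ω := 2) (by rw [hb2]; linear_combination 2 * h50) (by intro h4; apply h3; linear_combination h4)

/-- The main theorem: a vector which is neither on an axis nor of the exceptional shape gives all of `Ω`. -/
theorem main_thm (hQ : Nondeg Q) (C : MC Q M e c) (hn : Odd (Fintype.card K)) (h11 : 11 ≤ Fintype.card ι) (h13 : 11 ≤ Fintype.card K)
    (hF : Fintype.card F = p) (hodd : Odd p) {w : ι → F} (hw : UU Q M c w) (hAx : ¬ Ax Q e c w) (hBad : ¬ Bad Q e c w) :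
    omegaGL ⇑Q ≤ M := by
  classical
  obtain ⟨T, hT⟩ : ∃ T : Finset K, T = Finset.univ.filter (fun j => co Q e c j w ≠ 0) := ⟨_, rfl⟩
  have hmemT : ∀ j, j ∈ T ↔ co Q e c j w ≠ 0 := by
    intro j
    rw [hT]
    simp
  have hprime := hp.out
  have hcases : p = 3 ∨ p = 5 ∨ 7 ≤ p := by
    have h2 := hprime.two_le
    obtain ⟨r, hr⟩ := hodd
    have h4 : p ≠ 2 := by omega
    have h6 : p ≠ 4 := by omega
    have h8 : p ≠ 6 := by omega
    omega
  rcases hcases with h | h | h
  · exact p_three hQ C hn h11 h13 hF h hw hAx hmemT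
  · exact p_five hQ C hn h11 h13 hF h hw hAx hmemT
  · have hs : ∀ n : ℕ, 1 ≤ n → n ≤ 6 → (n : F) ≠ 0 := by
      intro n h1 h6 h0
      have := Nat.le_of_dvd (by omega) ((CharP.cast_eq_zero_iff F p n).1 h0)
      omega
    by_cases h5 : 5 ≤ T.card
    · exact large_support hQ C hn h11 h13 hF hodd hs hw hmemT h5
    · exact small_support hQ C hn h11 h13 hF hodd hs hw hAx hBad hmemT (by omega)

end main

end Cfsg.Agent.H28.FrF
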