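import Mathlib
import Cfsg.Agent.H28.FrF

/-!
# The stabiliser of an orthogonal frame is maximal
-/

set_option autoImplicit false
set_option linter.unusedVariables false
set_option linter.unusedSectionVars false
set_option linter.unusedSimpArgs false
set_option linter.style.longLine false

namespace Cfsg.Agent.H28.FrG

open Matrix QuadraticMap Cfsg Cfsg.Geo Module
open Cfsg.Agent.Lib.OrthoBasic Cfsg.Agent.Lib.OrthoSiegel Cfsg.Agent.Lib.OmCalc Cfsg.Agent.Lib.OmPair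
  Cfsg.Agent.Lib.OrthGroup Cfsg.Agent.Lib.OrthOmega
open Cfsg.Agent.H28.KlD Cfsg.Agent.H28.FrA Cfsg.Agent.H28.FrB Cfsg.Agent.H28.FrC Cfsg.Agent.H28.FrD Cfsg.Agent.H28.FrE Cfsg.Agent.H28.FrF
open Cfsg.Agent.Lib.SympT (GL_ext mulVec_mul_GL mulVec_inv_GL inv_mulVec_GL)

local notation:70 g:71 " ⋆ " x:70 => Matrix.mulVec (Units.val g) x

variable {ι : Type} [Fintype ι] [DecidableEq ι] {F : Type*} [Field F] [Fintype F]
  {Q : QuadraticForm F (ι → F)} {K : Type} [Fintype K] [DecidableEq K] {e : K → ι → F} {c : F}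
  {M : Subgroup (GL ι F)}

lemma exists_even (h4 : 4 ≤ Fintype.card K) {a b k k' : K} (hab : a ≠ b) (hk : k ≠ k') :
    ∃ π : Equiv.Perm K, Equiv.Perm.sign π = 1 ∧ π a = k ∧ π b = k' := by
  obtain ⟨b', hb'⟩ : ∃ b', b' = Equiv.swap a k b := ⟨_, rfl⟩
  have hb'k : b' ≠ k := by
    rw [hb']
    intro h
    have h1 : Equiv.swap a k b = Equiv.swap a k a := by rw [h, Equiv.swap_apply_left]
    exact hab ((Equiv.swap a k).injective h1).symm
  obtain ⟨π₀, h1, h2⟩ : ∃ π₀ : Equiv.Perm K, π₀ a = k ∧ π₀ b = k' := by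
    refine ⟨Equiv.swap b' k' * Equiv.swap a k, ?_, ?_⟩
    · rw [Equiv.Perm.mul_apply, Equiv.swap_apply_left, Equiv.swap_apply_of_ne_of_ne (Ne.symm hb'k) hk]
    · rw [Equiv.Perm.mul_apply, ← hb', Equiv.swap_apply_left]
  by_cases hs : Equiv.Perm.sign π₀ = 1
  · exact ⟨π₀, hs, h1, h2⟩
  · obtain ⟨l, hl⟩ := exists_out ({a, b} : Finset K) (lt_of_le_of_lt Finset.card_le_two (by omega))
    obtain ⟨l', hl'⟩ := exists_out (insert l ({a, b} : Finset K)) (lt_of_le_of_lt (Finset.card_insert_le _ _) (by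
      have := Finset.card_le_two (a := a) (b := b)
      omega))
    simp only [Finset.mem_insert, Finset.mem_singleton, not_or] at hl hl'
    refine ⟨π₀ * Equiv.swap l l', ?_, ?_, ?_⟩
    · rw [Equiv.Perm.sign_mul, Equiv.Perm.sign_swap (Ne.symm hl'.1)]
      rcases Int.units_eq_one_or (Equiv.Perm.sign π₀) with h | h
      · exact absurd h hs
      · rw [h]
        simp
    · rw [Equiv.Perm.mul_apply, Equiv.swap_apply_of_ne_of_ne (Ne.symm hl.1) (Ne.symm hl'.2.1), h1]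
    · rw [Equiv.Perm.mul_apply, Equiv.swap_apply_of_ne_of_ne (Ne.symm hl.2) (Ne.symm hl'.2.2), h2]

lemma no_three {w : ι → F} {p₁ p₂ a b d : K} (h : ∀ j, j ≠ p₁ → j ≠ p₂ → co Q e c j w = 0) (hab : a ≠ b) (had : a ≠ d) (hbd : b ≠ d)
    (h1 : co Q e c a w ≠ 0) (h2 : co Q e c b w ≠ 0) (h3 : co Q e c d w ≠ 0) : False := by
  have key : ∀ j, co Q e c j w ≠ 0 → j = p₁ ∨ j = p₂ := by
    intro j hj
    by_contra hcon
    push Not at hcon
    exact hj (h j hcon.1 hcon.2)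
  rcases key a h1 with r1 | r1 <;> rcases key b h2 with r2 | r2 <;> rcases key d h3 with r3 | r3 <;> simp_all

lemma supp_two {w : ι → F} (h : Ax Q e c w ∨ Bad Q e c w) : ∃ p₁ p₂ : K, ∀ j, j ≠ p₁ → j ≠ p₂ → co Q e c j w = 0 := by
  rcases h with ⟨i, hi⟩ | ⟨a, b, -, hs, -, -⟩
  · exact ⟨i, i, fun j h1 _ => hi j h1⟩
  · exact ⟨a, b, hs⟩

/-- Step G. -/
theorem stepG (C : MC Q M e c) (hn : Odd (Fintype.card K)) (h5 : 5 ≤ Fintype.card K) {g : GL ι F} (hg : g ∈ M) {k : K}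
    (hk : ¬ Ax Q e c (g ⋆ e k)) (hall : ∀ w, UU Q M c w → Ax Q e c w ∨ Bad Q e c w) : False := by
  have hfr := C.fr
  have hc := hfr.hc
  have h2 := hfr.h2
  have hc2 := hfr.c2
  have hiso := C.iso hg
  have hUk : UU Q M c (g ⋆ e k) := C.U_conj hg (C.U_e hn k)
  obtain ⟨a, b, hab, hsup, hx2, hy2⟩ := (hall _ hUk).resolve_left hk
  obtain ⟨x, hxd⟩ : ∃ x, x = co Q e c a (g ⋆ e k) := ⟨_, rfl⟩
  obtain ⟨y, hyd⟩ : ∃ y, y = co Q e c b (g ⋆ e k) := ⟨_, rfl⟩
  rw [← hxd] at hx2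
  rw [← hyd] at hy2
  have hx0 : x ≠ 0 := by
    rintro rfl
    norm_num at hx2
  have hy0 : y ≠ 0 := by
    rintro rfl
    norm_num at hy2
  have hexp : g ⋆ e k = x • e a + y • e b := by
    apply hfr.ext_co
    intro j
    rw [co_add, co_smul, co_smul, hfr.co_e, hfr.co_e]
    by_cases j1 : j = a
    · subst j1
      rw [if_pos rfl, if_neg hab.symm, hxd]
      ring
    · by_cases j2 : j = b
      · subst j2
        rw [if_neg hab, if_pos rfl, hyd]
        ring
      · rw [if_neg (Ne.symm j1), if_neg (Ne.symm j2), hsup j j1 j2]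
        ring
  obtain ⟨d, hd⟩ := exists_out ({a, b} : Finset K) (lt_of_le_of_lt Finset.card_le_two (by omega))
  simp only [Finset.mem_insert, Finset.mem_singleton, not_or] at hd
  obtain ⟨hda, hdb⟩ := hd
  obtain ⟨k', hk'⟩ : ∃ k', co Q e c d (g ⋆ e k') ≠ 0 := by
    by_contra hcon
    push Not at hcon
    have h0 : g⁻¹ ⋆ e d = 0 := by
      apply hfr.zero_of_co
      intro j
      have h3 := hcon j
      simp only [co] at h3 ⊢
      rw [← polar_iso hiso, mulVec_inv_GL, polar_comm]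
      exact h3
    have h3 := iso_inv hiso (e d)
    rw [h0, map_zero, hfr.he] at h3
    exact hc h3.symm
  have hkk' : k ≠ k' := by
    rintro rfl
    exact hk' (hsup d hda hdb)
  obtain ⟨A, hA⟩ : ∃ A, A = co Q e c a (g ⋆ e k') := ⟨_, rfl⟩
  obtain ⟨B, hB⟩ : ∃ B, B = co Q e c b (g ⋆ e k') := ⟨_, rfl⟩
  have hrel : x * A + y * B = 0 := by
    have h3 : polar Q (g ⋆ e k) (g ⋆ e k') = 0 := by
      rw [polar_iso hiso, hfr.ho k k' hkk']
    rw [hexp, polar_add_left, polar_smul_l, polar_smul_l, polar_comm Q (e a), polar_comm Q (e b), hfr.polar_e, hfr.polar_e,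
      ← hA, ← hB] at h3
    have h4 : 2 * c * (x * A + y * B) = 0 := by linear_combination h3
    exact (mul_eq_zero.1 h4).resolve_left hc2
  have hUk' : UU Q M c (g ⋆ e k') := C.U_conj hg (C.U_e hn k')
  obtain ⟨p₁, p₂, hp⟩ := supp_two (hall _ hUk')
  have hA0 : A = 0 := by
    by_contra hA0
    have hB0 : B ≠ 0 := by
      rintro hB0
      rw [hB0, mul_zero, add_zero] at hrel
      exact mul_ne_zero hx0 hA0 hrel
    exact no_three hp hab (Ne.symm hda) (Ne.symm hdb) (by rw [← hA]; exact hA0) (by rw [← hB]; exact hB0) hk'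
  have hB0 : B = 0 := by
    rw [hA0, mul_zero, zero_add] at hrel
    exact (mul_eq_zero.1 hrel).resolve_left hy0
  obtain ⟨π, hπs, hπa, hπb⟩ := exists_even (by omega) hab hkk'
  obtain ⟨t, ht, htx⟩ := C.perm_lift π hπs
  have hU := C.U_conj hg (C.U_conj ht hUk)
  have hz : g ⋆ (t ⋆ (g ⋆ e k)) = x • (g ⋆ e k) + y • (g ⋆ e k') := by
    conv_lhs => rw [hexp]
    rw [Matrix.mulVec_add, Matrix.mulVec_smul, Matrix.mulVec_smul, htx, htx, hπa, hπb, Matrix.mulVec_add, Matrix.mulVec_smul, Matrix.mulVec_smul]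
  rw [hz] at hU
  obtain ⟨q₁, q₂, hq⟩ := supp_two (hall _ hU)
  refine no_three hq hab (Ne.symm hda) (Ne.symm hdb) ?_ ?_ ?_
  · rw [co_add, co_smul, co_smul, ← hxd, ← hA, hA0]
    intro h3
    apply hx0
    have h4 : x * x = 0 := by linear_combination h3
    exact mul_self_eq_zero.1 h4
  · rw [co_add, co_smul, co_smul, ← hyd, ← hB, hB0]
    intro h3
    have h4 : x * y = 0 := by linear_combination h3
    exact mul_ne_zero hx0 hy0 h4
  · rw [co_add, co_smul, co_smul, hsup d hda hdb]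
    intro h3
    have h4 : y * co Q e c d (g ⋆ e k') = 0 := by linear_combination h3
    exact mul_ne_zero hy0 hk' h4

section frame

variable {t : ℕ} {D : Fin t → Submodule F (ι → F)}

theorem frame_exists (hQ : Nondeg Q) (h2 : (2 : F) ≠ 0) (hD : IsOrthogonalMDecomposition ⇑Q 1 D) :
    ∃ (e : Fin t → ι → F) (c : F), Fr Q e c ∧ (∀ i, e i ∈ D i) ∧ ∀ i x, x ∈ D i → ∃ a : F, x = a • e i := by
  classical
  have hdec := hD.decomp.decomp
  have ht := hdec.two_le
  obtain ⟨i₀⟩ : Nonempty (Fin t) := ⟨⟨0, by omega⟩⟩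
  obtain ⟨v, hv0, hv⟩ := finrank_eq_one_iff'.1 (hdec.finrank_eq i₀)
  have hvv : (v : ι → F) ≠ 0 := fun h => hv0 (Subtype.ext h)
  obtain ⟨x, hx, hxv⟩ := (hD.decomp.nondegenerate i₀ v v.2 hvv).1
  obtain ⟨a, ha⟩ := hv ⟨x, hx⟩
  have hQv : Q (v : ι → F) ≠ 0 := by
    intro h0
    apply hxv
    have : x = a • (v : ι → F) := by
      have := congrArg Subtype.val ha
      simpa using this.symm
    rw [this, polar_smul_l, polar_self', h0]
    ring
  choose φ hφ using fun i => hD.isometric i₀ i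
  obtain ⟨e, he⟩ : ∃ e : Fin t → ι → F, e = fun i => ((φ i v : D i) : ι → F) := ⟨_, rfl⟩
  obtain ⟨c, hc⟩ : ∃ c, c = Q (v : ι → F) := ⟨_, rfl⟩
  have hQe : ∀ i, Q (e i) = c := by
    intro i
    rw [he, hc]
    exact hφ i v
  have hc0 : c ≠ 0 := by rw [hc]; exact hQv
  have hmem : ∀ i, e i ∈ D i := by
    intro i
    rw [he]
    exact (φ i v).2
  have hne : ∀ i, e i ≠ 0 := by
    intro i h0
    have := hQe i
    rw [h0, map_zero] at this
    exact hc0 this.symm
  have hgen : ∀ i x, x ∈ D i → ∃ a : F, x = a • e i := by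
    intro i x hx
    have h1 : (⟨e i, hmem i⟩ : D i) ≠ 0 := fun h => hne i (congrArg Subtype.val h)
    obtain ⟨a, ha⟩ := (finrank_eq_one_iff_of_nonzero' _ h1).1 (hdec.finrank_eq i) ⟨x, hx⟩
    refine ⟨a, ?_⟩
    have := congrArg Subtype.val ha
    simpa using this.symm
  have ho : ∀ i j, i ≠ j → polar Q (e i) (e j) = 0 := fun i j hij =>
    hD.decomp.orthogonal i j hij _ (hmem i) _ (hmem j)
  have hc2 : 2 * c ≠ 0 := mul_ne_zero h2 hc0
  refine ⟨e, c, ⟨hc0, h2, hQe, ho, fun x => ?_⟩, hmem, hgen⟩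
  obtain ⟨y, hy⟩ : ∃ y, y = x - ∑ j, ((2 * c)⁻¹ * polar Q x (e j)) • e j := ⟨_, rfl⟩
  have hpe : ∀ j, polar Q y (e j) = 0 := by
    intro j
    rw [hy, polar_sub_left, polar_comm Q (∑ j, ((2 * c)⁻¹ * polar Q x (e j)) • e j) (e j), polar_sum_r, Finset.sum_eq_single j]
    · rw [polar_smul_r, polar_self', hQe]
      field_simp
      ring
    · intro b _ hb
      rw [polar_smul_r, ho j b (Ne.symm hb), mul_zero]
    · exact fun h => absurd (Finset.mem_univ j) h
  have hall : ∀ z, polar Q y z = 0 := by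
    intro z
    have hz : z ∈ iSup D := by
      rw [hdec.iSup_eq_top]
      exact Submodule.mem_top
    induction hz using Submodule.iSup_induction' with
    | mem i w hw =>
      obtain ⟨a, rfl⟩ := hgen i w hw
      rw [polar_smul_r, hpe, mul_zero]
    | zero => exact polar_zero_right _ _
    | add u w _ _ hu hw => rw [polar_add_right, hu, hw, add_zero]
  have hy0 : y = 0 := by
    by_contra h0
    obtain ⟨z, hz⟩ := hQ y h0
    exact hz (hall z)
  rw [hy] at hy0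
  exact sub_eq_zero.1 hy0

theorem mc_of (hQ : Nondeg Q) (h11 : 11 ≤ Fintype.card ι) (hD : IsOrthogonalMDecomposition ⇑Q 1 D) {e : Fin t → ι → F} {c : F}
    (hfr : Fr Q e c) (hmem : ∀ i, e i ∈ D i) (hgen : ∀ i x, x ∈ D i → ∃ a : F, x = a • e i)
    (hHM : decompositionStabilizer D ⊓ omegaGL ⇑Q ≤ M) (hMK : M ≤ omegaGL ⇑Q) : MC Q M e c := by
  refine ⟨hfr, hMK, fun L π ε hL hev hsq hact => ?_⟩
  obtain ⟨g, hg⟩ := exists_gl_prodR (Q := Q) L
  refine ⟨g, hHM ⟨?_, mem_omegaGL_of_list hQ h11 L hL hev hsq hg⟩, hg⟩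
  refine Cfsg.Agent.Lib.SympDecomp.decomp_of_maps (k := 1) hD.decomp.decomp.finrank_eq g π (fun i x hx => ?_)
  obtain ⟨a, rfl⟩ := hgen i x hx
  rw [Matrix.mulVec_smul, hg, hact]
  exact (D (π i)).smul_mem _ ((D (π i)).smul_mem _ (hmem _))

theorem stab_of_axes (hD : IsOrthogonalMDecomposition ⇑Q 1 D) {e : Fin t → ι → F} {c : F} (hfr : Fr Q e c)
    (hmem : ∀ i, e i ∈ D i) (hgen : ∀ i x, x ∈ D i → ∃ a : F, x = a • e i) {g : GL ι F} (hiso : ∀ v, Q (g ⋆ v) = Q v)
    (hax : ∀ j, Ax Q e c (g ⋆ e j)) : g ∈ decompositionStabilizer D := by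
  have hc := hfr.hc
  have hc2 := hfr.c2
  choose σ hσ using hax
  have hexp : ∀ j, g ⋆ e j = co Q e c (σ j) (g ⋆ e j) • e (σ j) := by
    intro j
    apply hfr.ext_co
    intro m
    rw [co_smul, hfr.co_e]
    by_cases hm : m = σ j
    · rw [hm, if_pos rfl]
      ring
    · rw [if_neg (Ne.symm hm), hσ j m hm]
      ring
  have hinj : Function.Injective σ := by
    intro j l hjl
    by_contra hne
    have h1 : polar Q (g ⋆ e j) (g ⋆ e l) = 0 := by
      rw [polar_iso hiso, hfr.ho j l hne]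
    rw [hexp j, hexp l, ← hjl, polar_smul_l, polar_smul_r, polar_self', hfr.he] at h1
    have h3 : co Q e c (σ j) (g ⋆ e j) = 0 ∨ co Q e c (σ j) (g ⋆ e l) = 0 := by
      by_contra hcon
      push Not at hcon
      exact mul_ne_zero hcon.1 (mul_ne_zero hcon.2 hc2) (by linear_combination h1)
    rcases h3 with h3 | h3
    · have h5 := hexp j
      rw [h3, zero_smul] at h5
      have h6 := hiso (e j)
      rw [h5, map_zero, hfr.he] at h6
      exact hc h6.symm
    · have h5 := hexp l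
      rw [← hjl, h3, zero_smul] at h5
      have h6 := hiso (e l)
      rw [h5, map_zero, hfr.he] at h6
      exact hc h6.symm
  refine Cfsg.Agent.Lib.SympDecomp.decomp_of_maps (k := 1) hD.decomp.decomp.finrank_eq g
    (Equiv.ofBijective σ (Finite.injective_iff_bijective.1 hinj)) (fun i x hx => ?_)
  obtain ⟨a, rfl⟩ := hgen i x hx
  rw [Matrix.mulVec_smul, hexp i]
  exact (D _).smul_mem _ ((D _).smul_mem _ (hmem _))

/-- The stabiliser is a proper subgroup. -/
theorem stab_lt (hQ : Nondeg Q) (h11 : 11 ≤ Fintype.card ι) (hD : IsOrthogonalMDecomposition ⇑Q 1 D) {e : Fin t → ι → F} {c : F}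
    (hfr : Fr Q e c) (hmem : ∀ i, e i ∈ D i) (hgen : ∀ i x, x ∈ D i → ∃ a : F, x = a • e i) (h4 : 4 ≤ t) :
    decompositionStabilizer D ⊓ omegaGL ⇑Q < omegaGL ⇑Q := by
  refine lt_of_le_of_ne inf_le_right (fun heq => ?_)
  have hc := hfr.hc
  have h2 := hfr.h2
  have hc2 := hfr.c2
  obtain ⟨a, b, d, f, -, -, -, -, n1, n2, n3, n4, n5, n6⟩ := exists_four (S := (Finset.univ : Finset (Fin t))) (by simpa using h4)
  obtain ⟨x, y, hxy⟩ := exists_diag h2 (one_ne_zero (α := F)) (one_ne_zero (α := F)) (-1)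
  obtain ⟨z, hz⟩ : ∃ z, z = x • e a + y • e b + e d := ⟨_, rfl⟩
  have hcoz : ∀ j, co Q e c j z = x * (if a = j then 1 else 0) + y * (if b = j then 1 else 0) + (if d = j then 1 else 0) := by
    intro j
    rw [hz, co_add, co_add, co_smul, co_smul, hfr.co_e, hfr.co_e, hfr.co_e]
  have hQz : Q z = 0 := by
    rw [hz, Cfsg.Agent.Lib.OrthoBasic.Q_add, Cfsg.Agent.Lib.OrthoBasic.Q_add, Cfsg.Agent.Lib.OrthoBasic.Q_smul, Cfsg.Agent.Lib.OrthoBasic.Q_smul,
      hfr.he, hfr.he, hfr.he]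
    simp only [polar_add_left, polar_smul_l, polar_smul_r, hfr.ho a b n1, hfr.ho a d n2, hfr.ho b d n4]
    linear_combination c * hxy
  have hzf : polar Q z (e f) = 0 := by
    rw [hfr.polar_e, hcoz, if_neg n3, if_neg n5, if_neg n6]
    ring
  have hO := sE_mem_omegaGL hQ h11 hQz hzf
  have hmem' : sE hQ hQz hzf ∈ decompositionStabilizer D ⊓ omegaGL ⇑Q := by
    rw [heq]
    exact hO
  obtain ⟨σ, hσ⟩ := hmem'.1
  have h1 : sE hQ hQz hzf ⋆ e d ∈ D (σ d) := by
    rw [← hσ d]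
    exact ⟨e d, hmem d, rfl⟩
  obtain ⟨u, hu⟩ := hgen _ _ h1
  have hzd : polar Q (e d) z = 2 * c := by
    rw [polar_comm, hfr.polar_e, hcoz, if_neg n2, if_neg n4, if_pos rfl]
    ring
  rw [sE_apply', hzd, hfr.ho d f n6, hfr.he] at hu
  have hcof : co Q e c f (e d + (2 * c) • e f - (0 + c * (2 * c)) • z) = 2 * c := by
    rw [co_sub, co_add, co_smul, co_smul, hfr.co_e, hfr.co_e, hcoz]
    simp only [n1, n2, n3, n4, n5, n6, n1.symm, n2.symm, n3.symm, n4.symm, n5.symm, n6.symm, if_true, if_false, eq_self_iff_true]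
    ring
  have hσf : σ d = f := by
    by_contra hne
    have h3 := congrArg (co Q e c f) hu
    rw [hcof, co_smul, hfr.co_e, if_neg hne, mul_zero] at h3
    exact hc2 h3
  have hcoa : co Q e c a (e d + (2 * c) • e f - (0 + c * (2 * c)) • z) = - (2 * c ^ 2 * x) := by
    rw [co_sub, co_add, co_smul, co_smul, hfr.co_e, hfr.co_e, hcoz]
    simp only [n1, n2, n3, n4, n5, n6, n1.symm, n2.symm, n3.symm, n4.symm, n5.symm, n6.symm, if_true, if_false, eq_self_iff_true]
    ring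
  have hcob : co Q e c b (e d + (2 * c) • e f - (0 + c * (2 * c)) • z) = - (2 * c ^ 2 * y) := by
    rw [co_sub, co_add, co_smul, co_smul, hfr.co_e, hfr.co_e, hcoz]
    simp only [n1, n2, n3, n4, n5, n6, n1.symm, n2.symm, n3.symm, n4.symm, n5.symm, n6.symm, if_true, if_false, eq_self_iff_true]
    ring
  have ha := congrArg (co Q e c a) hu
  have hb := congrArg (co Q e c b) hu
  rw [hσf, hcoa, co_smul, hfr.co_e, if_neg n3.symm, mul_zero, neg_eq_zero] at ha
  rw [hσf, hcob, co_smul, hfr.co_e, if_neg n5.symm, mul_zero, neg_eq_zero] at hb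
  have hcc : 2 * c ^ 2 ≠ 0 := mul_ne_zero h2 (pow_ne_zero 2 hc)
  have hx0 : x = 0 := (mul_eq_zero.1 ha).resolve_left hcc
  have hy0 : y = 0 := (mul_eq_zero.1 hb).resolve_left hcc
  rw [hx0, hy0] at hxy
  apply one_ne_zero (α := F)
  linear_combination hxy

/-- The maximality theorem. -/
theorem frame_maximal {p : ℕ} [hp : Fact p.Prime] [CharP F p] (hQ : Nondeg Q) (h11 : 11 ≤ Fintype.card ι) (ht13 : 11 ≤ t) (htodd : Odd t)
    (hF : Fintype.card F = p) (hodd : Odd p) (h2 : (2 : F) ≠ 0) (hD : IsOrthogonalMDecomposition ⇑Q 1 D) :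
    IsMaximalIn (omegaGL ⇑Q) (decompositionStabilizer D ⊓ omegaGL ⇑Q) := by
  classical
  obtain ⟨e, c, hfr, hmem, hgen⟩ := frame_exists hQ h2 hD
  refine ⟨stab_lt hQ h11 hD hfr hmem hgen (by omega), fun M hHM hMK => ?_⟩
  by_cases hMH : M = decompositionStabilizer D ⊓ omegaGL ⇑Q
  · exact Or.inl hMH
  right
  refine le_antisymm hMK ?_
  have C : MC Q M e c := mc_of hQ h11 hD hfr hmem hgen hHM hMK
  have hn : Odd (Fintype.card (Fin t)) := by simpa using htodd
  have h13 : 11 ≤ Fintype.card (Fin t) := by simpa using ht13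
  obtain ⟨g, hg, hgH⟩ : ∃ g ∈ M, g ∉ decompositionStabilizer D ⊓ omegaGL ⇑Q := by
    by_contra hcon
    push Not at hcon
    exact hMH (le_antisymm hcon hHM)
  have hgS : g ∉ decompositionStabilizer D := fun h => hgH ⟨h, hMK hg⟩
  obtain ⟨k, hk⟩ : ∃ k, ¬ Ax Q e c (g ⋆ e k) := by
    by_contra hcon
    push Not at hcon
    exact hgS (stab_of_axes hD hfr hmem hgen (C.iso hg) hcon)
  by_cases hw : ∃ w, UU Q M c w ∧ ¬ Ax Q e c w ∧ ¬ Bad Q e c w
  · obtain ⟨w, hw1, hw2, hw3⟩ := hw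
    exact main_thm hQ C hn h11 h13 hF hodd hw1 hw2 hw3
  · push Not at hw
    exfalso
    refine stepG C hn (by omega) hg hk (fun w hU => ?_)
    by_cases hax : Ax Q e c w
    · exact Or.inl hax
    · exact Or.inr (hw w hU hax)

end frame

end Cfsg.Agent.H28.FrG
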