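import Mathlib
import Cfsg.Agent.Lib.KInf

/-!
# Monotonicity of the `K`-infinity subgroups

If a subgroup `Q` of a finite group `P` contains the two `K`-infinity subgroups of `P`, then these are also
the `K`-infinity subgroups of `Q`.
-/

set_option autoImplicit false

namespace Cfsg.Agent.H28.KInfMono

open Cfsg Cfsg.Agent.Lib.KInf

universe u

variable {P : Type u} [Group P]

theorem limit_eqs [Finite P] :
    lowStar (kInfUpper P) = kInfLower P ∧ upStar (kInfLower P) = kInfUpper P := by
  obtain ⟨n, hn⟩ := exists_limit (P := P)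
  have h1 := hn n le_rfl
  have h2 := hn (n + 1) (Nat.le_succ n)
  constructor
  · rw [← h1.1, ← h1.2]
    exact (kSeqEven_eq n).symm
  · rw [← h2.2, ← h1.1]
    exact (kSeqOdd_succ n).symm

/-- **Monotonicity.** -/
theorem kInf_of_le [Finite P] (Q : Subgroup P) (h1 : kInfLower P ≤ Q) (h2 : kInfUpper P ≤ Q) :
    (kInfLower ↥Q).map Q.subtype = kInfLower P ∧ (kInfUpper ↥Q).map Q.subtype = kInfUpper P := by
  have hinj : Function.Injective Q.subtype := Q.subtype_injective
  have hr : ∀ B : Subgroup P, B ≤ Q → (B.subgroupOf Q).map Q.subtype = B := by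
    intro B hB
    rw [Subgroup.map_subgroupOf_eq_of_le hB]
  obtain ⟨hLeq, hUeq⟩ := limit_eqs (P := P)
  -- the lower bounds
  have step1 : ∀ n, (kSeqOdd ↥Q n).map Q.subtype ≤ kSeqOdd P n →
      kSeqEven P n ≤ (kSeqEven ↥Q n).map Q.subtype := by
    intro n h
    apply sSup_le
    intro B hB
    have hBQ : B ≤ Q := (le_lowStar hB).trans ((kSeqEven_le_kInfLower n).trans h1)
    have hB2 : B ∈ kLowerStarFamily ((kSeqOdd ↥Q n).map Q.subtype) := lowerFamily_anti h hB
    rw [← hr B hBQ] at hB2 ⊢
    exact Subgroup.map_mono (le_lowStar ((lower_map_iff _ hinj).mp hB2))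
  have step2 : ∀ n, kSeqEven P n ≤ (kSeqEven ↥Q n).map Q.subtype →
      (kSeqOdd ↥Q (n + 1)).map Q.subtype ≤ kSeqOdd P (n + 1) := by
    intro n h
    refine (map_upStar_le _ hinj _).trans (upStar_anti h)
  have h3 : ∀ n, (kSeqOdd ↥Q n).map Q.subtype ≤ kSeqOdd P n := by
    intro n
    induction n with
    | zero => exact le_top
    | succ n ih => exact step2 n (step1 n ih)
  -- the upper bounds
  have step3 : ∀ n, kInfUpper P ≤ (kSeqOdd ↥Q n).map Q.subtype →
      (kSeqEven ↥Q n).map Q.subtype ≤ kInfLower P := by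
    intro n h
    rw [← hLeq]
    exact (map_lowStar_le _ hinj _).trans (lowStar_anti h)
  have step4 : ∀ n, (kSeqEven ↥Q n).map Q.subtype ≤ kInfLower P →
      kInfUpper P ≤ (kSeqOdd ↥Q (n + 1)).map Q.subtype := by
    intro n h
    rw [← hUeq]
    apply sSup_le
    intro B hB
    have hBQ : B ≤ Q := by
      refine (le_upStar hB).trans ?_
      rw [hUeq]
      exact h2
    have hB2 : B ∈ kUpperStarFamily ((kSeqEven ↥Q n).map Q.subtype) := upperFamily_anti h hB
    rw [← hr B hBQ] at hB2 ⊢
    exact Subgroup.map_mono (le_upStar ((upper_map_iff _ hinj).mp hB2))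
  have h4 : ∀ n, kInfUpper P ≤ (kSeqOdd ↥Q n).map Q.subtype := by
    intro n
    induction n with
    | zero =>
      have : (kSeqOdd ↥Q 0).map Q.subtype = Q := by
        show (⊤ : Subgroup ↥Q).map Q.subtype = Q
        rw [← MonoidHom.range_eq_map, Subgroup.range_subtype]
      rw [this]
      exact h2
    | succ n ih => exact step4 n (step3 n ih)
  obtain ⟨n, hn⟩ := exists_limit (P := P)
  obtain ⟨m, hm⟩ := exists_limit (P := ↥Q)
  set k := max n m with hk
  have hk1 : n ≤ k := le_max_left _ _
  have hk2 : m ≤ k := le_max_right _ _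
  constructor
  · apply le_antisymm
    · have := step3 k (h4 k)
      rwa [(hm k hk2).1] at this
    · have := step1 k (h3 k)
      rwa [(hn k hk1).1, (hm k hk2).1] at this
  · apply le_antisymm
    · have := h3 k
      rwa [(hm k hk2).2, (hn k hk1).2] at this
    · have := h4 k
      rwa [(hm k hk2).2] at this

end Cfsg.Agent.H28.KInfMono
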