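import Mathlib
import Cfsg.Agent.Lib.OmGeo

/-!
# Vectors as sums of two singular vectors, in small dimension
-/

set_option autoImplicit false
set_option linter.unusedVariables false
set_option linter.unusedSectionVars false

namespace Cfsg.Agent.H28.Sp

open QuadraticMap Module
open Cfsg.Agent.Lib.QuadFF
open Cfsg.Agent.Lib.OmGeo

variable {F : Type*} [Field F] {V : Type*} [AddCommGroup V] [Module F V] [FiniteDimensional F V] {Q : QuadraticForm F V}

/-- A singular vector not orthogonal to a given non-zero vector: dimension three suffices. -/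
theorem exists_sing_opp3 [Finite F] (hQ : ND Q) (h3 : 3 ≤ finrank F V) {x : V} (hx : x ≠ 0) :
    ∃ z, Q z = 0 ∧ polar Q x z ≠ 0 := by
  obtain ⟨a, b, hab, -⟩ := exists_hyp_perp hQ ∅ (by simpa using h3)
  by_cases h1 : polar Q x a = 0
  · by_cases h2 : polar Q x b = 0
    · obtain ⟨u, hu⟩ : ∃ u, polar Q x u ≠ 0 := by
        by_contra h
        push Not at h
        exact hx (hQ x h)
      obtain ⟨s, t, hst⟩ := exists_affine hab u 0
      refine ⟨u + s • a + t • b, hst, ?_⟩
      rw [polar_add_right, polar_add_right, polar_sm_r, polar_sm_r, h1, h2]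
      simpa using hu
    · exact ⟨b, hab.Qw, h2⟩
  · exact ⟨a, hab.Qv, h1⟩

theorem split_of_sing {e y z : V} (hy : polar Q e y = 0) (hz : Q z = 0) (hyz : polar Q y z ≠ 0) (hez : polar Q e z = 0) :
    ∃ y₁ y₂, Q y₁ = 0 ∧ Q y₂ = 0 ∧ polar Q e y₁ = 0 ∧ polar Q e y₂ = 0 ∧ y = y₁ + y₂ := by
  set z' : V := (Q y / polar Q y z) • z with hz'
  have h1 : polar Q y z' = Q y := by
    rw [hz', polar_sm_r]
    field_simp
  have h2 : Q z' = 0 := by
    rw [hz', Q_sm, hz, mul_zero]
  have h3 : polar Q e z' = 0 := by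
    rw [hz', polar_sm_r, hez, mul_zero]
  refine ⟨z', y - z', h2, ?_, h3, ?_, by abel⟩
  · rw [sub_eq_add_neg, Q_ad, QuadraticMap.map_neg, h2, QuadraticMap.polar_neg_right, h1]
    ring
  · rw [QuadraticMap.polar_sub_right, hy, h3, sub_zero]

/-- Every vector is a sum of two singular vectors, orthogonal to a given singular vector orthogonal to it:
dimension five suffices. -/
theorem exists_split5 [Finite F] (hQ : ND Q) (h5 : 5 ≤ finrank F V) {e y : V} (hy : polar Q e y = 0) (he : Q e = 0) :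
    ∃ y₁ y₂, Q y₁ = 0 ∧ Q y₂ = 0 ∧ polar Q e y₁ = 0 ∧ polar Q e y₂ = 0 ∧ y = y₁ + y₂ := by
  by_cases he0 : e = 0
  · subst he0
    by_cases hy0 : y = 0
    · subst hy0
      exact ⟨0, 0, map_zero _, map_zero _, polar_zero_left _ _, polar_zero_left _ _, by simp⟩
    obtain ⟨z, hz, hyz⟩ := exists_sing_opp3 hQ (by omega) hy0
    exact split_of_sing hy hz hyz (polar_zero_left _ _)
  obtain ⟨f, hf⟩ := exists_hyp_partner hQ he0 he
  have hmem := hf.decomp y
  rw [hy, zero_smul, sub_zero] at hmem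
  set y' : V := y - polar Q f y • e with hy'
  by_cases hy0 : y' = 0
  · have e1 : y = polar Q f y • e := sub_eq_zero.1 hy0
    refine ⟨polar Q f y • e, 0, ?_, map_zero _, ?_, polar_zero_right _ _, by simpa using e1⟩
    · rw [Q_sm, he, mul_zero]
    · rw [polar_sm_r, polar_self_eq, he]
      simp
  have hdim := hf.finrank_perp2
  have hnd := hf.ND_perp2 hQ
  obtain ⟨z, hz, hyz⟩ := exists_sing_opp3 hnd (by omega) (x := ⟨y', hmem⟩) (by
    intro h0
    exact hy0 (congrArg Subtype.val h0))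
  rw [polar_restr] at hyz
  simp only [restr_apply] at hz
  have hz' := mem_perp2.1 z.2
  refine split_of_sing hy hz ?_ hz'.1
  have e2 : y = y' + polar Q f y • e := by
    rw [hy']
    abel
  rw [e2, polar_add_left, polar_sm_l, hz'.1, mul_zero, add_zero]
  exact hyz

theorem exists_split6 [Finite F] (hQ : ND Q) (h6 : 6 ≤ finrank F V) {e y : V} (hy : polar Q e y = 0) (he : Q e = 0) :
    ∃ y₁ y₂, Q y₁ = 0 ∧ Q y₂ = 0 ∧ polar Q e y₁ = 0 ∧ polar Q e y₂ = 0 ∧ y = y₁ + y₂ :=
  exists_split5 hQ (by omega) hy he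

end Cfsg.Agent.H28.Sp
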