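import Mathlib
import Cfsg.Agent.Lib.OmPerp
import Cfsg.Agent.H28.Sp

/-!
# Orthogonal decompositions `V = P ⟂ P'` of a quadratic space and subgroups of `Ω`
-/

set_option autoImplicit false
set_option linter.unusedSectionVars false
set_option linter.unusedVariables false

namespace Cfsg.Agent.H28.Nd

open Matrix QuadraticMap Cfsg Cfsg.Geo Module
open Cfsg.Agent.Lib.OrthoBasic Cfsg.Agent.Lib.OrthoSiegel Cfsg.Agent.Lib.OmCalc Cfsg.Agent.Lib.TvGL
  Cfsg.Agent.Lib.OmPerp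
open Cfsg.Agent.Lib.SympT (GL_ext mulVec_mul_GL mulVec_inv_GL inv_mulVec_GL linOf linOf_apply finrank_le_of_maps)
open Cfsg.Agent.Lib.QuadFF (nondegenerate_of_ND polar_sm_r polar_sm_l Q_ad Q_sm IsHyp ND restr polar_restr restr_apply
  exists_singular)
open Cfsg.Agent.Lib.SympTIPair (finrank_span_three finrank_span_two finrank_span_one le_or_le_of_union)

local notation:70 g:71 " ⋆ " x:70 => Matrix.mulVec (Units.val g) x

variable {ι : Type} [Fintype ι] [DecidableEq ι] {F : Type*} [Field F] [Fintype F]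
  {Q : QuadraticForm F (ι → F)} {P P' : Submodule F (ι → F)}

/-- An orthogonal decomposition. -/
structure OPair (Q : QuadraticForm F (ι → F)) (P P' : Submodule F (ι → F)) : Prop where
  orth : ∀ u ∈ P, ∀ v ∈ P', polar Q u v = 0
  compl : IsCompl P P'

theorem OPair.symm (h : OPair Q P P') : OPair Q P' P :=
  ⟨fun u hu v hv => by rw [polar_comm]; exact h.orth v hv u hu, h.compl.symm⟩

theorem OPair.decomp (h : OPair Q P P') (x : ι → F) : ∃ x₀ ∈ P, ∃ x₁ ∈ P', x = x₀ + x₁ := by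
  have hx : x ∈ P ⊔ P' := by
    rw [h.compl.sup_eq_top]
    trivial
  obtain ⟨y, hy, z, hz, rfl⟩ := Submodule.mem_sup.1 hx
  exact ⟨y, hy, z, hz, rfl⟩

theorem OPair.eq_zero (h : OPair Q P P') {x : ι → F} (hx : x ∈ P) (hx' : x ∈ P') : x = 0 :=
  Submodule.disjoint_def.1 h.compl.disjoint x hx hx'

/-- The polar form is non-degenerate on each summand. -/
theorem OPair.nondeg (hQ : Nondeg Q) (hp : OPair Q P P') {x : ι → F} (hx : x ∈ P) (hx0 : x ≠ 0) :
    ∃ z ∈ P, polar Q x z ≠ 0 := by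
  obtain ⟨z, hz⟩ := hQ x hx0
  obtain ⟨z₀, hz₀, z₁, hz₁, rfl⟩ := hp.decomp z
  refine ⟨z₀, hz₀, ?_⟩
  rw [polar_add_right, hp.orth x hx z₁ hz₁, add_zero] at hz
  exact hz

theorem OPair.ND (hQ : Nondeg Q) (hp : OPair Q P P') : ND (restr Q P) := by
  intro x hx
  by_contra h0
  have h1 : (x : ι → F) ≠ 0 := fun h => h0 (Subtype.ext h)
  obtain ⟨z, hz, hz'⟩ := hp.nondeg hQ x.2 h1
  apply hz'
  have := hx ⟨z, hz⟩
  rwa [polar_restr] at this

/-- Hyperbolic pairs in a summand, orthogonal to a finite subset. -/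
theorem OPair.hyp_in (hQ : Nondeg Q) (hp : OPair Q P P') {C : Finset (ι → F)} (hC : ∀ c ∈ C, c ∈ P)
    (h : 2 * C.card + 3 ≤ finrank F P) : ∃ a ∈ P, ∃ b ∈ P, IsHyp Q a b ∧ ∀ c ∈ C, polar Q c a = 0 ∧ polar Q c b = 0 := by
  classical
  set C' : Finset ↥P := C.subtype (· ∈ P) with hC'
  have hcard : C'.card ≤ C.card := by
    rw [hC', Finset.card_subtype]
    exact Finset.card_filter_le _ _
  obtain ⟨a, b, hab, h1⟩ := Cfsg.Agent.Lib.OmGeo.exists_hyp_perp (hp.ND hQ) C' (by omega)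
  refine ⟨a, a.2, b, b.2, ⟨hab.Qv, hab.Qw, ?_⟩, fun c hc => ?_⟩
  · have := hab.vw
    rwa [polar_restr] at this
  · have hc' : (⟨c, hC c hc⟩ : ↥P) ∈ C' := by
      rw [hC', Finset.mem_subtype]
      exact hc
    obtain ⟨h2, h3⟩ := h1 _ hc'
    rw [polar_restr] at h2 h3
    exact ⟨h2, h3⟩

/-- A vector in a summand with prescribed inner products and value. -/
theorem OPair.prescribed_in (hQ : Nondeg Q) (hp : OPair Q P P') {C : Finset (ι → F)} (hC : ∀ c ∈ C, c ∈ P)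
    {z₀ : ι → F} (hz₀ : z₀ ∈ P) (δ : F) (h : 2 * C.card + 3 ≤ finrank F P) :
    ∃ z ∈ P, (∀ c ∈ C, polar Q c z = polar Q c z₀) ∧ Q z = δ := by
  obtain ⟨a, ha, b, hb, hab, h1⟩ := hp.hyp_in hQ hC h
  obtain ⟨s, t, hst⟩ := Cfsg.Agent.Lib.OmGeo.exists_affine hab z₀ δ
  refine ⟨z₀ + s • a + t • b, P.add_mem (P.add_mem hz₀ (P.smul_mem _ ha)) (P.smul_mem _ hb), fun c hc => ?_, hst⟩
  rw [polar_add_right, polar_add_right, polar_sm_r, polar_sm_r, (h1 c hc).1, (h1 c hc).2]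
  ring

/-- A non-zero singular vector in a summand orthogonal to a small subspace. -/
theorem OPair.singular_in (hQ : Nondeg Q) (hp : OPair Q P P') (S : Submodule F (ι → F))
    (h : finrank F S + 3 ≤ finrank F P) : ∃ b ∈ P, b ≠ 0 ∧ Q b = 0 ∧ ∀ s ∈ S, polar Q s b = 0 := by
  set U : Submodule F (ι → F) := P ⊓ perpQ Q S with hU
  have h1 : finrank F P ≤ finrank F U + finrank F S := finrank_inf_perp hQ P S
  obtain ⟨v, hv0, hQv⟩ := exists_singular (restr Q U) (by omega)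
  refine ⟨v, v.2.1, fun h0 => hv0 (Subtype.ext h0), hQv, fun s hs => mem_perpQ.1 v.2.2 s hs⟩

/-- Separation in a summand. -/
theorem OPair.sep_in (hQ : Nondeg Q) (hp : OPair Q P P') {W : Submodule F (ι → F)} (hW : W ≤ P) {u : ι → F}
    (hu : u ∈ P) (huW : u ∉ W) : ∃ z ∈ P, (∀ w ∈ W, polar Q w z = 0) ∧ polar Q u z ≠ 0 := by
  obtain ⟨z, h1, h2⟩ := exists_sep hQ huW
  obtain ⟨z₀, hz₀, z₁, hz₁, rfl⟩ := hp.decomp z
  refine ⟨z₀, hz₀, fun w hw => ?_, ?_⟩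
  · have := h1 w hw
    rwa [polar_add_right, hp.orth w (hW hw) z₁ hz₁, add_zero] at this
  · rwa [polar_add_right, hp.orth u hu z₁ hz₁, add_zero] at h2

/-- A singular vector of a summand orthogonal to `w`, not orthogonal to `x`. -/
theorem OPair.sing_sep_in (hQ : Nondeg Q) (hp : OPair Q P P') (h5 : 5 ≤ finrank F P) {x w : ι → F} (hx : x ∈ P)
    (hw : w ∈ P) (hxw : x ∉ Submodule.span F {w}) : ∃ a ∈ P, Q a = 0 ∧ polar Q w a = 0 ∧ polar Q x a ≠ 0 := by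
  classical
  have hspan : Submodule.span F {w} ≤ P := by
    rw [Submodule.span_singleton_le_iff_mem]
    exact hw
  obtain ⟨u, hu, h1, h2⟩ := hp.sep_in hQ hspan hx hxw
  obtain ⟨p, hp₁, q, hq₁, hpq, h3⟩ := hp.hyp_in hQ (C := {w}) (by simpa using hw) (by simp; omega)
  obtain ⟨hwp, hwq⟩ := h3 w (by simp)
  by_cases hxp : polar Q x p = 0
  · by_cases hxq : polar Q x q = 0
    · obtain ⟨s, t, hst⟩ := Cfsg.Agent.Lib.OmGeo.exists_affine hpq u 0
      refine ⟨u + s • p + t • q, P.add_mem (P.add_mem hu (P.smul_mem _ hp₁)) (P.smul_mem _ hq₁), hst, ?_, ?_⟩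
      · rw [polar_add_right, polar_add_right, polar_sm_r, polar_sm_r, hwp, hwq, h1 w (Submodule.mem_span_singleton_self w)]
        ring
      · rw [polar_add_right, polar_add_right, polar_sm_r, polar_sm_r, hxp, hxq]
        simpa using h2
    · exact ⟨q, hq₁, hpq.Qw, hwq, hxq⟩
  · exact ⟨p, hp₁, hpq.Qv, hwp, hxp⟩

open Classical in
/-- A hyperbolic pair of a summand orthogonal to a hyperbolic pair of it. -/
theorem OPair.hyp_in2 (hQ : Nondeg Q) (hp : OPair Q P P') (h5 : 5 ≤ finrank F P) {b c : ι → F} (hb : b ∈ P)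
    (hc : c ∈ P) (hQb : Q b = 0) (hQc : Q c = 0) (hbc : polar Q b c ≠ 0) :
    ∃ p ∈ P, ∃ q ∈ P, IsHyp Q p q ∧ ∀ d ∈ ({b, c} : Finset (ι → F)), polar Q d p = 0 ∧ polar Q d q = 0 := by
  classical
  have hnd := hp.ND hQ
  set f : ↥P := (polar Q b c)⁻¹ • (⟨c, hc⟩ : ↥P) with hf
  have hfv : (f : ι → F) = (polar Q b c)⁻¹ • c := rfl
  have hH : IsHyp (restr Q P) (⟨b, hb⟩ : ↥P) f := by
    refine ⟨hQb, ?_, ?_⟩
    · show Q ((f : ι → F)) = 0
      rw [hfv, Q_sm, hQc, mul_zero]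
    · rw [polar_restr]
      show polar Q b (f : ι → F) = 1
      rw [hfv, polar_sm_r, inv_mul_cancel₀ hbc]
  have hdim := hH.finrank_perp2
  have hnd' := hH.ND_perp2 hnd
  obtain ⟨a', b', hab, -⟩ := Cfsg.Agent.Lib.OmGeo.exists_hyp_perp hnd' (∅ : Finset _) (by simp; omega)
  have ha := Cfsg.Agent.Lib.QuadFF.mem_perp2.1 a'.2
  have hb' := Cfsg.Agent.Lib.QuadFF.mem_perp2.1 b'.2
  rw [polar_restr, polar_restr] at ha hb'
  have hfe : ∀ z : ι → F, polar Q (f : ι → F) z = 0 → polar Q c z = 0 := by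
    intro z hz
    rw [hfv, polar_sm_l] at hz
    exact (mul_eq_zero.1 hz).resolve_left (inv_ne_zero hbc)
  refine ⟨_, (a' : ↥P).2, _, (b' : ↥P).2, ⟨hab.Qv, hab.Qw, ?_⟩, fun d hd => ?_⟩
  · have := hab.vw
    rwa [polar_restr, polar_restr] at this
  · simp only [Finset.mem_insert, Finset.mem_singleton] at hd
    rcases hd with rfl | rfl
    · exact ⟨ha.1, hb'.1⟩
    · exact ⟨hfe _ ha.2, hfe _ hb'.2⟩

/-- Every vector of a summand is a sum of two singular vectors of that summand. -/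
theorem OPair.split_in (hQ : Nondeg Q) (hp : OPair Q P P') (h7 : 6 ≤ finrank F P) {x : ι → F} (hx : x ∈ P) :
    ∃ y₁ ∈ P, ∃ y₂ ∈ P, Q y₁ = 0 ∧ Q y₂ = 0 ∧ x = y₁ + y₂ := by
  obtain ⟨y₁, y₂, h1, h2, -, -, h3⟩ := Cfsg.Agent.H28.Sp.exists_split6 (hp.ND hQ) h7 (e := 0) (y := ⟨x, hx⟩)
    (polar_zero_left _ _) (map_zero _)
  exact ⟨y₁, y₁.2, y₂, y₂.2, h1, h2, congrArg Subtype.val h3⟩

variable {hQ : Nondeg Q} {M : Subgroup (GL ι F)}

/-- Stage 2: from one element with centre in `P` and second vector in `P'`, all second vectors in `P'`. -/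
theorem right_all (hQ' : Nondeg Q) (hp : OPair Q P P') (h7 : 6 ≤ finrank F P')
    (hH' : ∀ a ∈ P', Q a = 0 → ∀ y ∈ P', polar Q a y = 0 → R hQ M a y)
    {b x : ι → F} (hb : b ∈ P) (hx : x ∈ P') (hx0 : x ≠ 0) (hR : R hQ M b x) {w : ι → F} (hw : w ∈ P') :
    R hQ M b w := by
  classical
  have hp' := hp.symm
  -- the basic step
  have hstep : ∀ {a y : ι → F}, a ∈ P' → y ∈ P' → Q a = 0 → polar Q a y = 0 →
      R hQ M b (polar Q x a • y - (polar Q x y + Q y * polar Q x a) • a) := by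
    intro a y ha hy hQa hay
    obtain ⟨h1, h2, h3⟩ := hH' a ha hQa y hy hay
    have h4 := R_conj (sE_iso hQ h1 h2) h3 hR
    have h5 : sE hQ h1 h2 ⋆ b = b := by
      rw [sE_apply', hp.orth b hb a ha, hp.orth b hb y hy]
      simp
    rw [h5, sE_apply'] at h4
    have h6 := R_sub h4 hR
    have h7' : x + polar Q x a • y - (polar Q x y + Q y * polar Q x a) • a - x =
        polar Q x a • y - (polar Q x y + Q y * polar Q x a) • a := by abel
    rwa [h7'] at h6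
  -- multiples of `a`
  have hmult : ∀ {a : ι → F}, a ∈ P' → Q a = 0 → polar Q x a ≠ 0 → ∀ r : F, R hQ M b (r • a) := by
    intro a ha hQa hxa r
    obtain ⟨p, hp₁, q, hq₁, hpq, h1⟩ := hp'.hyp_in hQ' (C := {a}) (by simpa using ha) (by simp; omega)
    obtain ⟨hap, haq⟩ := h1 a (by simp)
    set c := polar Q x a with hc
    set t : F := r / c with ht
    have h2 := hstep ha (P'.smul_mem t hp₁) hQa (by rw [polar_sm_r, hap, mul_zero])
    have h3 := hstep ha hq₁ hQa haq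
    have h4 := hstep ha (P'.add_mem (P'.smul_mem t hp₁) hq₁) hQa
      (by rw [polar_add_right, polar_sm_r, hap, haq]; ring)
    have h5 := R_sub (R_add h2 h3) h4
    convert h5 using 1
    have e1 : polar Q x (t • p + q) = t * polar Q x p + polar Q x q := by rw [polar_add_right, polar_sm_r]
    have e2 : polar Q x (t • p) = t * polar Q x p := polar_sm_r ..
    have e3 : Q (t • p) = 0 := by rw [Q_sm, hpq.Qv, mul_zero]
    have e4 : Q (t • p + q) = t := by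
      rw [Q_ad, Q_sm, hpq.Qv, hpq.Qw, polar_sm_l, hpq.vw]
      ring
    rw [e1, e2, e3, e4, hpq.Qw]
    have h6 : r = t * c := by
      rw [ht]
      field_simp
    rw [h6]
    module
  -- the orthogonal of `a`
  have hperp : ∀ {a y : ι → F}, a ∈ P' → y ∈ P' → Q a = 0 → polar Q x a ≠ 0 → polar Q a y = 0 → R hQ M b y := by
    intro a y ha hy hQa hxa hay
    set c := polar Q x a with hc
    have h1 := hstep ha (P'.smul_mem c⁻¹ hy) hQa (by rw [polar_sm_r, hay, mul_zero])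
    have h2 := R_add h1 (hmult ha hQa hxa (polar Q x (c⁻¹ • y) + Q (c⁻¹ • y) * c))
    rw [← hc] at h2
    rwa [sub_add_cancel, smul_smul, mul_inv_cancel₀ hxa, one_smul] at h2
  -- all of `P'`
  have hmain : ∀ {w : ι → F}, w ∈ P' → w ∉ Submodule.span F {x} → R hQ M b w := by
    intro w hw hwx
    have hxw : x ∉ Submodule.span F {w} := by
      intro hmem
      obtain ⟨c, hc⟩ := Submodule.mem_span_singleton.1 hmem
      have hc0 : c ≠ 0 := by
        rintro rfl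
        rw [zero_smul] at hc
        exact hx0 hc.symm
      apply hwx
      rw [Submodule.mem_span_singleton]
      exact ⟨c⁻¹, by rw [← hc, smul_smul, inv_mul_cancel₀ hc0, one_smul]⟩
    obtain ⟨a, ha, h4, hwa, hxa⟩ := hp'.sing_sep_in hQ' (by omega) hx hw hxw
    exact hperp ha hw h4 hxa (by rw [polar_comm]; exact hwa)
  by_cases hwx : w ∈ Submodule.span F {x}
  · obtain ⟨w', hw', hw'x⟩ : ∃ w' ∈ P', w' ∉ Submodule.span F {x} := by
      by_contra hcon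
      push Not at hcon
      have h1 := Submodule.finrank_mono (show P' ≤ Submodule.span F {x} from hcon)
      have h3 := finrank_span_one (F := F) x
      omega
    have h1 := hmain hw' hw'x
    have h2 : w' + w ∉ Submodule.span F {x} := by
      intro hmem
      apply hw'x
      have := Submodule.sub_mem _ hmem hwx
      rwa [add_sub_cancel_right] at this
    have h3 := R_sub (hmain (P'.add_mem hw' hw) h2) h1
    rwa [add_sub_cancel_left] at h3
  · exact hmain hw hwx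

/-- Stage 3: a mixed element gives all of `Ω`. -/
theorem omega_of_mixed (hQ' : Nondeg Q) (h11 : 11 ≤ Fintype.card ι) (hp : OPair Q P P')
    (h7 : 7 ≤ finrank F P) (h7' : 7 ≤ finrank F P')
    (hH : ∀ a ∈ P, Q a = 0 → ∀ y ∈ P, polar Q a y = 0 → R hQ M a y)
    (hH' : ∀ a ∈ P', Q a = 0 → ∀ y ∈ P', polar Q a y = 0 → R hQ M a y)
    {b x : ι → F} (hb : b ∈ P) (hb0 : b ≠ 0) (hx : x ∈ P') (hx0 : x ≠ 0) (hR : R hQ M b x) :
    omegaGL ⇑Q ≤ M := by
  classical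
  have hQb : Q b = 0 := hR.sing
  have hT : T hQ M b := by
    refine ⟨hQb, fun y hy => ?_⟩
    obtain ⟨y₀, hy₀, y₁, hy₁, rfl⟩ := hp.decomp y
    have h1 : polar Q b y₀ = 0 := by
      rw [polar_add_right, hp.orth b hb y₁ hy₁, add_zero] at hy
      exact hy
    exact R_add (hH b hb hQb y₀ hy₀ h1) (right_all hQ' hp (by omega) hH' hb hx hx0 hR hy₁)
  -- an opposite good centre
  obtain ⟨z₀, hz₀, hbz₀⟩ := hp.nondeg hQ' hb hb0
  obtain ⟨c, hc, h1, hQc⟩ := hp.prescribed_in hQ' (C := {b}) (by simpa using hb) hz₀ 0 (by simp; omega)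
  have hbc : polar Q b c ≠ 0 := by
    rw [h1 b (by simp)]
    exact hbz₀
  obtain ⟨p, hp₁, q, hq₁, hpq, h2⟩ := hp.hyp_in hQ' (C := {b, c}) (by
    intro d hd
    simp only [Finset.mem_insert, Finset.mem_singleton] at hd
    rcases hd with rfl | rfl
    · exact hb
    · exact hc) (by
    have : ({b, c} : Finset (ι → F)).card ≤ 2 := Finset.card_le_two
    omega)
  set y := p + q with hy
  have hQy : Q y = 1 := by
    rw [hy, Q_ad, hpq.Qv, hpq.Qw, hpq.vw]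
    ring
  have hby : polar Q b y = 0 := by
    rw [hy, polar_add_right, (h2 b (by simp)).1, (h2 b (by simp)).2, add_zero]
  have hcy : polar Q c y = 0 := by
    rw [hy, polar_add_right, (h2 c (by simp)).1, (h2 c (by simp)).2, add_zero]
  obtain ⟨h4, h5, h6⟩ := hH c hc hQc y (P.add_mem hp₁ hq₁) hcy
  have h8 := T_conj (sE_iso hQ h4 h5) h6 hT
  refine omega_le_of_opp h11 hT h8 ?_
  rw [sE_apply', hby, hQy, polar_sub_left, polar_add_left, polar_sm_l, polar_sm_l,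
    polar_self_zero hQb, polar_comm Q y b, hby, polar_comm Q c b]
  simp only [mul_zero, add_zero, zero_add, one_mul, zero_sub]
  exact neg_ne_zero.2 (mul_ne_zero hbc hbc)

/-- A change of basis in a totally singular plane. -/
theorem R_basis {X Y : ι → F} (hR : R hQ M X Y) (hY : Q Y = 0) {α β γ δ : F} (hd : γ * β - α * δ ≠ 0) :
    R hQ M ((γ * β - α * δ)⁻¹ • (γ • X + δ • Y)) (α • X + β • Y) := by
  obtain ⟨hX, hXY, h1⟩ := hR
  have hYX : polar Q Y X = 0 := by rw [polar_comm]; exact hXY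
  set d := γ * β - α * δ with hdd
  have hQe : Q (d⁻¹ • (γ • X + δ • Y)) = 0 := by
    rw [Q_sm, Q_ad, Q_sm, Q_sm, polar_sm_l, polar_sm_r, hX, hY, hXY]
    ring
  have hQy : Q (α • X + β • Y) = 0 := by
    rw [Q_ad, Q_sm, Q_sm, polar_sm_l, polar_sm_r, hX, hY, hXY]
    ring
  have hp0 : polar Q (d⁻¹ • (γ • X + δ • Y)) (α • X + β • Y) = 0 := by
    simp only [polar_sm_l, polar_add_left, polar_add_right, polar_sm_r, polar_self_zero hX, polar_self_zero hY, hXY, hYX]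
    ring
  refine R_of_mem hQ hQe hp0 h1 ?_
  intro z
  rw [sE_apply', siegelLin_apply, hQy, hY]
  simp only [polar_sm_r, polar_add_right]
  have hdinv : d⁻¹ * d = 1 := inv_mul_cancel₀ hd
  set fX := polar Q z X
  set fY := polar Q z Y
  ext i
  simp only [Pi.add_apply, Pi.sub_apply, Pi.smul_apply, smul_eq_mul]
  linear_combination (-(fX * Y i - fY * X i)) * hdinv

/-- A mixed element from a pair with independent components in `P`. -/
theorem mixA1 (hQ' : Nondeg Q) (hp : OPair Q P P') (h7 : 6 ≤ finrank F P)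
    (hH : ∀ a ∈ P, Q a = 0 → ∀ y ∈ P, polar Q a y = 0 → R hQ M a y)
    {X Y : ι → F} (hXY : R hQ M X Y) (hind : ∀ α β : F, α • X + β • Y ∈ P' → α = 0 ∧ β = 0) (hX : X ∉ P) :
    ∃ b ∈ P, ∃ x ∈ P', b ≠ 0 ∧ x ≠ 0 ∧ R hQ M b x := by
  classical
  obtain ⟨X₀, hX₀, X₁, hX₁, hXd⟩ := hp.decomp X
  obtain ⟨Y₀, hY₀, Y₁, hY₁, hYd⟩ := hp.decomp Y
  have hX₁0 : X₁ ≠ 0 := by
    rintro rfl
    apply hX
    rw [hXd, add_zero]
    exact hX₀
  have hY₀X₀ : Y₀ ∉ Submodule.span F {X₀} := by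
    intro hmem
    obtain ⟨γ, hγ⟩ := Submodule.mem_span_singleton.1 hmem
    have h1 := hind (-γ) 1 (by
      have : -γ • X + (1 : F) • Y = Y₁ + (-γ) • X₁ := by
        rw [hXd, hYd, ← hγ, smul_add, one_smul, neg_smul, neg_smul]
        abel
      rw [this]
      exact P'.add_mem hY₁ (P'.smul_mem _ hX₁))
    exact one_ne_zero h1.2
  obtain ⟨a, ha, hQa, hX₀a, hY₀a⟩ := hp.sing_sep_in hQ' (by omega) hY₀ hX₀ hY₀X₀
  obtain ⟨b, hb, hb0, hQb, hbS⟩ := hp.singular_in hQ' (Submodule.span F ({a, X₀, Y₀} : Set (ι → F))) (by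
    have := finrank_span_three (F := F) a X₀ Y₀
    omega)
  have hab : polar Q a b = 0 := hbS a (Submodule.subset_span (by simp))
  have hX₀b : polar Q X₀ b = 0 := hbS X₀ (Submodule.subset_span (by simp))
  have hY₀b : polar Q Y₀ b = 0 := hbS Y₀ (Submodule.subset_span (by simp))
  have hbX : polar Q b X = 0 := by
    rw [hXd, polar_add_right, polar_comm, hX₀b, hp.orth b hb X₁ hX₁, add_zero]
  have hbY : polar Q b Y = 0 := by
    rw [hYd, polar_add_right, polar_comm, hY₀b, hp.orth b hb Y₁ hY₁, add_zero]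
  have haX : polar Q a X = 0 := by
    rw [hXd, polar_add_right, polar_comm, hX₀a, hp.orth a ha X₁ hX₁, add_zero]
  have h4 := R_comm hXY (hH a ha hQa b hb hab) hQb haX hbX hbY
  have hlam : polar Q a Y ≠ 0 := by
    rw [hYd, polar_add_right, hp.orth a ha Y₁ hY₁, add_zero, polar_comm]
    exact hY₀a
  set lam := polar Q a Y with hl
  have h5 := hH b hb hQb (lam • X₀) (P.smul_mem _ hX₀) (by rw [polar_sm_r, polar_comm, hX₀b, mul_zero])
  have h6 := R_sub h4 h5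
  have hdiff : lam • X - lam • X₀ = lam • X₁ := by
    rw [hXd, smul_add]
    abel
  rw [hdiff] at h6
  exact ⟨b, hb, lam • X₁, P'.smul_mem _ hX₁, hb0, smul_ne_zero hlam hX₁0, h6⟩

/-- The same without the assumption on `X`. -/
theorem mixA (hQ' : Nondeg Q) (hp : OPair Q P P') (h7 : 6 ≤ finrank F P)
    (hH : ∀ a ∈ P, Q a = 0 → ∀ y ∈ P, polar Q a y = 0 → R hQ M a y)
    {X Y : ι → F} (hXY : R hQ M X Y) (hQY : Q Y = 0) (hind : ∀ α β : F, α • X + β • Y ∈ P' → α = 0 ∧ β = 0)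
    (hn : ¬ (X ∈ P ∧ Y ∈ P)) :
    ∃ b ∈ P, ∃ x ∈ P', b ≠ 0 ∧ x ≠ 0 ∧ R hQ M b x := by
  by_cases hX : X ∈ P
  · have hY : Y ∉ P := fun h => hn ⟨hX, h⟩
    refine mixA1 hQ' hp h7 hH (R_swap hXY hQY) (fun α β h => ?_) hY
    have h1 : α • Y + β • -X = (-β) • X + α • Y := by
      rw [smul_neg, neg_smul]
      abel
    rw [h1] at h
    obtain ⟨h2, h3⟩ := hind _ _ h
    exact ⟨h3, neg_eq_zero.1 h2⟩
  · exact mixA1 hQ' hp h7 hH hXY hind hX

/-- A mixed element from any totally singular plane not contained in a summand. -/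
theorem mixed_of_line (hQ' : Nondeg Q) (hp : OPair Q P P') (h7 : 6 ≤ finrank F P) (h7' : 6 ≤ finrank F P')
    (hH : ∀ a ∈ P, Q a = 0 → ∀ y ∈ P, polar Q a y = 0 → R hQ M a y)
    (hH' : ∀ a ∈ P', Q a = 0 → ∀ y ∈ P', polar Q a y = 0 → R hQ M a y)
    {X Y : ι → F} (hXY : R hQ M X Y) (hQY : Q Y = 0) (hindep : ∀ α β : F, α • X + β • Y = 0 → α = 0 ∧ β = 0)
    (hn : ¬ (X ∈ P ∧ Y ∈ P)) (hn' : ¬ (X ∈ P' ∧ Y ∈ P')) :
    (∃ b ∈ P, ∃ x ∈ P', b ≠ 0 ∧ x ≠ 0 ∧ R hQ M b x) ∨ (∃ b ∈ P', ∃ x ∈ P, b ≠ 0 ∧ x ≠ 0 ∧ R hQ M b x) := by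
  by_cases h0 : ∀ α β : F, α • X + β • Y ∈ P' → α = 0 ∧ β = 0
  · exact Or.inl (mixA hQ' hp h7 hH hXY hQY h0 hn)
  by_cases h1 : ∀ α β : F, α • X + β • Y ∈ P → α = 0 ∧ β = 0
  · exact Or.inr (mixA hQ' hp.symm h7' hH' hXY hQY h1 hn')
  push Not at h0 h1
  obtain ⟨α, β, hab, hab'⟩ := h0
  obtain ⟨γ, δ, hcd, hcd'⟩ := h1
  set p₁ := α • X + β • Y with hp₁
  set p₀ := γ • X + δ • Y with hp₀
  have hp₁0 : p₁ ≠ 0 := fun h => hab' (hindep _ _ h).1 (hindep _ _ h).2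
  have hp₀0 : p₀ ≠ 0 := fun h => hcd' (hindep _ _ h).1 (hindep _ _ h).2
  have hd : γ * β - α * δ ≠ 0 := by
    intro hd
    -- proportional vectors lie in both summands
    have h2 : γ • p₁ = α • p₀ + (γ * β - α * δ) • Y := by
      rw [hp₁, hp₀]
      module
    have h3 : δ • p₁ = β • p₀ - (γ * β - α * δ) • X := by
      rw [hp₁, hp₀]
      module
    rw [hd, zero_smul, add_zero] at h2
    rw [hd, zero_smul, sub_zero] at h3
    have hzero : ∀ {c c' : F} , c • p₁ = c' • p₀ → c' = 0 := by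
      intro c c' hc
      by_contra hc'
      have h4 : p₀ ∈ P' := by
        have h5 : c' • p₀ ∈ P' := by rw [← hc]; exact P'.smul_mem _ hab
        have := P'.smul_mem c'⁻¹ h5
        rwa [smul_smul, inv_mul_cancel₀ hc', one_smul] at this
      exact hp₀0 (hp.eq_zero hcd h4)
    have hzero' : ∀ {c c' : F} , c • p₁ = c' • p₀ → c = 0 := by
      intro c c' hc
      by_contra hc'
      have h4 : p₁ ∈ P := by
        have h5 : c • p₁ ∈ P := by rw [hc]; exact P.smul_mem _ hcd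
        have := P.smul_mem c⁻¹ h5
        rwa [smul_smul, inv_mul_cancel₀ hc', one_smul] at this
      exact hp₁0 (hp.eq_zero h4 hab)
    have h5 : γ = 0 := hzero' h2
    have h6 : δ = 0 := hzero' h3
    exact hcd' h5 h6
  have h2 := R_basis hXY hQY hd
  left
  exact ⟨_, P.smul_mem _ hcd, p₁, hab, smul_ne_zero (inv_ne_zero hd) hp₀0, hp₁0, h2⟩

/-- If every totally singular plane of `A` goes into one of two complementary subspaces, so does `A`. -/
theorem map_of_lines (hQ' : Nondeg Q) (hp : OPair Q P P') (h7 : 7 ≤ finrank F P) {C C' : Submodule F (ι → F)}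
    (hC : Disjoint C C') (g : GL ι F)
    (hg : ∀ u ∈ P, ∀ y ∈ P, Q u = 0 → Q y = 0 → polar Q u y = 0 → (∀ α β : F, α • u + β • y = 0 → α = 0 ∧ β = 0) →
      (g ⋆ u ∈ C ∧ g ⋆ y ∈ C) ∨ (g ⋆ u ∈ C' ∧ g ⋆ y ∈ C')) :
    (∀ x ∈ P, g ⋆ x ∈ C) ∨ (∀ x ∈ P, g ⋆ x ∈ C') := by
  classical
  have hnz : ∀ {u : ι → F}, u ≠ 0 → g ⋆ u ≠ 0 := by
    intro u hu h0
    apply hu
    have := inv_mulVec_GL g u
    rw [h0, Matrix.mulVec_zero] at this
    exact this.symm
  -- a common neighbour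
  have hnb : ∀ {u u' : ι → F}, u ∈ P → u' ∈ P → ∃ y ∈ P, Q y = 0 ∧ polar Q u y = 0 ∧ polar Q u' y = 0 ∧
      ∃ z, polar Q u z = 0 ∧ polar Q u' z = 0 ∧ polar Q y z = 1 := by
    intro u u' hu hu'
    obtain ⟨a, ha, b, hb, hab, h1⟩ := hp.hyp_in hQ' (C := {u, u'}) (by
      intro c hc
      simp only [Finset.mem_insert, Finset.mem_singleton] at hc
      rcases hc with rfl | rfl
      · exact hu
      · exact hu') (by
      have : ({u, u'} : Finset (ι → F)).card ≤ 2 := Finset.card_le_two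
      omega)
    exact ⟨a, ha, hab.Qv, (h1 u (by simp)).1, (h1 u' (by simp)).1, b, (h1 u (by simp)).2, (h1 u' (by simp)).2, hab.vw⟩
  have hind : ∀ {u y z : ι → F}, u ≠ 0 → polar Q u z = 0 → polar Q y z = 1 →
      ∀ α β : F, α • u + β • y = 0 → α = 0 ∧ β = 0 := by
    intro u y z hu h1 h2 α β h
    have h3 := congrArg (fun w => polar Q w z) h
    simp only [polar_add_left, polar_sm_l, h1, h2, polar_zero_left, mul_zero, zero_add, mul_one] at h3
    subst h3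
    rw [zero_smul, add_zero] at h
    exact ⟨(smul_eq_zero.1 h).resolve_right hu, rfl⟩
  -- passing from one singular vector to another
  have hpass : ∀ {A B : Submodule F (ι → F)}, Disjoint A B → (∀ u ∈ P, ∀ y ∈ P, Q u = 0 → Q y = 0 → polar Q u y = 0 →
      (∀ α β : F, α • u + β • y = 0 → α = 0 ∧ β = 0) → (g ⋆ u ∈ A ∧ g ⋆ y ∈ A) ∨ (g ⋆ u ∈ B ∧ g ⋆ y ∈ B)) →
      ∀ {u u' : ι → F}, u ∈ P → u' ∈ P → Q u = 0 → Q u' = 0 → u ≠ 0 → g ⋆ u ∈ A → g ⋆ u' ∈ A := by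
    intro A B hAB hAB' u u' hu hu' hQu hQu' hu0 hgu
    by_cases hu'0 : u' = 0
    · rw [hu'0, Matrix.mulVec_zero]
      exact A.zero_mem
    obtain ⟨y, hy, hQy, h1, h2, z, h3, h4, h5⟩ := hnb hu hu'
    have h6 : g ⋆ y ∈ A := by
      rcases hAB' u hu y hy hQu hQy h1 (hind hu0 h3 h5) with h7 | h7
      · exact h7.2
      · exact absurd (Submodule.disjoint_def.1 hAB _ hgu h7.1) (hnz hu0)
    rcases hAB' u' hu' y hy hQu' hQy h2 (hind hu'0 h4 h5) with h7 | h7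
    · exact h7.1
    · have hy0 : y ≠ 0 := by
        rintro rfl
        rw [polar_zero_left] at h5
        exact zero_ne_one h5
      exact absurd (Submodule.disjoint_def.1 hAB _ h6 h7.2) (hnz hy0)
  -- a starting vector
  obtain ⟨u₀, hu₀, z, hz, hab, -⟩ := hp.hyp_in hQ' (C := ∅) (by simp) (by simp; omega)
  have hu₀0 : u₀ ≠ 0 := by
    rintro rfl
    have := hab.vw
    rw [polar_zero_left] at this
    exact zero_ne_one this
  have hside : g ⋆ u₀ ∈ C ∨ g ⋆ u₀ ∈ C' := by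
    obtain ⟨a, ha, b, hb, hab', h1⟩ := hp.hyp_in hQ' (C := {u₀}) (by simpa using hu₀) (by simp; omega)
    rcases hg u₀ hu₀ a ha hab.Qv hab'.Qv (h1 u₀ (by simp)).1 (hind hu₀0 (h1 u₀ (by simp)).2 hab'.vw) with h2 | h2
    · exact Or.inl h2.1
    · exact Or.inr h2.1
  have hhg : ∀ u ∈ P, ∀ y ∈ P, Q u = 0 → Q y = 0 → polar Q u y = 0 → (∀ α β : F, α • u + β • y = 0 → α = 0 ∧ β = 0) →
      (g ⋆ u ∈ C' ∧ g ⋆ y ∈ C') ∨ (g ⋆ u ∈ C ∧ g ⋆ y ∈ C) := fun u hu y hy h1 h2 h3 h4 => (hg u hu y hy h1 h2 h3 h4).symm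
  rcases hside with h1 | h1
  · left
    intro x hx
    obtain ⟨y₁, hy₁, y₂, hy₂, h2, h3, rfl⟩ := hp.split_in hQ' (by omega) hx
    rw [Matrix.mulVec_add]
    exact C.add_mem (hpass hC hg hu₀ hy₁ hab.Qv h2 hu₀0 h1) (hpass hC hg hu₀ hy₂ hab.Qv h3 hu₀0 h1)
  · right
    intro x hx
    obtain ⟨y₁, hy₁, y₂, hy₂, h2, h3, rfl⟩ := hp.split_in hQ' (by omega) hx
    rw [Matrix.mulVec_add]
    exact C'.add_mem (hpass hC.symm hhg hu₀ hy₁ hab.Qv h2 hu₀0 h1) (hpass hC.symm hhg hu₀ hy₂ hab.Qv h3 hu₀0 h1)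

/-- The main theorem on `V = P ⟂ P'` with both summands large. -/
theorem omega_le_nd (hQ' : Nondeg Q) (h11 : 11 ≤ Fintype.card ι) (hp : OPair Q P P') (h7 : 7 ≤ finrank F P)
    (h7' : 7 ≤ finrank F P') (hMi : ∀ t ∈ M, ∀ v, Q (t ⋆ v) = Q v)
    (hH : ∀ a ∈ P, Q a = 0 → ∀ y ∈ P, polar Q a y = 0 → R hQ M a y)
    (hH' : ∀ a ∈ P', Q a = 0 → ∀ y ∈ P', polar Q a y = 0 → R hQ M a y)
    {g : GL ι F} (hgM : g ∈ M)
    (hg : ¬ (((∀ x ∈ P, g ⋆ x ∈ P) ∧ ∀ x ∈ P', g ⋆ x ∈ P') ∨ ((∀ x ∈ P, g ⋆ x ∈ P') ∧ ∀ x ∈ P', g ⋆ x ∈ P))) :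
    omegaGL ⇑Q ≤ M := by
  classical
  have hgi := hMi g hgM
  have hfin : ∀ (A : Submodule F (ι → F)) (hA : ∀ a ∈ A, Q a = 0 → ∀ y ∈ A, polar Q a y = 0 → R hQ M a y)
      (u y : ι → F), u ∈ A → y ∈ A → Q u = 0 → Q y = 0 → polar Q u y = 0 →
      (∀ α β : F, α • u + β • y = 0 → α = 0 ∧ β = 0) → ¬ (g ⋆ u ∈ P ∧ g ⋆ y ∈ P) → ¬ (g ⋆ u ∈ P' ∧ g ⋆ y ∈ P') →
      omegaGL ⇑Q ≤ M := by
    intro A hA u y hu hy hQu hQy huy hind h1 h2
    have hR := R_conj hgi hgM (hA u hu hQu y hy huy)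
    have hind' : ∀ α β : F, α • (g ⋆ u) + β • (g ⋆ y) = 0 → α = 0 ∧ β = 0 := by
      intro α β h
      apply hind
      have h3 := congrArg (fun w => g⁻¹ ⋆ w) h
      simpa [Matrix.mulVec_add, Matrix.mulVec_smul, inv_mulVec_GL] using h3
    rcases mixed_of_line hQ' hp (by omega) (by omega) hH hH' hR (by rw [hgi, hQy]) hind' h1 h2 with
      ⟨b, hb, x, hx, hb0, hx0, hR'⟩ | ⟨b, hb, x, hx, hb0, hx0, hR'⟩
    · exact omega_of_mixed hQ' h11 hp h7 h7' hH hH' hb hb0 hx hx0 hR'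
    · exact omega_of_mixed hQ' h11 hp.symm h7' h7 hH' hH hb hb0 hx hx0 hR'
  by_contra hnot
  apply hg
  have hA : ∀ (A A' : Submodule F (ι → F)), OPair Q A A' → 7 ≤ finrank F A →
      (∀ a ∈ A, Q a = 0 → ∀ y ∈ A, polar Q a y = 0 → R hQ M a y) →
      (∀ x ∈ A, g ⋆ x ∈ P) ∨ (∀ x ∈ A, g ⋆ x ∈ P') := by
    intro A A' hAA h7A hHA
    refine map_of_lines hQ' hAA h7A hp.compl.disjoint g ?_
    intro u hu y hy hQu hQy huy hind
    by_contra hcon
    push Not at hcon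
    apply hnot
    refine hfin A hHA u y hu hy hQu hQy huy hind ?_ ?_
    · rintro ⟨h1, h2⟩
      exact (hcon.1 h1) h2
    · rintro ⟨h1, h2⟩
      exact (hcon.2 h1) h2
  have hnone : ∀ C : Submodule F (ι → F), (∀ x ∈ P, g ⋆ x ∈ C) → (∀ x ∈ P', g ⋆ x ∈ C) → C = ⊤ := by
    intro C h0 h1
    rw [eq_top_iff]
    intro x _
    obtain ⟨x₀, hx₀, x₁, hx₁, hx⟩ := hp.decomp (g⁻¹ ⋆ x)
    have hx' : x = g ⋆ x₀ + g ⋆ x₁ := by
      rw [← Matrix.mulVec_add, ← hx, mulVec_inv_GL]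
    rw [hx']
    exact C.add_mem (h0 _ hx₀) (h1 _ hx₁)
  have hPne : P ≠ ⊤ := by
    intro h0
    have h1 := hp.compl.disjoint
    rw [h0, top_disjoint] at h1
    rw [h1, finrank_bot] at h7'
    omega
  have hP'ne : P' ≠ ⊤ := by
    intro h0
    have h1 := hp.compl.disjoint
    rw [h0, disjoint_top] at h1
    rw [h1, finrank_bot] at h7
    omega
  rcases hA P P' hp h7 hH with h0 | h0 <;> rcases hA P' P hp.symm h7' hH' with h1 | h1
  · exact absurd (hnone P h0 h1) hPne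
  · exact Or.inl ⟨h0, h1⟩
  · exact Or.inr ⟨h0, h1⟩
  · exact absurd (hnone P' h0 h1) hP'ne

end Cfsg.Agent.H28.Nd
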