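import Mathlib
import Cfsg.Agent.H28.Nd

/-!
# Quadratic spaces with a compatible quadratic extension field

`w` is a linear map with `w² = τ w - c`, `Q (w v) = c Q v`, `f(v, w v) = τ Q v`, with `X² - τ X + c` irreducible. For
a singular vector `u` the Siegel transformations `E(u, λ w u)` are the unitary transvections of the induced unitary
structure. A subgroup of `Ω` containing all of these and one element not mapping the `K`-lines of singular vectors to
`K`-lines contains `Ω`.
-/

set_option autoImplicit false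
set_option linter.unusedSectionVars false
set_option linter.unusedVariables false

namespace Cfsg.Agent.H28.Kk

open Matrix QuadraticMap Cfsg Cfsg.Geo Module
open Cfsg.Agent.Lib.OrthoBasic Cfsg.Agent.Lib.OrthoSiegel Cfsg.Agent.Lib.OmCalc Cfsg.Agent.Lib.TvGL
  Cfsg.Agent.Lib.OmPerp Cfsg.Agent.H28.Nd
open Cfsg.Agent.Lib.SympT (GL_ext mulVec_mul_GL mulVec_inv_GL inv_mulVec_GL linOf linOf_apply finrank_le_of_maps)
open Cfsg.Agent.Lib.QuadFF (nondegenerate_of_ND polar_sm_r polar_sm_l Q_ad Q_sm IsHyp ND restr polar_restr restr_apply)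
open Cfsg.Agent.Lib.OmGeo (exists_hyp_perp)
open Cfsg.Agent.Lib.SympTIPair (finrank_span_three finrank_span_two finrank_span_one le_or_le_of_union)

local notation:70 g:71 " ⋆ " x:70 => Matrix.mulVec (Units.val g) x

variable {ι : Type} [Fintype ι] [DecidableEq ι] {F : Type*} [Field F] [Fintype F]
  {Q : QuadraticForm F (ι → F)} {w : (ι → F) →ₗ[F] (ι → F)} {τ c : F}

/-- The structure of a quadratic extension field acting on a quadratic space by similarities. -/
structure KS (Q : QuadraticForm F (ι → F)) (w : (ι → F) →ₗ[F] (ι → F)) (τ c : F) : Prop where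
  slf : ∀ v, polar Q v (w v) = τ * Q v
  nrm : ∀ v, Q (w v) = c * Q v
  quad : ∀ v, w (w v) = τ • w v - c • v
  irr : ∀ p s : F, c * p ^ 2 - τ * p * s + s ^ 2 = 0 → p = 0 ∧ s = 0

theorem KS.adj (hK : KS Q w τ c) (x y : ι → F) : polar Q (w x) y = τ * polar Q x y - polar Q x (w y) := by
  have h1 := hK.slf (x + y)
  rw [map_add, polar_add_left, polar_add_right, polar_add_right, hK.slf x, hK.slf y, Q_ad] at h1
  rw [polar_comm Q y (w x)] at h1
  linear_combination h1

theorem KS.pww (hK : KS Q w τ c) (x y : ι → F) : polar Q (w x) (w y) = c * polar Q x y := by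
  rw [polar, polar, ← map_add, hK.nrm, hK.nrm, hK.nrm]
  ring

theorem KS.c_ne (hK : KS Q w τ c) : c ≠ 0 := by
  intro h
  have := hK.irr 1 0 (by rw [h]; ring)
  exact one_ne_zero this.1

theorem KS.sing_w (hK : KS Q w τ c) {u : ι → F} (hu : Q u = 0) : Q (w u) = 0 := by rw [hK.nrm, hu, mul_zero]

theorem KS.perp_w (hK : KS Q w τ c) {u : ι → F} (hu : Q u = 0) : polar Q u (w u) = 0 := by
  rw [hK.slf, hu, mul_zero]

theorem KS.polar_w_of (hK : KS Q w τ c) {x y : ι → F} (h1 : polar Q x y = 0) (h2 : polar Q x (w y) = 0) :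
    polar Q (w x) y = 0 := by
  rw [hK.adj, h1, h2]
  ring

theorem KS.polar_of_w (hK : KS Q w τ c) {x y : ι → F} (h1 : polar Q x y = 0) (h2 : polar Q (w x) y = 0) :
    polar Q x (w y) = 0 := by
  have := hK.adj x y
  rw [h1, h2] at this
  linear_combination this

theorem KS.polar_ww_right (hK : KS Q w τ c) (x y : ι → F) :
    polar Q x (w (w y)) = τ * polar Q x (w y) - c * polar Q x y := by
  rw [hK.quad, polar_sub_right, polar_sm_r, polar_sm_r]

/-- The `K`-line of a vector. -/
def KL (w : (ι → F) →ₗ[F] (ι → F)) (b : ι → F) : Submodule F (ι → F) := Submodule.span F {b, w b}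

theorem mem_KL {b x : ι → F} : x ∈ KL w b ↔ ∃ α β : F, α • b + β • w b = x := Submodule.mem_span_pair

theorem self_mem_KL (b : ι → F) : b ∈ KL w b := Submodule.subset_span (by simp)
theorem w_mem_KL (b : ι → F) : w b ∈ KL w b := Submodule.subset_span (by simp)

theorem KL_stable (hK : KS Q w τ c) {b x : ι → F} (h : x ∈ KL w b) : w x ∈ KL w b := by
  obtain ⟨α, β, rfl⟩ := mem_KL.1 h
  rw [map_add, map_smul, map_smul, hK.quad]
  refine Submodule.add_mem _ (Submodule.smul_mem _ _ (w_mem_KL b)) (Submodule.smul_mem _ _ ?_)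
  exact Submodule.sub_mem _ (Submodule.smul_mem _ _ (w_mem_KL b)) (Submodule.smul_mem _ _ (self_mem_KL b))

/-- Elements of the field are invertible on stable subspaces. -/
theorem inv_step (hK : KS Q w τ c) {U : Submodule F (ι → F)} (hU : ∀ x ∈ U, w x ∈ U) {a b : F} {y : ι → F}
    (hy : a • y + b • w y ∈ U) (hab : a ≠ 0 ∨ b ≠ 0) : y ∈ U := by
  set z := a • y + b • w y with hz
  have hN : c * b ^ 2 - τ * b * (-a) + (-a) ^ 2 ≠ 0 := by
    intro h
    obtain ⟨h1, h2⟩ := hK.irr _ _ h
    have ha : a = 0 := neg_eq_zero.1 h2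
    rcases hab with h3 | h3
    · exact h3 ha
    · exact h3 h1
  set N := c * b ^ 2 - τ * b * (-a) + (-a) ^ 2 with hNd
  have h1 : N • y = (a + b * τ) • z - b • w z := by
    rw [hz, map_add, map_smul, map_smul, hK.quad, hNd]
    module
  have h2 : y = N⁻¹ • ((a + b * τ) • z - b • w z) := by
    rw [← h1, smul_smul, inv_mul_cancel₀ hN, one_smul]
  rw [h2]
  exact U.smul_mem _ (U.sub_mem (U.smul_mem _ hy) (U.smul_mem _ (hU z hy)))

theorem KL_of_mem (hK : KS Q w τ c) {b a : ι → F} (h : a ∈ KL w b) (h0 : a ≠ 0) : b ∈ KL w a := by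
  obtain ⟨α, β, hαβ⟩ := mem_KL.1 h
  refine inv_step hK (fun x hx => KL_stable hK hx) (a := α) (b := β) ?_ ?_
  · rw [hαβ]
    exact self_mem_KL a
  · by_contra hcon
    push Not at hcon
    rw [hcon.1, hcon.2] at hαβ
    apply h0
    rw [← hαβ]
    simp

theorem perp_KL (hK : KS Q w τ c) {b z : ι → F} (h1 : polar Q b z = 0) (h2 : polar Q (w b) z = 0) {x : ι → F}
    (hx : x ∈ KL w b) : polar Q x z = 0 := by
  obtain ⟨α, β, rfl⟩ := mem_KL.1 hx
  rw [polar_add_left, polar_sm_l, polar_sm_l, h1, h2]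
  ring

/-- Prescribed inner products and value, with a witness that the vector is not in the span of the set. -/
theorem prescribed' (hQ : Nondeg Q) (C : Finset (ι → F)) (z₀ : ι → F) (δ : F)
    (h : 2 * C.card + 3 ≤ Fintype.card ι) :
    ∃ z p, (∀ x ∈ C, polar Q x z = polar Q x z₀) ∧ Q z = δ ∧ (∀ x ∈ C, polar Q x p = 0) ∧ polar Q z p = 1 := by
  obtain ⟨a, b, hab, hC⟩ := exists_hyp_perp (nd_of hQ) C (by simpa using h)
  set t : F := 1 - polar Q z₀ a with ht
  set s : F := δ - Q z₀ - t * polar Q z₀ b with hs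
  refine ⟨z₀ + s • a + t • b, a, fun x hx => ?_, ?_, fun x hx => (hC x hx).1, ?_⟩
  · rw [polar_add_right, polar_add_right, polar_sm_r, polar_sm_r, (hC x hx).1, (hC x hx).2]
    ring
  · rw [Q_ad, Q_ad, Q_sm, Q_sm, polar_add_left, polar_sm_r, polar_sm_r, polar_sm_l, polar_sm_r, hab.Qv, hab.Qw, hab.vw]
    have : s * polar Q z₀ a + s * t = s := by
      rw [ht]
      ring
    rw [hs] at this ⊢
    linear_combination this
  · rw [polar_add_left, polar_add_left, polar_sm_l, polar_sm_l, polar_self_zero hab.Qv, polar_comm Q b a, hab.vw, ht]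
    ring

/-- A non-degenerate subspace splits off. -/
theorem opair_of_nondeg (hQ : Nondeg Q) {N : Submodule F (ι → F)} (hN : ∀ x ∈ N, (∀ y ∈ N, polar Q x y = 0) → x = 0) :
    OPair Q (perpQ Q N) N := by
  refine ⟨fun u hu v hv => ?_, ?_⟩
  · rw [polar_comm]
    exact mem_perpQ.1 hu v hv
  · have hdisj : Disjoint (perpQ Q N) N := by
      rw [Submodule.disjoint_def]
      intro x hx hx'
      refine hN x hx' (fun y hy => ?_)
      rw [polar_comm]
      exact mem_perpQ.1 hx y hy
    refine ⟨hdisj, ?_⟩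
    rw [codisjoint_iff, eq_top_iff]
    have h1 := Submodule.finrank_sup_add_finrank_inf_eq (perpQ Q N) N
    rw [hdisj.eq_bot, finrank_bot, add_zero, finrank_perpQ hQ] at h1
    have h2 : finrank F N ≤ Fintype.card ι := by
      have := Submodule.finrank_le N
      simpa using this
    have h3 : finrank F ↥(perpQ Q N ⊔ N) = finrank F (ι → F) := by
      rw [h1]
      simp
      omega
    exact le_of_eq (Submodule.eq_top_of_finrank_eq h3).symm

variable {hQ : Nondeg Q} {M : Subgroup (GL ι F)}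

/-- All the "unitary transvections" lie in `M`. -/
def Base (hQ : Nondeg Q) (w : (ι → F) →ₗ[F] (ι → F)) (M : Subgroup (GL ι F)) : Prop :=
  ∀ (u : ι → F) (l : F), Q u = 0 → R hQ M u (l • w u)

theorem Base.one (hb : Base hQ w M) {u : ι → F} (hu : Q u = 0) : R hQ M u (w u) := by
  have := hb u 1 hu
  rwa [one_smul] at this

/-- The action of a unitary transvection. -/
theorem closure_step (hK : KS Q w τ c) (hbase : Base hQ w M) {b y v : ι → F} (l : F) (hR : R hQ M b y) (hv : Q v = 0)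
    (h1 : polar Q b v = 0) (h2 : polar Q (w b) v = 0) :
    R hQ M b (l • (polar Q y v • w v - polar Q y (w v) • v)) := by
  obtain ⟨h3, h4, h5⟩ := hbase v l hv
  have h6 := R_conj (sE_iso hQ h3 h4) h5 hR
  have hbw : polar Q b (w v) = 0 := hK.polar_of_w h1 h2
  have h7 : sE hQ h3 h4 ⋆ b = b := by
    rw [sE_apply', h1, polar_sm_r, hbw]
    simp
  have hQw : Q (l • w v) = 0 := by rw [Q_sm, hK.sing_w hv, mul_zero]
  rw [h7, sE_apply', hQw, polar_sm_r] at h6
  have h8 := R_sub h6 hR
  convert h8 using 1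
  module

/-- Two scalars can be reached by a transvection acting on a full `K`-line. -/
theorem gen_step (hK : KS Q w τ c) (hbase : Base hQ w M) {b x v : ι → F}
    (hx : ∀ α β : F, R hQ M b (α • x + β • w x)) (hv : Q v = 0) (h1 : polar Q b v = 0) (h2 : polar Q (w b) v = 0)
    (hne : polar Q x v ≠ 0 ∨ polar Q x (w v) ≠ 0) (γ ε : F) : R hQ M b (γ • v + ε • w v) := by
  set p' := polar Q x v with hp'
  set s' := polar Q x (w v) with hs'
  have hD : c * p' ^ 2 - τ * p' * s' + s' ^ 2 ≠ 0 := by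
    intro h
    obtain ⟨h3, h4⟩ := hK.irr _ _ h
    rcases hne with h5 | h5
    · exact h5 h3
    · exact h5 h4
  set D := c * p' ^ 2 - τ * p' * s' + s' ^ 2 with hDd
  have hDi : D⁻¹ * D = 1 := inv_mul_cancel₀ hD
  set α : F := D⁻¹ * (ε * c * p' + γ * (τ * p' - s')) with hα
  set β : F := D⁻¹ * (-γ * p' - ε * s') with hβ
  have h3 := closure_step hK hbase 1 (hx α β) hv h1 h2
  have hA : polar Q (α • x + β • w x) v = ε := by
    rw [polar_add_left, polar_sm_l, polar_sm_l, hK.adj, ← hp', ← hs', hα, hβ]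
    rw [hDd] at hDi ⊢
    linear_combination ε * hDi
  have hB : polar Q (α • x + β • w x) (w v) = -γ := by
    rw [polar_add_left, polar_sm_l, polar_sm_l, hK.pww, ← hp', ← hs', hα, hβ]
    rw [hDd] at hDi ⊢
    linear_combination (-γ) * hDi
  rw [hA, hB] at h3
  convert h3 using 1
  module

/-- The main propagation. -/
theorem pi_of_p (h14 : 14 ≤ Fintype.card ι) (hQ' : Nondeg Q) (hK : KS Q w τ c) (hbase : Base hQ w M) {b y₀ : ι → F}
    (hb : Q b = 0) (hy₀ : Q y₀ = 0) (h1 : polar Q b y₀ = 0) (h2 : polar Q (w b) y₀ = 0) (h3 : y₀ ∉ KL w b)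
    (hR : R hQ M b y₀) {y : ι → F} (hy : Q y = 0) (hby : polar Q b y = 0) (hwby : polar Q (w b) y = 0) :
    R hQ M b y := by
  classical
  have hwy₀ : w y₀ ∉ KL w b ⊔ Submodule.span F {y₀} := by
    intro hmem
    obtain ⟨k, hk, z, hz, hkz⟩ := Submodule.mem_sup.1 hmem
    obtain ⟨γ, rfl⟩ := Submodule.mem_span_singleton.1 hz
    apply h3
    refine inv_step hK (fun x hx => KL_stable hK hx) (a := -γ) (b := 1) ?_ (Or.inr one_ne_zero)
    have : -γ • y₀ + (1 : F) • w y₀ = k := by
      rw [← hkz, one_smul, neg_smul]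
      abel
    rw [this]
    exact hk
  obtain ⟨z₀, hz₀, hz₀'⟩ := exists_sep hQ' hwy₀
  obtain ⟨p₀, h4, hQp₀⟩ := Cfsg.Agent.Lib.OmGeo.prescribed (nd_of hQ') ({b, w b, y₀, w y₀} : Finset (ι → F)) z₀ 0 (by
    have : ({b, w b, y₀, w y₀} : Finset (ι → F)).card ≤ 4 := Finset.card_le_four
    simp only [Module.finrank_fintype_fun_eq_card]
    omega)
  have hρ : polar Q (w y₀) p₀ ≠ 0 := by
    rw [h4 _ (by simp)]
    exact hz₀'
  set ρ := polar Q (w y₀) p₀ with hρd
  set p : ι → F := ρ⁻¹ • p₀ with hp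
  have hQp : Q p = 0 := by rw [hp, Q_sm, hQp₀, mul_zero]
  have hbp : polar Q b p = 0 := by
    rw [hp, polar_sm_r, h4 _ (by simp), hz₀ _ (Submodule.mem_sup_left (self_mem_KL _)), mul_zero]
  have hwbp : polar Q (w b) p = 0 := by
    rw [hp, polar_sm_r, h4 _ (by simp), hz₀ _ (Submodule.mem_sup_left (w_mem_KL _)), mul_zero]
  have hy₀p : polar Q y₀ p = 0 := by
    rw [hp, polar_sm_r, h4 _ (by simp), hz₀ _ (Submodule.mem_sup_right (Submodule.mem_span_singleton_self _)), mul_zero]
  have hwy₀p : polar Q (w y₀) p = 1 := by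
    rw [hp, polar_sm_r, ← hρd]
    exact inv_mul_cancel₀ hρ
  have hy₀wp : polar Q y₀ (w p) = -1 := by
    have := hK.adj y₀ p
    rw [hy₀p, hwy₀p] at this
    linear_combination this
  have hRp : ∀ l : F, R hQ M b (l • p) := by
    intro l
    have h5 := closure_step hK hbase l hR hQp hbp hwbp
    rw [hy₀p, hy₀wp] at h5
    convert h5 using 1
    module
  -- the orthogonal complement of the two `K`-lines
  have hww₀ : polar Q y₀ (w y₀) = 0 := hK.perp_w hy₀
  have hpp₀ : polar Q p (w p) = 0 := hK.perp_w hQp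
  have hself : ∀ {z : ι → F}, Q z = 0 → polar Q z z = 0 := fun hz => polar_self_zero hz
  have hNnd : ∀ x ∈ KL w y₀ ⊔ KL w p, (∀ z ∈ KL w y₀ ⊔ KL w p, polar Q x z = 0) → x = 0 := by
    intro x hx hxz
    obtain ⟨k, hk, m, hm, rfl⟩ := Submodule.mem_sup.1 hx
    obtain ⟨α, β, rfl⟩ := mem_KL.1 hk
    obtain ⟨γ, δ, rfl⟩ := mem_KL.1 hm
    have e1 := hxz (w p) (Submodule.mem_sup_right (w_mem_KL _))
    have e2 := hxz p (Submodule.mem_sup_right (self_mem_KL _))
    have e3 := hxz (w y₀) (Submodule.mem_sup_left (w_mem_KL _))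
    have e4 := hxz y₀ (Submodule.mem_sup_left (self_mem_KL _))
    simp only [polar_add_left, polar_sm_l] at e1 e2 e3 e4
    have h6 : polar Q p y₀ = 0 := by rw [polar_comm]; exact hy₀p
    have h7 : polar Q (w p) y₀ = -1 := by rw [polar_comm]; exact hy₀wp
    have h8 : polar Q p (w y₀) = 1 := by rw [polar_comm]; exact hwy₀p
    have h9 : polar Q (w p) p = 0 := by rw [polar_comm]; exact hpp₀
    have h10 : polar Q (w y₀) y₀ = 0 := by rw [polar_comm]; exact hww₀
    rw [hy₀wp, hK.pww, hy₀p, hpp₀, hK.pww, hself hQp] at e1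
    rw [hy₀p, hwy₀p, hself hQp, h9] at e2
    rw [hww₀, hK.pww, hself hy₀, h8, hK.pww, h6] at e3
    rw [hself hy₀, h10, h6, h7] at e4
    have a1 : α = 0 := by linear_combination -e1
    have a2 : β = 0 := by linear_combination e2
    have a3 : γ = 0 := by linear_combination e3
    have a4 : δ = 0 := by linear_combination -e4
    rw [a1, a2, a3, a4]
    simp
  have hop := opair_of_nondeg hQ' hNnd
  have hperp : ∀ z, polar Q y₀ z = 0 → polar Q (w y₀) z = 0 → polar Q p z = 0 → polar Q (w p) z = 0 →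
      z ∈ perpQ Q (KL w y₀ ⊔ KL w p) := by
    intro z a1 a2 a3 a4
    rw [mem_perpQ]
    intro x hx
    obtain ⟨k, hk, m, hm, rfl⟩ := Submodule.mem_sup.1 hx
    rw [polar_add_left, perp_KL hK a1 a2 hk, perp_KL hK a3 a4 hm, add_zero]
  have hy₀b : polar Q y₀ b = 0 := by rw [polar_comm]; exact h1
  have hy₀wb : polar Q y₀ (w b) = 0 := by rw [polar_comm]; exact h2
  have hpb : polar Q p b = 0 := by rw [polar_comm]; exact hbp
  have hpwb : polar Q p (w b) = 0 := by rw [polar_comm]; exact hwbp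
  have hbN : b ∈ perpQ Q (KL w y₀ ⊔ KL w p) :=
    hperp b hy₀b (hK.polar_w_of hy₀b hy₀wb) hpb (hK.polar_w_of hpb hpwb)
  have hwbN : w b ∈ perpQ Q (KL w y₀ ⊔ KL w p) := by
    refine hperp _ hy₀wb ?_ hpwb ?_
    · rw [hK.pww, hy₀b, mul_zero]
    · rw [hK.pww, hpb, mul_zero]
  have hfN : finrank F ↥(perpQ Q (KL w y₀ ⊔ KL w p)) = Fintype.card ι - finrank F ↥(KL w y₀ ⊔ KL w p) :=
    finrank_perpQ hQ' _
  have hfN2 : finrank F ↥(KL w y₀ ⊔ KL w p) ≤ 4 := by
    have a1 : finrank F ↥(KL w y₀) ≤ 2 := finrank_span_two _ _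
    have a2 : finrank F ↥(KL w p) ≤ 2 := finrank_span_two _ _
    have a3 := Submodule.finrank_add_le_finrank_add_finrank (KL w y₀) (KL w p)
    omega
  obtain ⟨a₁, ha₁, a₂, ha₂, hH, hbb⟩ := hop.hyp_in hQ' (C := {b, w b}) (by
    intro x hx
    simp only [Finset.mem_insert, Finset.mem_singleton] at hx
    rcases hx with rfl | rfl
    · exact hbN
    · exact hwbN) (by
    have : ({b, w b} : Finset (ι → F)).card ≤ 2 := Finset.card_le_two
    omega)
  set n' : ι → F := a₁ - a₂ with hn'
  have hnN : n' ∈ perpQ Q (KL w y₀ ⊔ KL w p) := Submodule.sub_mem _ ha₁ ha₂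
  have hn1 : polar Q y₀ n' = 0 := mem_perpQ.1 hnN _ (Submodule.mem_sup_left (self_mem_KL _))
  have hn2 : polar Q (w y₀) n' = 0 := mem_perpQ.1 hnN _ (Submodule.mem_sup_left (w_mem_KL _))
  have hn3 : polar Q p n' = 0 := mem_perpQ.1 hnN _ (Submodule.mem_sup_right (self_mem_KL _))
  have hn4 : polar Q (w p) n' = 0 := mem_perpQ.1 hnN _ (Submodule.mem_sup_right (w_mem_KL _))
  have hn5 : polar Q b n' = 0 := by
    rw [hn', polar_sub_right, (hbb b (by simp)).1, (hbb b (by simp)).2, sub_zero]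
  have hn6 : polar Q (w b) n' = 0 := by
    rw [hn', polar_sub_right, (hbb (w b) (by simp)).1, (hbb (w b) (by simp)).2, sub_zero]
  have hQn : Q n' = -1 := by
    rw [hn', sub_eq_add_neg, Q_ad, QuadraticMap.map_neg, polar_neg_right, hH.Qv, hH.Qw, hH.vw]
    ring
  set v : ι → F := w y₀ + p + n' with hv
  have hQwy₀ : Q (w y₀) = 0 := hK.sing_w hy₀
  have hQv : Q v = 0 := by
    rw [hv, Q_ad, Q_ad, polar_add_left, hQwy₀, hQp, hQn, hwy₀p, hn2, hn3]
    ring
  have hbv : polar Q b v = 0 := by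
    have a1 : polar Q b (w y₀) = 0 := by rw [polar_comm]; exact hK.polar_w_of hy₀b hy₀wb
    rw [hv, polar_add_right, polar_add_right, a1, hbp, hn5]
    ring
  have hwbv : polar Q (w b) v = 0 := by
    have a1 : polar Q (w b) (w y₀) = 0 := by rw [hK.pww, h1, mul_zero]
    rw [hv, polar_add_right, polar_add_right, a1, hwbp, hn6]
    ring
  have hwv : w v = w (w y₀) + w p + w n' := by rw [hv, map_add, map_add]
  have hy₀v : polar Q y₀ v = 0 := by
    rw [hv, polar_add_right, polar_add_right, hww₀, hy₀p, hn1]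
    ring
  have hy₀wv : polar Q y₀ (w v) = -1 := by
    rw [hwv, polar_add_right, polar_add_right, hK.polar_ww_right, hww₀, hself hy₀, hy₀wp,
      hK.polar_of_w hn1 hn2]
    ring
  have hpv : polar Q p v = 1 := by
    have a1 : polar Q p (w y₀) = 1 := by rw [polar_comm]; exact hwy₀p
    rw [hv, polar_add_right, polar_add_right, a1, hself hQp, hn3]
    ring
  have hpwv : polar Q p (w v) = τ := by
    have a1 : polar Q p (w y₀) = 1 := by rw [polar_comm]; exact hwy₀p
    have a2 : polar Q p y₀ = 0 := by rw [polar_comm]; exact hy₀p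
    rw [hwv, polar_add_right, polar_add_right, hK.polar_ww_right, a1, a2, hpp₀, hK.polar_of_w hn3 hn4]
    ring
  have hRv : ∀ α β : F, R hQ M b (α • v + β • w v) := by
    intro α β
    have a1 := closure_step hK hbase (α + β * τ) hR hQv hbv hwbv
    have a2 : R hQ M b p := by simpa using hRp 1
    have a3 := closure_step hK hbase β a2 hQv hbv hwbv
    rw [hy₀v, hy₀wv] at a1
    rw [hpv, hpwv] at a3
    have a4 := R_add a1 a3
    convert a4 using 1
    module
  by_cases hyk : y ∈ KL w b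
  · obtain ⟨α, β, rfl⟩ := mem_KL.1 hyk
    exact R_add (R_self hb α) (hbase b β hb)
  have hvk : v ∉ KL w b := by
    intro h
    have a1 := perp_KL hK h1 h2 (KL_stable hK h)
    rw [polar_comm, hy₀wv] at a1
    exact neg_ne_zero.2 one_ne_zero a1
  obtain ⟨z₁, h5, h6⟩ := exists_sep hQ' hvk
  obtain ⟨z₂, h7, h8⟩ := exists_sep hQ' hyk
  obtain ⟨z₃, h9, h10, h11⟩ : ∃ z₃, (∀ x ∈ KL w b, polar Q x z₃ = 0) ∧ polar Q v z₃ ≠ 0 ∧ polar Q y z₃ ≠ 0 := by
    by_cases ha : polar Q y z₁ = 0
    · by_cases hb' : polar Q v z₂ = 0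
      · refine ⟨z₁ + z₂, fun x hx => ?_, ?_, ?_⟩
        · rw [polar_add_right, h5 x hx, h7 x hx, add_zero]
        · rwa [polar_add_right, hb', add_zero]
        · rwa [polar_add_right, ha, zero_add]
      · exact ⟨z₂, h7, hb', h8⟩
    · exact ⟨z₁, h5, h6, ha⟩
  obtain ⟨v₄, h12, hQv₄⟩ := Cfsg.Agent.Lib.OmGeo.prescribed (nd_of hQ') ({b, w b, v, y} : Finset (ι → F)) z₃ 0 (by
    have : ({b, w b, v, y} : Finset (ι → F)).card ≤ 4 := Finset.card_le_four
    simp only [Module.finrank_fintype_fun_eq_card]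
    omega)
  have hbv₄ : polar Q b v₄ = 0 := by
    rw [h12 _ (by simp)]
    exact h9 _ (self_mem_KL _)
  have hwbv₄ : polar Q (w b) v₄ = 0 := by
    rw [h12 _ (by simp)]
    exact h9 _ (w_mem_KL _)
  have hvv₄ : polar Q v v₄ ≠ 0 := by
    rw [h12 _ (by simp)]
    exact h10
  have hyv₄ : polar Q y v₄ ≠ 0 := by
    rw [h12 _ (by simp)]
    exact h11
  have h13 := gen_step hK hbase hRv hQv₄ hbv₄ hwbv₄ (Or.inl hvv₄)
  have h14' := gen_step hK hbase h13 hy hby hwby (Or.inl (by rwa [polar_comm]))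
  simpa using h14' 1 0

/-- All the Siegel transformations with centre `b` and axis in the `K`-perpendicular space. -/
def Pi (hQ : Nondeg Q) (w : (ι → F) →ₗ[F] (ι → F)) (M : Subgroup (GL ι F)) (b : ι → F) : Prop :=
  ∀ y, Q y = 0 → polar Q b y = 0 → polar Q (w b) y = 0 → R hQ M b y

theorem w_ne (hK : KS Q w τ c) {x : ι → F} (hx : x ≠ 0) : w x ≠ 0 := by
  intro h
  have : x ∈ (⊥ : Submodule F (ι → F)) := by
    refine inv_step hK (U := ⊥) (fun y hy => ?_) (a := 0) (b := 1) ?_ (Or.inr one_ne_zero)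
    · rw [Submodule.mem_bot] at hy ⊢
      rw [hy, map_zero]
    · simp [h]
  exact hx (by simpa using this)

/-- Propagation of `Pi` to all non-zero singular vectors. -/
theorem Pi_prop (h14 : 14 ≤ Fintype.card ι) (hK : KS Q w τ c) (hbase : Base hQ w M) {b z : ι → F}
    (hb : Q b = 0) (hb0 : b ≠ 0) (hPi : Pi hQ w M b) (hz : Q z = 0) (hz0 : z ≠ 0) : Pi hQ w M z := by
  classical
  obtain ⟨p', q', hH, hC⟩ := exists_hyp_perp (nd_of hQ) ({b, w b, z, w z} : Finset (ι → F)) (by
    have : ({b, w b, z, w z} : Finset (ι → F)).card ≤ 4 := Finset.card_le_four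
    simp only [Module.finrank_fintype_fun_eq_card]
    omega)
  have c1 := hC b (by simp)
  have c2 := hC (w b) (by simp)
  have c3 := hC z (by simp)
  have c4 := hC (w z) (by simp)
  have h1 : R hQ M p' b := R_swap' (hPi p' hH.Qv c1.1 c2.1) hH.Qv
  have hnot1 : b ∉ KL w p' := by
    intro h
    have a1 := KL_of_mem hK h hb0
    have a2 := perp_KL hK c1.2 c2.2 a1
    rw [hH.vw] at a2
    exact one_ne_zero a2
  have hp'b : polar Q p' b = 0 := by rw [polar_comm]; exact c1.1
  have hp'wb : polar Q p' (w b) = 0 := by rw [polar_comm]; exact c2.1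
  have hwp'b : polar Q (w p') b = 0 := hK.polar_w_of hp'b hp'wb
  have hp'z : polar Q p' z = 0 := by rw [polar_comm]; exact c3.1
  have hp'wz : polar Q p' (w z) = 0 := by rw [polar_comm]; exact c4.1
  have hwp'z : polar Q (w p') z = 0 := hK.polar_w_of hp'z hp'wz
  have h2 : R hQ M p' z := pi_of_p h14 hQ hK hbase hH.Qv hb hp'b hwp'b hnot1 h1 hz hp'z hwp'z
  have h3 : R hQ M z p' := R_swap' h2 hz
  have hnot2 : p' ∉ KL w z := by
    intro h
    have a2 := perp_KL hK c3.2 c4.2 h
    rw [hH.vw] at a2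
    exact one_ne_zero a2
  intro y hy h4 h5
  exact pi_of_p h14 hQ hK hbase hz hH.Qv c3.1 c4.1 hnot2 h3 hy h4 h5

/-- From `Pi` at one non-zero singular vector to all of `Ω`. -/
theorem omega_of_Pi (h14 : 14 ≤ Fintype.card ι) (hK : KS Q w τ c) (hbase : Base hQ w M) {b : ι → F}
    (hb : Q b = 0) (hb0 : b ≠ 0) (hPi : Pi hQ w M b) : omegaGL ⇑Q ≤ M := by
  classical
  have hall : ∀ z, Q z = 0 → z ≠ 0 → Pi hQ w M z := fun z hz hz0 => Pi_prop h14 hK hbase hb hb0 hPi hz hz0
  have hpairs : ∀ e y, Q e = 0 → e ≠ 0 → Q y = 0 → polar Q e y = 0 → R hQ M e y := by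
    intro e y he he0 hy hey
    by_cases hy0 : y = 0
    · rw [hy0]
      exact R_zero he
    obtain ⟨p', q', hH, hC⟩ := exists_hyp_perp (nd_of hQ) ({y, w y, e, w e} : Finset (ι → F)) (by
      have : ({y, w y, e, w e} : Finset (ι → F)).card ≤ 4 := Finset.card_le_four
      simp only [Module.finrank_fintype_fun_eq_card]
      omega)
    have c1 := hC y (by simp)
    have c2 := hC (w y) (by simp)
    have c3 := hC e (by simp)
    have c4 := hC (w e) (by simp)
    have hq0 : q' ≠ 0 := by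
      rintro rfl
      have := hH.vw
      rw [polar_zero_right] at this
      exact zero_ne_one this
    have h1 : R hQ M y p' := hall y hy hy0 p' hH.Qv c1.1 c2.1
    have hq'e : polar Q q' e = 0 := by rw [polar_comm]; exact c3.2
    have hq'we : polar Q q' (w e) = 0 := by rw [polar_comm]; exact c4.2
    have h2 : R hQ M q' e := hall q' hH.Qw hq0 e he hq'e (hK.polar_w_of hq'e hq'we)
    have h3 := R_comm h1 h2 he (by rw [polar_comm]; exact c1.2) hey c3.1
    rwa [polar_comm, hH.vw, one_smul] at h3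
  obtain ⟨e, e', hH, -⟩ := exists_hyp_perp (nd_of hQ) (∅ : Finset (ι → F)) (by
    simp only [Module.finrank_fintype_fun_eq_card, Finset.card_empty]
    omega)
  have he0 : e ≠ 0 := by
    rintro rfl
    have := hH.vw
    rw [polar_zero_left] at this
    exact zero_ne_one this
  have he'0 : e' ≠ 0 := by
    rintro rfl
    have := hH.vw
    rw [polar_zero_right] at this
    exact zero_ne_one this
  have h1 : T hQ M e := T_of_pairs (by omega) hH.Qv (fun y hy hey => hpairs e y hH.Qv he0 hy hey)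
  have h2 : T hQ M e' := T_of_pairs (by omega) hH.Qw (fun y hy hey => hpairs e' y hH.Qw he'0 hy hey)
  refine omega_le_of_opp (by omega) h1 h2 ?_
  rw [polar_comm, hH.vw]
  exact one_ne_zero

/-- The main theorem. -/
theorem omega_le_K (h14 : 14 ≤ Fintype.card ι) (hK : KS Q w τ c) (hbase : Base hQ w M) {g : GL ι F}
    (hgM : g ∈ M) (hg : ∀ v, Q (g ⋆ v) = Q v) {u : ι → F} (hu : Q u = 0) (h : g ⋆ w u ∉ KL w (g ⋆ u)) :
    omegaGL ⇑Q ≤ M := by
  classical
  set X := g ⋆ u with hX
  set Y := g ⋆ w u with hY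
  have hRXY : R hQ M X Y := R_conj hg hgM (hbase.one hu)
  have hQX : Q X = 0 := hRXY.sing
  have hXY : polar Q X Y = 0 := hRXY.perp
  have hX0 : X ≠ 0 := by
    intro h0
    have hu0 : u = 0 := by
      have := congrArg (fun v => g⁻¹ ⋆ v) h0
      simpa [hX, inv_mulVec_GL] using this
    apply h
    rw [hY, hu0, map_zero, Matrix.mulVec_zero]
    exact Submodule.zero_mem _
  have hsep : Y ∉ KL w X ⊔ Submodule.span F {τ • Y - w Y} := by
    intro hmem
    obtain ⟨k, hk, z, hz, hkz⟩ := Submodule.mem_sup.1 hmem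
    obtain ⟨γ, rfl⟩ := Submodule.mem_span_singleton.1 hz
    apply h
    refine inv_step hK (fun x hx => KL_stable hK hx) (a := 1 - γ * τ) (b := γ) ?_ ?_
    · have : (1 - γ * τ) • Y + γ • w Y = k := by
        have : Y = k + γ • (τ • Y - w Y) := hkz.symm
        have h2 : (1 - γ * τ) • Y + γ • w Y = Y - γ • (τ • Y - w Y) := by module
        rw [h2]
        nth_rewrite 1 [this]
        abel
      rw [this]
      exact hk
    · by_cases hγ : γ = 0
      · left
        rw [hγ]
        simp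
      · exact Or.inr hγ
  obtain ⟨z₀, hz₀, hz₀'⟩ := exists_sep hQ hsep
  obtain ⟨a, p, h1, hQa, h2, hap⟩ := prescribed' hQ ({X, w X, τ • Y - w Y, Y} : Finset (ι → F)) z₀ 0 (by
    have : ({X, w X, τ • Y - w Y, Y} : Finset (ι → F)).card ≤ 4 := Finset.card_le_four
    omega)
  have hXa : polar Q X a = 0 := by
    rw [h1 _ (by simp)]
    exact hz₀ _ (Submodule.mem_sup_left (self_mem_KL _))
  have hwXa : polar Q (w X) a = 0 := by
    rw [h1 _ (by simp)]
    exact hz₀ _ (Submodule.mem_sup_left (w_mem_KL _))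
  have hYa0 : polar Q (τ • Y - w Y) a = 0 := by
    rw [h1 _ (by simp)]
    exact hz₀ _ (Submodule.mem_sup_right (Submodule.mem_span_singleton_self _))
  have hYa : polar Q Y a ≠ 0 := by
    rw [h1 _ (by simp)]
    exact hz₀'
  have hXp : polar Q X p = 0 := h2 _ (by simp)
  have hwXp : polar Q (w X) p = 0 := h2 _ (by simp)
  have hwa : polar Q (w a) Y = 0 := by
    have e1 := hK.adj a Y
    have e2 : polar Q (τ • Y - w Y) a = τ * polar Q a Y - polar Q a (w Y) := by
      rw [polar_sub_left, polar_sm_l, polar_comm Q Y a, polar_comm Q (w Y) a]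
    rw [e1, ← e2, hYa0]
  have haX : polar Q a X = 0 := by rw [polar_comm]; exact hXa
  have hwaX : polar Q (w a) X = 0 := by
    rw [polar_comm]
    exact hK.polar_of_w hXa hwXa
  have hQwa : Q (w a) = 0 := hK.sing_w hQa
  have h3 : R hQ M (w a) (polar Q a Y • X) :=
    R_comm hRXY (hbase.one hQa) hQwa haX hwaX hwa
  have ha0 : a ≠ 0 := by
    rintro rfl
    rw [polar_zero_left] at hap
    exact zero_ne_one hap
  have hμ : polar Q a Y ≠ 0 := by rwa [polar_comm]
  set μ := polar Q a Y with hμd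
  have hnot : μ • X ∉ KL w (w a) := by
    intro hmem
    have h4 : X ∈ KL w (w a) := by
      have := Submodule.smul_mem _ μ⁻¹ hmem
      rwa [smul_smul, inv_mul_cancel₀ hμ, one_smul] at this
    have h5 : w a ∈ KL w X := KL_of_mem hK h4 hX0
    have h6 : a ∈ KL w X := by
      refine inv_step hK (fun x hx => KL_stable hK hx) (a := 0) (b := 1) ?_ (Or.inr one_ne_zero)
      simpa using h5
    have h7 := perp_KL hK hXp hwXp h6
    rw [hap] at h7
    exact one_ne_zero h7
  refine omega_of_Pi h14 hK hbase hQwa (w_ne hK ha0) (fun y hy h4 h5 => ?_)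
  refine pi_of_p h14 hQ hK hbase hQwa (by rw [Q_sm, hQX, mul_zero]) ?_ ?_ hnot h3 hy h4 h5
  · rw [polar_sm_r, hwaX, mul_zero]
  · rw [polar_sm_r, hK.quad, polar_sub_left, polar_sm_l, polar_sm_l, hwaX, haX]
    ring

/-- A singular transvection with `K`-axis commutes with `w`. -/
theorem sE_comm_w (hK : KS Q w τ c) {u : ι → F} (l : F) (hu : Q u = 0) (hy : polar Q u (l • w u) = 0) (x : ι → F) :
    sE hQ hu hy ⋆ w x = w (sE hQ hu hy ⋆ x) := by
  have hQw : Q (l • w u) = 0 := by rw [Q_sm, hK.sing_w hu, mul_zero]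
  rw [sE_apply', sE_apply', hQw, map_sub, map_add, map_smul, map_smul, map_smul, polar_sm_r, polar_sm_r, hK.adj, hK.pww,
    hK.quad]
  module

/-- A linear map preserving all `K`-lines of singular vectors lies in the field. -/
theorem scalar_of_KL (h14 : 14 ≤ Fintype.card ι) (hK : KS Q w τ c) (hQ' : Nondeg Q)
    (L : (ι → F) →ₗ[F] (ι → F)) (hL : ∀ z, Q z = 0 → L z ∈ KL w z) : ∃ α β : F, ∀ v, L v = α • v + β • w v := by
  classical
  have hbot : ∀ {a b : F} {z : ι → F}, a • z + b • w z = 0 → z ≠ 0 → a = 0 ∧ b = 0 := by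
    intro a b z h hz
    by_contra hcon
    have h1 : a ≠ 0 ∨ b ≠ 0 := by
      by_contra h2
      push Not at h2
      exact hcon h2
    have : z ∈ (⊥ : Submodule F (ι → F)) := by
      refine inv_step hK (U := ⊥) (fun y hy => ?_) (a := a) (b := b) ?_ h1
      · rw [Submodule.mem_bot] at hy ⊢
        rw [hy, map_zero]
      · rw [h]
        exact Submodule.zero_mem _
    exact hz (by simpa using this)
  have htwo : ∀ {z z' : ι → F} {α β : F}, Q z = 0 → Q z' = 0 → polar Q z z' = 0 → z ≠ 0 → z' ∉ KL w z →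
      L z = α • z + β • w z → L z' = α • z' + β • w z' := by
    intro z z' α β hz hz' hzz' hz0 hk hLz
    obtain ⟨a', b', h1⟩ := mem_KL.1 (hL z' hz')
    obtain ⟨a, b, h2⟩ := mem_KL.1 (hL (z + z') (by rw [Q_ad, hz, hz', hzz']; ring))
    rw [map_add, map_add, hLz, ← h1] at h2
    have h3 : (a' - a) • z' + (b' - b) • w z' = (a - α) • z + (b - β) • w z := by
      linear_combination (norm := module) -h2
    have h4 : a' - a = 0 ∧ b' - b = 0 := by
      by_contra hcon
      have h5 : a' - a ≠ 0 ∨ b' - b ≠ 0 := by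
        by_contra h6
        push Not at h6
        exact hcon h6
      apply hk
      refine inv_step hK (fun x hx => KL_stable hK hx) (a := a' - a) (b := b' - b) ?_ h5
      rw [h3]
      exact Submodule.add_mem _ (Submodule.smul_mem _ _ (self_mem_KL _)) (Submodule.smul_mem _ _ (w_mem_KL _))
    rw [h4.1, h4.2, zero_smul, zero_smul, add_zero] at h3
    obtain ⟨h5, h6⟩ := hbot h3.symm hz0
    have e1 : a' = α := by linear_combination h4.1 + h5
    have e2 : b' = β := by linear_combination h4.2 + h6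
    rw [← h1, e1, e2]
  obtain ⟨e, f, hH, -⟩ := exists_hyp_perp (nd_of hQ') (∅ : Finset (ι → F)) (by
    simp only [Module.finrank_fintype_fun_eq_card, Finset.card_empty]
    omega)
  have he0 : e ≠ 0 := by
    rintro rfl
    have := hH.vw
    rw [polar_zero_left] at this
    exact zero_ne_one this
  obtain ⟨α, β, h0⟩ := mem_KL.1 (hL e hH.Qv)
  have hsing : ∀ z, Q z = 0 → L z = α • z + β • w z := by
    intro z hz
    by_cases hz0 : z = 0
    · rw [hz0]
      simp
    obtain ⟨p', q', hH', hC⟩ := exists_hyp_perp (nd_of hQ') ({e, w e, z, w z} : Finset (ι → F)) (by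
      have : ({e, w e, z, w z} : Finset (ι → F)).card ≤ 4 := Finset.card_le_four
      simp only [Module.finrank_fintype_fun_eq_card]
      omega)
    have c1 := hC e (by simp)
    have c2 := hC (w e) (by simp)
    have c3 := hC z (by simp)
    have c4 := hC (w z) (by simp)
    have hp0 : p' ≠ 0 := by
      rintro rfl
      have := hH'.vw
      rw [polar_zero_left] at this
      exact zero_ne_one this
    have hnot1 : p' ∉ KL w e := by
      intro h
      have a2 := perp_KL hK c1.2 c2.2 h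
      rw [hH'.vw] at a2
      exact one_ne_zero a2
    have hnot2 : z ∉ KL w p' := by
      intro h
      have a1 := KL_of_mem hK h hz0
      have a2 := perp_KL hK c3.2 c4.2 a1
      rw [hH'.vw] at a2
      exact one_ne_zero a2
    have h1 := htwo hH.Qv hH'.Qv c1.1 he0 hnot1 h0.symm
    have hp'z : polar Q p' z = 0 := by rw [polar_comm]; exact c3.1
    exact htwo hH'.Qv hz hp'z hp0 hnot2 h1
  refine ⟨α, β, fun v => ?_⟩
  obtain ⟨y₁, y₂, h1, h2, -, -, rfl⟩ := Cfsg.Agent.Lib.OmGeo.exists_split (nd_of hQ') (y := v) (e := 0)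
    (by simp only [Module.finrank_fintype_fun_eq_card]; omega) (polar_zero_left _ _) (map_zero _)
  rw [map_add, map_add, hsing _ h1, hsing _ h2]
  module

/-- A Siegel transformation with axis outside the `K`-line of the centre does not normalise the field. -/
theorem not_normal (h14 : 14 ≤ Fintype.card ι) (hK : KS Q w τ c) {u y : ι → F} (hu : Q u = 0) (hu0 : u ≠ 0)
    (hy : polar Q u y = 0) (hQy : Q y = 0) (hy' : y ∉ KL w u) {α β : F}
    (hE : ∀ v, sE hQ hu hy ⋆ w ((sE hQ hu hy)⁻¹ ⋆ v) = α • v + β • w v) : False := by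
  classical
  obtain ⟨z, z', hH, hC⟩ := exists_hyp_perp (nd_of hQ) ({u, w u, y, w y} : Finset (ι → F)) (by
    have : ({u, w u, y, w y} : Finset (ι → F)).card ≤ 4 := Finset.card_le_four
    simp only [Module.finrank_fintype_fun_eq_card]
    omega)
  have c1 := (hC u (by simp)).1
  have c2 := (hC (w u) (by simp)).1
  have c3 := (hC y (by simp)).1
  have c4 := (hC (w y) (by simp)).1
  have hz0 : z ≠ 0 := by
    rintro rfl
    have := hH.vw
    rw [polar_zero_left] at this
    exact zero_ne_one this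
  have hEz : ∀ {x : ι → F}, polar Q x u = 0 → polar Q x y = 0 → sE hQ hu hy ⋆ x = x := by
    intro x h1 h2
    rw [sE_apply', h1, h2]
    simp
  have c1' : polar Q z u = 0 := by rw [polar_comm]; exact c1
  have c3' : polar Q z y = 0 := by rw [polar_comm]; exact c3
  have h1 : sE hQ hu hy ⋆ z = z := hEz c1' c3'
  have h2 : (sE hQ hu hy)⁻¹ ⋆ z = z := by
    conv_lhs => rw [← h1]
    rw [inv_mulVec_GL]
  have c5 : polar Q (w z) u = 0 := by rw [hK.adj, c1', polar_comm Q z (w u), c2]; ring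
  have c6 : polar Q (w z) y = 0 := by rw [hK.adj, c3', polar_comm Q z (w y), c4]; ring
  have h3 : sE hQ hu hy ⋆ w z = w z := hEz c5 c6
  have h4 := hE z
  rw [h2, h3] at h4
  have h5 : (-α) • z + (1 - β) • w z = 0 := by
    linear_combination (norm := module) h4
  have h6 : -α = 0 ∧ 1 - β = 0 := by
    by_contra hcon
    have h7 : -α ≠ 0 ∨ 1 - β ≠ 0 := by
      by_contra h8
      push Not at h8
      exact hcon h8
    have : z ∈ (⊥ : Submodule F (ι → F)) := by
      refine inv_step hK (U := ⊥) (fun y hy => ?_) (a := -α) (b := 1 - β) ?_ h7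
      · rw [Submodule.mem_bot] at hy ⊢
        rw [hy, map_zero]
      · rw [h5]
        exact Submodule.zero_mem _
    exact hz0 (by simpa using this)
  have hα : α = 0 := neg_eq_zero.1 h6.1
  have hβ : β = 1 := by linear_combination -h6.2
  have hcomm : ∀ x, sE hQ hu hy ⋆ w x = w (sE hQ hu hy ⋆ x) := by
    intro x
    have := hE (sE hQ hu hy ⋆ x)
    rw [inv_mulVec_GL, hα, hβ] at this
    simpa using this
  have hun : u ∉ Submodule.span F {y} := by
    intro h
    obtain ⟨γ, rfl⟩ := Submodule.mem_span_singleton.1 h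
    have hγ : γ ≠ 0 := by
      rintro rfl
      simp at hu0
    apply hy'
    have h' := Submodule.smul_mem (KL w (γ • y)) γ⁻¹ (self_mem_KL (w := w) (γ • y))
    rwa [smul_smul, inv_mul_cancel₀ hγ, one_smul] at h'
  obtain ⟨x₀, hx₀, hx₀'⟩ := exists_sep hQ hun
  have hρ : polar Q x₀ u ≠ 0 := by rwa [polar_comm]
  set x : ι → F := (polar Q x₀ u)⁻¹ • x₀ with hx
  have hxu : polar Q x u = 1 := by
    rw [hx, polar_sm_l]
    exact inv_mul_cancel₀ hρ
  have hxy : polar Q x y = 0 := by
    have := hx₀ y (Submodule.mem_span_singleton_self _)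
    rw [hx, polar_sm_l, polar_comm Q x₀ y, this, mul_zero]
  have h7 := hcomm x
  rw [sE_apply', sE_apply' hQ hu hy x, hxu, hxy, hQy] at h7
  have h9 : w (x + (1 : F) • y - (0 + 0 * 1 : F) • u) = w x + w y := by simp
  rw [h9] at h7
  apply hy'
  refine inv_step hK (fun x hx => KL_stable hK hx) (a := - polar Q (w x) u) (b := 1) ?_ (Or.inr one_ne_zero)
  have h8 : -polar Q (w x) u • y + (1 : F) • w y = - (polar Q (w x) y + 0 * polar Q (w x) u) • u := by
    linear_combination (norm := module) -h7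
  rw [h8]
  exact Submodule.smul_mem _ _ (self_mem_KL _)

/-- Existence of suitable Siegel transformations. -/
theorem exists_not_KL (h14 : 14 ≤ Fintype.card ι) (hQ' : Nondeg Q) (hK : KS Q w τ c) :
    ∃ u y : ι → F, Q u = 0 ∧ u ≠ 0 ∧ polar Q u y = 0 ∧ Q y = 0 ∧ y ∉ KL w u := by
  classical
  obtain ⟨u, f, hH, -⟩ := exists_hyp_perp (nd_of hQ') (∅ : Finset (ι → F)) (by
    simp only [Module.finrank_fintype_fun_eq_card, Finset.card_empty]
    omega)
  have hu0 : u ≠ 0 := by
    rintro rfl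
    have := hH.vw
    rw [polar_zero_left] at this
    exact zero_ne_one this
  obtain ⟨y, y', hH', hC⟩ := exists_hyp_perp (nd_of hQ') ({u, w u} : Finset (ι → F)) (by
    have : ({u, w u} : Finset (ι → F)).card ≤ 2 := Finset.card_le_two
    simp only [Module.finrank_fintype_fun_eq_card]
    omega)
  have c1 := hC u (by simp)
  have c2 := hC (w u) (by simp)
  refine ⟨u, y, hH.Qv, hu0, c1.1, hH'.Qv, fun h => ?_⟩
  have a2 := perp_KL hK c1.2 c2.2 h
  rw [hH'.vw] at a2
  exact one_ne_zero a2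

end Cfsg.Agent.H28.Kk
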