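import Cfsg.Agent.H28.Isolated

set_option autoImplicit false
set_option linter.unusedSimpArgs false

namespace Cfsg.Agent.H28

open Cfsg

variable {G : Type*} [Group G]

lemma slide {p q r t : G} (h : p * q = r * t) (x : G) : p * (q * x) = r * (t * x) := by
  rw [← mul_assoc, h, mul_assoc]

lemma cancel_sq {p : G} (h : p * p = 1) (x : G) : p * (p * x) = x := by
  rw [← mul_assoc, h, one_mul]

lemma inv_slide {z b : G} (hzz : z * z = 1) (h : z * b * z = b⁻¹) :
    z * b = b⁻¹ * z ∧ z * b⁻¹ = b * z := by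
  constructor
  · rw [← h, mul_assoc, hzz, mul_one]
  · have h2 : z * b⁻¹ * z = b := by
      have : z * b⁻¹ * z = (z * b * z)⁻¹ := by
        rw [mul_inv_rev, mul_inv_rev, inv_eq_of_mul_eq_one_right hzz, mul_assoc]
      rw [this, h, inv_inv]
    calc z * b⁻¹ = z * b⁻¹ * (z * z) := by rw [hzz, mul_one]
      _ = (z * b⁻¹ * z) * z := by simp only [mul_assoc]
      _ = b * z := by rw [h2]

lemma exists_fourth_root [Finite G] {y : G} (hy : Odd (orderOf y)) :
    ∃ n : ℕ, y ^ n * y ^ n * y ^ n * y ^ n = y := by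
  obtain ⟨i, hi⟩ := hy
  set e := y ^ (i + 1) with he
  have he1 : e * e = y := by
    rw [he, ← pow_add, show i + 1 + (i + 1) = orderOf y + 1 by omega, pow_succ, pow_orderOf_eq_one,
      one_mul]
  have heo : Odd (orderOf e) := order_odd_of_pow _ ⟨i, hi⟩ (pow_orderOf_eq_one y)
  obtain ⟨j, hj⟩ := heo
  have he2 : e ^ (j + 1) * e ^ (j + 1) = e := by
    rw [← pow_add, show j + 1 + (j + 1) = orderOf e + 1 by omega, pow_succ, pow_orderOf_eq_one,
      one_mul]
  refine ⟨(i + 1) * (j + 1), ?_⟩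
  rw [pow_mul, ← he]
  calc e ^ (j + 1) * e ^ (j + 1) * e ^ (j + 1) * e ^ (j + 1)
      = (e ^ (j + 1) * e ^ (j + 1)) * (e ^ (j + 1) * e ^ (j + 1)) := by simp only [mul_assoc]
    _ = y := by rw [he2, he1]

section

variable {z s : G}

/-- Recovery identities. -/
lemma recover (hzz : z * z = 1) (hss : s * s = 1) (hsz : Commute s z) {a b : G}
    (hzb : z * b * z = b⁻¹) (has : Commute a s) (hbt : Commute b (s * z)) :
    s * ((a * b) * z * (a * b)⁻¹) * s * ((a * b) * z * (a * b)⁻¹)
        = (a * b⁻¹ * a⁻¹) * (a * b⁻¹ * a⁻¹) * (a * b⁻¹ * a⁻¹) * (a * b⁻¹ * a⁻¹) ∧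
    a * z * a⁻¹ = (a * b⁻¹ * a⁻¹) * (a * b⁻¹ * a⁻¹) * ((a * b) * z * (a * b)⁻¹) := by
  obtain ⟨hzb1, hzb2⟩ := inv_slide hzz hzb
  have hsa : s * a = a * s := has.eq.symm
  have hsai : s * a⁻¹ = a⁻¹ * s := (has.inv_left.eq).symm
  have hsz' : s * z = z * s := hsz.eq
  have hsb2 : s * b⁻¹ = b * s := by
    have h : b * (s * z) = s * z * b := hbt.eq
    have h2 : b * s * z = s * b⁻¹ * z := by
      rw [mul_assoc, h, mul_assoc, hzb1, mul_assoc]
    exact (mul_right_cancel h2).symm
  have hsb1 : s * b = b⁻¹ * s := by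
    have h : s * b⁻¹ * s = (b⁻¹)⁻¹ := by
      rw [hsb2, mul_assoc, hss, mul_one, inv_inv]
    have := (inv_slide hss h).2
    rwa [inv_inv] at this
  have e1 : s * ((a * b) * z * (a * b)⁻¹) * s = a * b⁻¹ * z * b * a⁻¹ := by
    simp only [mul_inv_rev, mul_assoc, slide hsa, slide hsb1, slide hsz', slide hsb2, slide hsai,
      hss, mul_one]
  constructor
  · rw [e1]
    simp only [mul_inv_rev, mul_assoc, inv_mul_cancel_left, slide hzb1, slide hzb2, hzb1, hzb2,
      hzz, mul_one, cancel_sq hzz]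
  · simp only [mul_inv_rev, mul_assoc, inv_mul_cancel_left, slide hzb1, slide hzb2, hzb1, hzb2,
      hzz, mul_one, cancel_sq hzz, mul_inv_cancel_left]

lemma square_odd [Finite G] {c : G} (hc : Odd (orderOf c)) : Odd (orderOf (c * c)) := by
  rw [← pow_two]
  exact order_odd_of_pow 2 hc (pow_orderOf_eq_one c)

/-- Injectivity of `(a, b) ↦ a b C`. -/
lemma factor_inj [Finite G] (hzz : z * z = 1) (hss : s * s = 1) (hsz : Commute s z) {a b a' b' : G}
    (ha : Odd (orderOf a)) (hb : Odd (orderOf b)) (ha' : Odd (orderOf a')) (hb' : Odd (orderOf b'))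
    (hza : z * a * z = a⁻¹) (hzb : z * b * z = b⁻¹) (hza' : z * a' * z = a'⁻¹)
    (hzb' : z * b' * z = b'⁻¹) (has : Commute a s) (hbt : Commute b (s * z)) (has' : Commute a' s)
    (hbt' : Commute b' (s * z))
    (h : (a * b) * z * (a * b)⁻¹ = (a' * b') * z * (a' * b')⁻¹) : a = a' ∧ b = b' := by
  obtain ⟨h1, h2⟩ := recover hzz hss hsz hzb has hbt
  obtain ⟨h1', h2'⟩ := recover hzz hss hsz hzb' has' hbt'
  set c := a * b⁻¹ * a⁻¹ with hc
  set c' := a' * b'⁻¹ * a'⁻¹ with hc'
  have hco : Odd (orderOf c) := by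
    have := orderOf_injective (MulAut.conj a).toMonoidHom (MulAut.conj a).injective b⁻¹
    have h3 : orderOf c = orderOf b⁻¹ := this
    rw [h3, orderOf_inv]; exact hb
  have hco' : Odd (orderOf c') := by
    have := orderOf_injective (MulAut.conj a').toMonoidHom (MulAut.conj a').injective b'⁻¹
    have h3 : orderOf c' = orderOf b'⁻¹ := this
    rw [h3, orderOf_inv]; exact hb'
  have h4 : c * c * c * c = c' * c' * c' * c' := by rw [← h1, ← h1', h]
  have h5 : c * c = c' * c' := by
    apply eq_of_sq_eq_of_odd (square_odd hco) (square_odd hco')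
    simpa only [mul_assoc] using h4
  have h6 : c = c' := eq_of_sq_eq_of_odd hco hco' h5
  have h7 : a * z * a⁻¹ = a' * z * a'⁻¹ := by rw [h2, h2', h, h5]
  have h8 : a = a' := mid_unique hzz ha ha' hza hza' h7
  refine ⟨h8, ?_⟩
  rw [hc, hc', h8] at h6
  have h9 : b⁻¹ = b'⁻¹ := by
    have := mul_right_cancel h6
    exact mul_left_cancel this
  exact inv_injective h9

/-- Surjectivity: every conjugate of `z` is obtained. -/
lemma factor_surj [Finite G] (hz : IsIsolatedInvolution z) (hss : s * s = 1) (hsz : Commute s z)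
    (g : G) : ∃ a b : G, Odd (orderOf a) ∧ Odd (orderOf b) ∧ z * a * z = a⁻¹ ∧ z * b * z = b⁻¹ ∧
      Commute a s ∧ Commute b (s * z) ∧ (a * b) * z * (a * b)⁻¹ = g * z * g⁻¹ := by
  have hzz : z * z = 1 := mul_self_of_order_two hz.1
  have hsi : s⁻¹ = s := inv_eq_of_mul_eq_one_right hss
  have hzi : z⁻¹ = z := inv_eq_of_mul_eq_one_right hzz
  set w := g * z * g⁻¹ with hw
  have hww : w * w = 1 := by
    simp only [hw, mul_assoc, inv_mul_cancel_left, cancel_sq hzz, mul_inv_cancel]
  have hwi : w⁻¹ = w := inv_eq_of_mul_eq_one_right hww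
  have hisoW := isolated_conj hz g
  rw [← hw] at hisoW
  have hoddy := isolated_odd hisoW s
  rw [hsi] at hoddy
  set sws := s * w * s with hsws
  have hsws2 : sws * sws = 1 := by
    simp only [hsws, mul_assoc, cancel_sq hss, cancel_sq hww, hss, mul_one]
  set y := sws * w with hy
  have hwy : w * y * w = y⁻¹ := inverts_mul hww hsws2
  have hsy : s * y * s = y⁻¹ := by
    rw [hy, mul_inv_rev, hwi, inv_eq_of_mul_eq_one_right hsws2, hsws]
    simp only [mul_assoc, cancel_sq hss]
  obtain ⟨n, hn⟩ := exists_fourth_root hoddy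
  set c := y ^ n with hc
  have hco : Odd (orderOf c) := by
    obtain ⟨i, hi⟩ := hoddy
    exact order_odd_of_pow n ⟨i, hi⟩ (pow_orderOf_eq_one y)
  have hwc : w * c * w = c⁻¹ := conj_pow_of_inverts hww hwy n
  have hsc : s * c * s = c⁻¹ := conj_pow_of_inverts hss hsy n
  obtain ⟨hwc1, hwc2⟩ := inv_slide hww hwc
  obtain ⟨hsc1, hsc2⟩ := inv_slide hss hsc
  have hswsw : sws = c * c * c * c * w := by
    rw [hn, hy, mul_assoc, hww, mul_one]
  set u := c * w * c⁻¹ with hu
  have hu2 : u = c * c * w := by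
    rw [hu, mul_assoc c w, hwc2, mul_assoc]
  obtain ⟨a, hao, hza, haz⟩ := exists_K hz (c * g)
  have haz' : a * z * a⁻¹ = u := by
    rw [haz, hu, hw]; group
  have hsu : s * u * s⁻¹ = u := by
    rw [hsi]
    calc s * u * s = s * c * w * c⁻¹ * s := by rw [hu]; simp only [mul_assoc]
      _ = c⁻¹ * (s * (w * (c⁻¹ * s))) := by rw [hsc1]; simp only [mul_assoc]
      _ = c⁻¹ * (s * w * s * c) := by
          rw [show c⁻¹ * s = s * c from hsc1.symm]; simp only [mul_assoc]
      _ = c⁻¹ * (c * c * c * c * w * c) := by rw [← hsws, hswsw]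
      _ = c * c * c * (w * c) := by simp only [mul_assoc, inv_mul_cancel_left]
      _ = c * c * c * (c⁻¹ * w) := by rw [hwc1]
      _ = c * c * w := by simp only [mul_assoc, mul_inv_cancel_left]
      _ = u := hu2.symm
  have has : Commute a s := by
    have := commute_of_fix hzz hsz hao hza (by rw [haz']; exact hsu)
    exact this.symm
  obtain ⟨b, hbo, hzb, hbz⟩ := exists_K hz (a⁻¹ * g)
  set v := a⁻¹ * w * a with hv
  have hbz' : b * z * b⁻¹ = v := by
    rw [hbz, hv, hw]; group
  have haa : a * a * z = u := by rw [← haz', conj_eq_sq_mul hzz hza]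
  have huw : u * w * u = sws := by
    rw [hu2, hswsw]
    simp only [mul_assoc, cancel_sq hww]
  obtain ⟨hza1, hza2⟩ := inv_slide hzz hza
  have hsa : s * a = a * s := has.eq.symm
  have hsai : s * a⁻¹ = a⁻¹ * s := (has.inv_left.eq).symm
  have hsz' : s * z = z * s := hsz.eq
  have hzv : z * v * z = s * v * s := by
    have e1 : z * v * z = a * (z * w * z) * a⁻¹ := by
      simp only [hv, mul_assoc, slide hza2, slide hza1, hza1, hza2]
    have e2 : s * v * s = a⁻¹ * sws * a := by
      simp only [hv, hsws, mul_assoc, slide hsai, slide hsa, hsa, hsai]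
    rw [e1, e2, ← huw, ← haa]
    simp only [mul_inv_rev, mul_assoc, inv_mul_cancel_left, cancel_sq hzz, hzz, mul_one,
      inv_inv, hzi, mul_inv_cancel_left, hza1, hza2]
  have hbt : Commute b (s * z) := by
    have hfix : (s * z) * (b * z * b⁻¹) * (s * z)⁻¹ = b * z * b⁻¹ := by
      rw [hbz', mul_inv_rev, hsi, hzi]
      calc s * z * v * (z * s) = s * (z * v * z) * s := by simp only [mul_assoc]
        _ = s * (s * v * s) * s := by rw [hzv]
        _ = v := by simp only [mul_assoc, cancel_sq hss, hss, mul_one]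
    have := commute_of_fix hzz (x := s * z) (hsz.mul_left (Commute.refl z)) hbo hzb hfix
    exact this.symm
  refine ⟨a, b, hao, hbo, hza, hzb, has, hbt, ?_⟩
  have : a * b * z * (a * b)⁻¹ = a * (b * z * b⁻¹) * a⁻¹ := by group
  rw [this, hbz', hv]
  group

end

end Cfsg.Agent.H28
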