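import Mathlib
import Cfsg.Agent.H28.Sf2

/-!
# Subfield subgroups of the orthogonal groups, the maximality statement
-/

set_option autoImplicit false
set_option linter.unusedSectionVars false
set_option linter.unusedVariables false

namespace Cfsg.Agent.H28.Sf

open Matrix QuadraticMap Cfsg Cfsg.Geo Module
open Cfsg.Agent.Lib.OrthoBasic Cfsg.Agent.Lib.OmCalc
open Cfsg.Agent.Lib.USubfield (emb emb_add emb_sub emb_neg emb_zero emb_smul emb_single emb_inj mem_iff exists_notMem_of_card)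
open Cfsg.Agent.Lib.SympT (GL_ext mulVec_mul_GL mulVec_inv_GL inv_mulVec_GL)

local notation:70 g:71 " ⋆ " x:70 => Matrix.mulVec (Units.val g) x

section Final

variable {ι : Type} [Fintype ι] [DecidableEq ι] {F : Type*} [Field F] [Fintype F]

theorem mem_isometry_iff {Q : (ι → F) → F} {g : GL ι F} : g ∈ isometryGroup F Q ↔ ∀ v, Q (g ⋆ v) = Q v := by
  constructor
  · intro h v
    exact h v v
  · intro h u v
    exact h u

/-- The transported form. -/
theorem omegaGL_conj {Q : (ι → F) → F} {ζ : F} (hζ : ζ ≠ 0) (P : GL ι F) :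
    (omegaGL (fun v => ζ * Q (P ⋆ v))).map (MulAut.conj P).toMonoidHom = omegaGL Q := by
  have hI : (isometryGroup F (fun v => ζ * Q (P ⋆ v))).map (MulAut.conj P).toMonoidHom = isometryGroup F Q := by
    ext x
    constructor
    · rintro ⟨y, hy, rfl⟩
      have hy' := mem_isometry_iff.1 hy
      refine mem_isometry_iff.2 ?_
      intro v
      have h1 := hy' ((P⁻¹ : GL ι F) ⋆ v)
      rw [mulVec_inv_GL] at h1
      have h2 := mul_left_cancel₀ hζ h1
      show Q ((P * y * P⁻¹ : GL ι F) ⋆ v) = Q v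
      rw [mulVec_mul_GL, mulVec_mul_GL]
      exact h2
    · intro hx
      rw [mem_isometry_iff] at hx
      refine ⟨P⁻¹ * x * P, mem_isometry_iff.2 ?_, ?_⟩
      · intro v
        have h1 := hx (P ⋆ v)
        show ζ * Q (P ⋆ ((P⁻¹ * x * P : GL ι F) ⋆ v)) = ζ * Q (P ⋆ v)
        rw [mulVec_mul_GL, mulVec_mul_GL, mulVec_inv_GL, h1]
      · show P * (P⁻¹ * x * P) * P⁻¹ = x
        group
  unfold omegaGL Omega
  rw [Subgroup.map_subtype_commutator, Subgroup.map_subtype_commutator, Subgroup.map_commutator, hI]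

theorem transport_nd {Q : (ι → F) → F} (hQ : IsNondegenerateQuadraticForm Q) {ζ : F} (hζ : ζ ≠ 0) (P : GL ι F) :
    IsNondegenerateQuadraticForm (fun v => ζ * Q (P ⋆ v)) := by
  have hpol : ∀ x y, polar (fun v => ζ * Q (P ⋆ v)) x y = ζ * polar Q (P ⋆ x) (P ⋆ y) := by
    intro x y
    simp only [polar, Matrix.mulVec_add]
    ring
  refine ⟨?_, ⟨?_, ?_, ?_, ?_⟩, ?_⟩
  · intro c v
    show ζ * Q (P ⋆ (c • v)) = c ^ 2 * (ζ * Q (P ⋆ v))
    rw [Matrix.mulVec_smul, hQ.smul]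
    ring
  · intro x y v
    rw [hpol, hpol, hpol, Matrix.mulVec_add, hQ.polar_bilinear.add_left]
    ring
  · intro c x v
    rw [hpol, hpol, Matrix.mulVec_smul, hQ.polar_bilinear.smul_left]
    ring
  · intro v x y
    rw [hpol, hpol, hpol, Matrix.mulVec_add, hQ.polar_bilinear.add_right]
    ring
  · intro c v x
    rw [hpol, hpol, Matrix.mulVec_smul, hQ.polar_bilinear.smul_right]
    ring
  · intro v hv
    have hPv : P ⋆ v ≠ 0 := by
      intro h0
      have h1 := inv_mulVec_GL P v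
      rw [h0, Matrix.mulVec_zero] at h1
      exact hv h1.symm
    obtain ⟨⟨x, hx⟩, ⟨y, hy⟩⟩ := hQ.nondegenerate _ hPv
    refine ⟨⟨(P⁻¹ : GL ι F) ⋆ x, ?_⟩, ⟨(P⁻¹ : GL ι F) ⋆ y, ?_⟩⟩
    · rw [hpol, mulVec_inv_GL]
      exact mul_ne_zero hζ hx
    · rw [hpol, mulVec_inv_GL]
      exact mul_ne_zero hζ hy

variable {Q : QuadraticForm F (ι → F)} {F₀ : Subfield F}

/-- Siegel transformations of rational vectors have rational entries. -/
theorem sE_rat (hQ : Nondeg Q) (h : RatQ Q F₀) {e y : ι → F₀} (he : Q (emb e) = 0) (hy : polar Q (emb e) (emb y) = 0) :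
    sE hQ he hy ∈ (Matrix.GeneralLinearGroup.map (F₀.subtype : F₀ →+* F)).range ⊔ scalars ι F := by
  refine Cfsg.Agent.Lib.SubfieldMax.mem_sup_scalars_of_entries one_ne_zero fun k l => ?_
  rw [one_mul]
  have h1 : ((sE hQ he hy : GL ι F) : Matrix ι ι F) k l = (sE hQ he hy ⋆ (Pi.single l 1)) k := by
    simp
  rw [h1, emb_single (F₀ := F₀), sE_apply']
  simp only [Pi.sub_apply, Pi.add_apply, Pi.smul_apply, smul_eq_mul]
  refine F₀.sub_mem (F₀.add_mem ?_ ?_) ?_
  · exact ((Pi.single l (1 : F₀) : ι → F₀) k).2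
  · exact F₀.mul_mem (polar_emb_mem h _ _) (y k).2
  · exact F₀.mul_mem (F₀.add_mem (polar_emb_mem h _ _) (F₀.mul_mem (h _) (polar_emb_mem h _ _))) (e k).2

/-- A Siegel transformation outside the rational group. -/
theorem exists_nonrational (hQ : Nondeg Q) (h : RatQ Q F₀) (hn : 11 ≤ Fintype.card ι) {l : F} (hl : l ∉ F₀) :
    ∃ g : GL ι F, g ∈ omegaGL ⇑Q ∧ g ∉ (Matrix.GeneralLinearGroup.map (F₀.subtype : F₀ →+* F)).range ⊔ scalars ι F := by
  classical
  obtain ⟨a, b, h1, h2, h3, -⟩ := exists_rat_pair hQ h hn ∅ (by simp; omega)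
  obtain ⟨a₂, b₂, h4, h5, h6, h7⟩ := exists_rat_pair hQ h hn {a, b} (by
    have : ({a, b} : Finset (ι → F₀)).card ≤ 2 := Finset.card_le_two
    omega)
  obtain ⟨p1, p2⟩ := h7 a (by simp)
  obtain ⟨p3, p4⟩ := h7 b (by simp)
  have q1 := (Q0_eq_zero h).1 h1
  have q4 := (Q0_eq_zero h).1 h4
  have e1 := (polar_Q0_eq_zero h).1 p1
  have e2 := (polar_Q0_eq_zero h).1 p2
  have e3 := (polar_Q0_eq_zero h).1 p3
  have e4 := (polar_Q0_eq_zero h).1 p4
  have e5 : polar Q (emb a) (emb b) = 1 := by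
    have := congrArg Subtype.val h3
    rw [polar_Q0] at this
    simpa using this
  have e6 : polar Q (emb a₂) (emb b₂) = 1 := by
    have := congrArg Subtype.val h6
    rw [polar_Q0] at this
    simpa using this
  have hy : polar Q (emb a) (l • emb a₂) = 0 := by rw [polar_smul_r, e1, mul_zero]
  refine ⟨sE hQ q1 hy, sE_mem_omegaGL hQ (by omega) q1 hy, fun hmem => hl ?_⟩
  obtain ⟨d, hd, hent⟩ := Cfsg.Agent.Lib.SubfieldMax.exists_entries_of_mem_sup hmem
  have himg : ∀ s : ι → F₀, ∃ ρ : ι → F₀, d • (sE hQ q1 hy ⋆ emb s) = emb ρ := by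
    intro s
    refine ⟨fun k => ⟨d * ∑ l', ((sE hQ q1 hy : GL ι F) : Matrix ι ι F) k l' * (s l' : F), ?_⟩, ?_⟩
    · rw [Finset.mul_sum]
      refine F₀.sum_mem fun l' _ => ?_
      rw [← mul_assoc]
      exact F₀.mul_mem (hent k l') (s l').2
    · ext k
      simp [Matrix.mulVec, dotProduct, emb]
  obtain ⟨ρ, hρ⟩ := himg b
  have hv : sE hQ q1 hy ⋆ emb b = emb b + l • emb a₂ := by
    rw [sE_apply', polar_comm Q (emb b) (emb a), e5, polar_smul_r, e3, Q_smul, q4]
    simp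
  rw [hv] at hρ
  have hd1 : d ∈ F₀ := by
    have h8 := polar_emb_mem h ρ a
    rw [← hρ, polar_smul_l, polar_add_left, polar_smul_l, polar_comm Q (emb b) (emb a), e5, polar_comm Q (emb a₂) (emb a),
      e1] at h8
    simpa using h8
  have hd2 : d * l ∈ F₀ := by
    have h8 := polar_emb_mem h ρ b₂
    rw [← hρ, polar_smul_l, polar_add_left, polar_smul_l, e6, e4] at h8
    simpa using h8
  have e : l = (d * l) / d := by
    field_simp
  rw [e]
  exact F₀.div_mem hd2 hd1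

end Final

/-- The maximality of the subfield subgroups of `Ω`. -/
theorem maximal_abstract {ι : Type} [Fintype ι] [DecidableEq ι] {F : Type*} [Field F] [Fintype F] {Q : (ι → F) → F}
    (hQ : IsNondegenerateQuadraticForm Q) (hn : 11 ≤ Fintype.card ι) (F₀ : Subfield F) {r : ℕ} (hr : r.Prime)
    (hcard : Fintype.card F = Nat.card F₀ ^ r) (P : GL ι F) {ζ : F} (hζ : ζ ≠ 0)
    (hP : IsQuadFormRationalStructure (fun v => ζ * Q v) F₀ P) :
    IsMaximalIn (omegaGL Q) (subfieldSubgroup F₀ P ⊓ omegaGL Q) := by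
  classical
  have hQ' := transport_nd hQ hζ P
  have hΩ := omegaGL_conj (Q := Q) hζ P
  obtain ⟨Qf, hQf⟩ := exists_toQF _ hQ'
  have hQfa : ∀ v, Qf v = ζ * Q (P ⋆ v) := fun v => congrFun hQf v
  rw [← hQf] at hΩ hQ'
  have hN : Nondeg Qf := nondeg_of hQ'
  have hR : RatQ Qf F₀ := by
    intro x
    rw [hQfa]
    exact hP (emb x) (fun i => (x i).2)
  set K₀ := (Matrix.GeneralLinearGroup.map (F₀.subtype : F₀ →+* F)).range ⊔ scalars ι F with hK₀
  set φ := (MulAut.conj P).toMonoidHom with hφ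
  have hφa : ∀ x, φ x = P * x * P⁻¹ := fun x => rfl
  have hmemS : ∀ x, x ∈ K₀ → φ x ∈ subfieldSubgroup F₀ P := fun x hx => ⟨x, hx, rfl⟩
  have hmemS' : ∀ x, φ x ∈ subfieldSubgroup F₀ P → x ∈ K₀ := by
    rintro x ⟨y, hy, hyx⟩
    have : y = x := (MulAut.conj P).injective hyx
    rwa [← this]
  have hΩmem : ∀ x, x ∈ omegaGL ⇑Qf → φ x ∈ omegaGL Q := by
    intro x hx
    rw [← hΩ]
    exact ⟨x, hx, rfl⟩
  refine ⟨lt_of_le_of_ne inf_le_right ?_, ?_⟩
  · intro heq
    obtain ⟨l, hl⟩ := exists_notMem_of_card (F₀ := F₀) hr hcard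
    obtain ⟨g, hg1, hg2⟩ := exists_nonrational hN hR hn hl
    have h1 : φ g ∈ omegaGL Q := hΩmem g hg1
    rw [← heq] at h1
    exact hg2 (hmemS' g h1.1)
  · intro M hHM hMG
    by_cases hMH : M ≤ subfieldSubgroup F₀ P ⊓ omegaGL Q
    · exact Or.inl (le_antisymm hMH hHM)
    right
    refine le_antisymm hMG ?_
    obtain ⟨g, hgM, hgH⟩ := SetLike.not_le_iff_exists.mp hMH
    set M' : Subgroup (GL ι F) := M.comap φ with hM'
    have hM'mem : ∀ x, x ∈ M' ↔ φ x ∈ M := fun x => Iff.rfl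
    set g' := P⁻¹ * g * P with hg'
    have hφg' : φ g' = g := by
      rw [hφa, hg']
      group
    have hg'M : g' ∈ M' := by
      rw [hM'mem, hφg']
      exact hgM
    have hg'K : g' ∉ K₀ := by
      intro hmem
      apply hgH
      have h1 := hmemS _ hmem
      rw [hφg'] at h1
      exact ⟨h1, hMG hgM⟩
    have hiso : ∀ t ∈ M', ∀ v, Qf (t ⋆ v) = Qf v := by
      intro t ht v
      have h1 := hMG ((hM'mem t).1 ht)
      have h2 := Cfsg.Agent.Lib.OmCalc.iso_omega (Q := Cfsg.Agent.Lib.OmCalc.toQF Q hQ) (g := φ t) (by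
        rw [Cfsg.Agent.Lib.OmCalc.coe_toQF]
        exact h1) (P ⋆ v)
      rw [Cfsg.Agent.Lib.OmCalc.coe_toQF] at h2
      rw [hQfa, hQfa]
      have h3 : (φ t) ⋆ (P ⋆ v) = P ⋆ (t ⋆ v) := by
        rw [hφa, mulVec_mul_GL, mulVec_mul_GL, inv_mulVec_GL]
      rw [h3] at h2
      rw [h2]
    have hrat : ∀ e y : ι → F₀, Q0 hR e = 0 → polar (Q0 hR) e y = 0 → R hN M' (emb e) (emb y) := by
      intro e y he hy
      have he' := (Q0_eq_zero hR).1 he
      have hy' := (polar_Q0_eq_zero hR).1 hy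
      refine ⟨he', hy', ?_⟩
      rw [hM'mem]
      apply hHM
      exact ⟨hmemS _ (sE_rat hN hR he' hy'), hΩmem _ (sE_mem_omegaGL hN (by omega) he' hy')⟩
    have hall := main_abstract hN hR hn hr hcard hiso hrat hg'M hg'K
    intro x hx
    rw [← hΩ] at hx
    obtain ⟨y, hy, rfl⟩ := hx
    exact (hM'mem y).1 (hall hy)

end Cfsg.Agent.H28.Sf
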