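import Mathlib
import Cfsg.Agent.H28.Sm
import Cfsg.Agent.Lib.OmPair
import Cfsg.Agent.Lib.OrthOmega
import Cfsg.Agent.Lib.QuadClass2

/-!
# Stabilisers of non-degenerate subspaces in `Ω`: maximality
-/

set_option autoImplicit false
set_option linter.unusedSectionVars false
set_option linter.unusedVariables false

namespace Cfsg.Agent.H28.St

open Matrix QuadraticMap Cfsg Cfsg.Geo Module
open Cfsg.Agent.Lib.OrthoBasic Cfsg.Agent.Lib.OrthoSiegel Cfsg.Agent.Lib.OmCalc Cfsg.Agent.Lib.TvGL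
  Cfsg.Agent.Lib.OmPerp Cfsg.Agent.H28.Nd Cfsg.Agent.H28.Kk Cfsg.Agent.Lib.OmPair Cfsg.Agent.H28.Sm
open Cfsg.Agent.Lib.OrthGroup Cfsg.Agent.Lib.OrthOmega
open Cfsg.Agent.Lib.SympT (GL_ext mulVec_mul_GL mulVec_inv_GL inv_mulVec_GL linOf linOf_apply finrank_le_of_maps)
open Cfsg.Agent.Lib.QuadFF (polar_sm_r polar_sm_l Q_ad Q_sm IsHyp)

local notation:70 g:71 " ⋆ " x:70 => Matrix.mulVec (Units.val g) x

variable {ι : Type} [Fintype ι] [DecidableEq ι] {F : Type*} [Field F] [Fintype F]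
  {Q : QuadraticForm F (ι → F)} {P P' : Submodule F (ι → F)}

/-- An isometry preserving a summand preserves the other one. -/
theorem pres_other (hQ' : Nondeg Q) (hp : OPair Q P P') {g : GL ι F} (hgi : ∀ v, Q (g ⋆ v) = Q v)
    (h : ∀ x ∈ P, g ⋆ x ∈ P) : ∀ x ∈ P', g ⋆ x ∈ P' := by
  classical
  intro x hx
  obtain ⟨a, ha, b, hb, hd⟩ := hp.decomp (g ⋆ x)
  have hmap : P.map (linOf g).toLinearMap = P := by
    refine Submodule.eq_of_le_of_finrank_le ?_ ?_
    · rintro _ ⟨y, hy, rfl⟩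
      exact h y hy
    · rw [LinearEquiv.finrank_map_eq]
  have ha0 : a = 0 := by
    by_contra ha0
    obtain ⟨z, hz, hz'⟩ := hp.nondeg hQ' ha ha0
    apply hz'
    rw [← hmap] at hz
    obtain ⟨w, hw, rfl⟩ := hz
    have h1 : polar Q (g ⋆ x) (g ⋆ w) = 0 := by
      rw [polar_iso hgi, polar_comm]
      exact hp.orth w hw x hx
    have h2 : polar Q b (g ⋆ w) = 0 := by
      rw [polar_comm]
      exact hp.orth _ (h w hw) b hb
    rw [hd, polar_add_left, h2, add_zero] at h1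
    exact h1
  rw [hd, ha0, zero_add]
  exact hb

/-- Membership in the stabiliser of a summand. -/
theorem mem_stab_of_pres (hQ' : Nondeg Q) (hp : OPair Q P P') {W : Submodule F (ι → F)} (hW : W = P ∨ W = P')
    {g : GL ι F} (hgi : ∀ v, Q (g ⋆ v) = Q v) (h : ∀ x ∈ P, g ⋆ x ∈ P) : g ∈ subspaceStabilizer W := by
  rcases hW with rfl | rfl
  · exact mem_stab_of_map_le _ g h
  · exact mem_stab_of_map_le _ g (pres_other hQ' hp hgi h)

theorem pres_of_mem_stab (hQ' : Nondeg Q) (hp : OPair Q P P') {W : Submodule F (ι → F)} (hW : W = P ∨ W = P')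
    {g : GL ι F} (hgi : ∀ v, Q (g ⋆ v) = Q v) (h : g ∈ subspaceStabilizer W) : ∀ x ∈ P, g ⋆ x ∈ P := by
  rcases hW with rfl | rfl
  · exact fun x hx => ((mem_stab_iff _ g).1 h x).1 hx
  · exact pres_other hQ' hp.symm hgi (fun x hx => ((mem_stab_iff _ g).1 h x).1 hx)

/-- Siegel transformations in a summand preserve both summands. -/
theorem sE_pres (hQ' : Nondeg Q) (hp : OPair Q P P') {a y : ι → F} (ha : a ∈ P) (hy : y ∈ P) (hQa : Q a = 0)
    (hay : polar Q a y = 0) : ∀ x ∈ P, sE hQ' hQa hay ⋆ x ∈ P := by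
  intro x hx
  rw [sE_apply']
  exact P.sub_mem (P.add_mem hx (P.smul_mem _ hy)) (P.smul_mem _ ha)

/-- The product of two reflections in vectors of the same norm. -/
theorem exists_refl_pair (hQ' : Nondeg Q) (h11 : 11 ≤ Fintype.card ι) (hp : OPair Q P P') {a c : ι → F} (ha : a ∈ P')
    (hQa : Q a ≠ 0) (hc : c ∈ P) (hca : Q c = Q a) :
    ∃ t ∈ omegaGL ⇑Q, (∀ z, t ⋆ z = z - ((Q a)⁻¹ * polar Q z c) • c - ((Q a)⁻¹ * polar Q z a) • a) := by
  classical
  obtain ⟨t, ht⟩ := exists_gl_prodR (Q := Q) [a, c]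
  have hO : t ∈ omegaGL ⇑Q := by
    refine mem_omegaGL_of_list hQ' h11 [a, c] ?_ ?_ ?_ ht
    · intro v hv
      simp only [List.mem_cons, List.not_mem_nil, or_false] at hv
      rcases hv with rfl | rfl
      · exact hQa
      · rw [hca]
        exact hQa
    · simp
    · simp only [List.map_cons, List.map_nil, List.prod_cons, List.prod_nil, mul_one]
      rw [hca]
      exact ⟨Q a, rfl⟩
  refine ⟨t, hO, fun z => ?_⟩
  rw [ht]
  have hB : ∀ x y, B Q x y = polar Q x y := fun _ _ => rfl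
  have hca' : polar Q c a = 0 := hp.orth c hc a ha
  simp only [prodR_cons, prodR_nil, mul_one, LinearEquiv.mul_apply, refl_apply, hB, hca, polar_sub_left, polar_sm_l,
    hca']
  simp

/-- Such a product preserves the summands. -/
theorem pres_of_formula (hp : OPair Q P P') {a c : ι → F} (ha : a ∈ P') (hc : c ∈ P) {t : GL ι F}
    (ht : ∀ z, t ⋆ z = z - ((Q a)⁻¹ * polar Q z c) • c - ((Q a)⁻¹ * polar Q z a) • a) :
    ∀ x ∈ P, t ⋆ x ∈ P := by
  intro x hx
  rw [ht, hp.orth x hx a ha]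
  simp only [mul_zero, zero_smul, sub_zero]
  exact P.sub_mem hx (P.smul_mem _ hc)

/-- Properness of the stabiliser. -/
theorem stab_ne (hQ' : Nondeg Q) (h11 : 11 ≤ Fintype.card ι) (hp : OPair Q P P') {W : Submodule F (ι → F)}
    (hW : W = P ∨ W = P') (h7 : 6 ≤ finrank F P) (hP0 : ∃ y ∈ P', y ≠ 0) :
    subspaceStabilizer W ⊓ omegaGL ⇑Q ≠ omegaGL ⇑Q := by
  classical
  intro heq
  obtain ⟨e, he, z₀, hz₀, hez, -⟩ := hp.hyp_in hQ' (C := ∅) (by simp) (by simp; omega)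
  obtain ⟨y, hy, hy0⟩ := hP0
  have hey : polar Q e y = 0 := hp.orth e he y hy
  have hO := sE_mem_omegaGL hQ' h11 hez.Qv hey
  have hmem : sE hQ' hez.Qv hey ∈ subspaceStabilizer W ⊓ omegaGL ⇑Q := by
    rw [heq]
    exact hO
  have h1 := pres_of_mem_stab hQ' hp hW (iso_omega hO) hmem.1 z₀ hz₀
  rw [sE_apply', polar_comm Q z₀ e, hez.vw, hp.orth z₀ hz₀ y hy] at h1
  simp only [one_smul, zero_add, mul_one] at h1
  have h2 : y ∈ P := by
    have := P.add_mem (P.sub_mem h1 hz₀) (P.smul_mem (Q y) he)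
    have e : z₀ + y - Q y • e - z₀ + Q y • e = y := by abel
    rwa [e] at this
  exact hy0 (hp.eq_zero h2 hy)

/-- The main theorem, different dimensions. -/
theorem stab_maximal (hQ' : Nondeg Q) (h11 : 11 ≤ Fintype.card ι) (hp : OPair Q P P') {W : Submodule F (ι → F)}
    (hW : W = P ∨ W = P') (h7 : 6 ≤ finrank F P) (hlt : finrank F P' < finrank F P) (hP0 : ∃ y ∈ P', y ≠ 0)
    (hex : ¬ (finrank F P' = 2 ∧ Fintype.card F ≤ 3 ∧ ∃ s ∈ P', s ≠ 0 ∧ Q s = 0)) :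
    IsMaximalIn (omegaGL ⇑Q) (subspaceStabilizer W ⊓ omegaGL ⇑Q) := by
  classical
  refine ⟨lt_of_le_of_ne inf_le_right (stab_ne hQ' h11 hp hW h7 hP0), ?_⟩
  intro M hHM hMK
  by_cases hne : M = subspaceStabilizer W ⊓ omegaGL ⇑Q
  · exact Or.inl hne
  right
  obtain ⟨g, hgM, hgH⟩ : ∃ g ∈ M, g ∉ subspaceStabilizer W ⊓ omegaGL ⇑Q := by
    by_contra hcon
    push Not at hcon
    exact hne (le_antisymm hcon hHM)
  have hMi : ∀ t ∈ M, ∀ v, Q (t ⋆ v) = Q v := fun t ht => iso_omega (hMK ht)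
  have hHin : ∀ {A B : Submodule F (ι → F)}, OPair Q A B → (W = A ∨ W = B) →
      ∀ a ∈ A, Q a = 0 → ∀ y ∈ A, polar Q a y = 0 → R hQ' M a y := by
    intro A B hAB hWAB a ha hQa y hy hay
    refine ⟨hQa, hay, hHM ⟨?_, sE_mem_omegaGL hQ' h11 _ _⟩⟩
    have hO := sE_mem_omegaGL hQ' h11 hQa hay
    exact mem_stab_of_pres hQ' hAB hWAB (iso_omega hO) (sE_pres hQ' hAB ha hy hQa hay)
  refine le_antisymm hMK (omega_le_small (hQ := hQ') hQ' h11 hp h7 hlt hMi (hHin hp hW) (hHin hp.symm hW.symm) ?_ hex hgM ?_)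
  · intro a ha hQa c hc hca
    obtain ⟨t, htO, ht⟩ := exists_refl_pair hQ' h11 hp ha hQa hc hca
    exact ⟨t, hHM ⟨mem_stab_of_pres hQ' hp hW (iso_omega htO) (pres_of_formula hp ha hc ht), htO⟩, ht⟩
  · intro hg
    exact hgH ⟨mem_stab_of_pres hQ' hp hW (hMi g hgM) hg, hMK hgM⟩

/-- The main theorem, equal dimensions. -/
theorem stab_maximal_eq (hQ' : Nondeg Q) (h11 : 11 ≤ Fintype.card ι) (hp : OPair Q P P') {W : Submodule F (ι → F)}
    (hW : W = P ∨ W = P') (h7 : 7 ≤ finrank F P) (h7' : 7 ≤ finrank F P')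
    (hno : ∀ g : GL ι F, (∀ v, Q (g ⋆ v) = Q v) → (∀ x ∈ P, g ⋆ x ∈ P') → (∀ x ∈ P', g ⋆ x ∈ P) → False) :
    IsMaximalIn (omegaGL ⇑Q) (subspaceStabilizer W ⊓ omegaGL ⇑Q) := by
  classical
  obtain ⟨y, hy, hy0⟩ : ∃ y ∈ P', y ≠ 0 := Cfsg.Agent.Lib.QForm.exists_ne_zero_mem (by omega)
  refine ⟨lt_of_le_of_ne inf_le_right (stab_ne hQ' h11 hp hW (by omega) ⟨y, hy, hy0⟩), ?_⟩
  intro M hHM hMK
  by_cases hne : M = subspaceStabilizer W ⊓ omegaGL ⇑Q
  · exact Or.inl hne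
  right
  obtain ⟨g, hgM, hgH⟩ : ∃ g ∈ M, g ∉ subspaceStabilizer W ⊓ omegaGL ⇑Q := by
    by_contra hcon
    push Not at hcon
    exact hne (le_antisymm hcon hHM)
  have hMi : ∀ t ∈ M, ∀ v, Q (t ⋆ v) = Q v := fun t ht => iso_omega (hMK ht)
  have hHin : ∀ {A B : Submodule F (ι → F)}, OPair Q A B → (W = A ∨ W = B) →
      ∀ a ∈ A, Q a = 0 → ∀ y ∈ A, polar Q a y = 0 → R hQ' M a y := by
    intro A B hAB hWAB a ha hQa y hy hay
    refine ⟨hQa, hay, hHM ⟨?_, sE_mem_omegaGL hQ' h11 _ _⟩⟩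
    have hO := sE_mem_omegaGL hQ' h11 hQa hay
    exact mem_stab_of_pres hQ' hAB hWAB (iso_omega hO) (sE_pres hQ' hAB ha hy hQa hay)
  refine le_antisymm hMK (omega_le_nd (hQ := hQ') hQ' h11 hp h7 h7' hMi (hHin hp hW) (hHin hp.symm hW.symm) hgM ?_)
  rintro (⟨h0, h1⟩ | ⟨h0, h1⟩)
  · exact hgH ⟨mem_stab_of_pres hQ' hp hW (hMi g hgM) h0, hMK hgM⟩
  · exact hno g (hMi g hgM) h0 h1


/-! ### Two isometric summands of even dimension -/

section Anti

open Cfsg.Agent.Lib.QuadFF Cfsg.Agent.Lib.QuadClass Cfsg.Agent.Lib.QuadClass2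

variable {V : Type*} [AddCommGroup V] [Module F V] [FiniteDimensional F V]

/-- A non-degenerate form of even dimension is isometric to its negative. -/
theorem exists_anti {m : ℕ} (hV : finrank F V = 2 * m) (Q : QuadraticForm F V) (hQ : ND Q) :
    ∃ e : V ≃ₗ[F] V, ∀ v, Q (e v) = - Q v := by
  have hnQ : ND (-Q) := by
    intro x hx
    apply hQ x
    intro y
    have := hx y
    simp only [polar, _root_.neg_apply] at this ⊢
    linear_combination -this
  have hfin : ∀ e : V ≃ₗ[F] V, (∀ v, (-Q) (e v) = Q v) → ∀ v, Q (e v) = - Q v := by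
    intro e he v
    have := he v
    rw [_root_.neg_apply] at this
    rw [← this, neg_neg]
  rcases std_cases hV Q hQ with ⟨b, hb⟩ | ⟨k, hk, b, ζ, hb⟩
  · obtain ⟨K, hK, hKd⟩ := exists_ts_of_hyp hb
    obtain ⟨b', hb'⟩ := hyp_of_ts hV hnQ K (fun v hv => by
      rw [_root_.neg_apply, hK v hv, neg_zero]) hKd
    obtain ⟨e, he⟩ := isometry_of_hyp hb hb'
    exact ⟨e, hfin e he⟩
  · subst hk
    obtain ⟨b', ζ', hb'⟩ := minus_of_no_ts hV hnQ (fun K hK hKd => by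
      have := finrank_le_of_minus hQ hb K (fun v hv => by
        have h1 := hK v hv
        rw [_root_.neg_apply] at h1
        exact neg_eq_zero.1 h1)
      omega)
    obtain ⟨e, he⟩ := isometry_of_minus hQ hb hb'
    exact ⟨e, hfin e he⟩

end Anti

/-- Two isometric summands of even dimension make the space of plus type. -/
theorem plus_of_swap (hQ' : Nondeg Q) (hp : OPair Q P P') {m : ℕ} (hV : finrank F P = 2 * m)
    (hdim : 2 * finrank F P = Fintype.card ι) {g : GL ι F} (hgi : ∀ v, Q (g ⋆ v) = Q v)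
    (hg : ∀ x ∈ P, g ⋆ x ∈ P') : IsPlusTypeOn ⇑Q ⊤ := by
  classical
  obtain ⟨e, he⟩ := exists_anti hV (Cfsg.Agent.Lib.QuadFF.restr Q P) (hp.ND hQ')
  let ρ : ↥P →ₗ[F] (ι → F) := P.subtype + (linOf g).toLinearMap ∘ₗ P.subtype ∘ₗ e.toLinearMap
  have hρ : ∀ x, ρ x = (x : ι → F) + g ⋆ (e x : ι → F) := fun x => rfl
  have hinj : Function.Injective ρ := by
    rw [← LinearMap.ker_eq_bot, LinearMap.ker_eq_bot']
    intro x hx
    rw [hρ] at hx
    have h1 : (x : ι → F) ∈ P' := by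
      rw [eq_neg_of_add_eq_zero_left hx]
      exact P'.neg_mem (hg _ (e x).2)
    exact Subtype.ext (hp.eq_zero x.2 h1)
  refine ⟨LinearMap.range ρ, le_top, ?_, ?_⟩
  · rintro _ ⟨x, rfl⟩
    rw [hρ, Q_ad, hgi, hp.orth x x.2 _ (hg _ (e x).2)]
    have h1 := he x
    have h2 : Cfsg.Agent.Lib.QuadFF.restr Q P (e x) = Q (e x : ι → F) := rfl
    have h3 : Cfsg.Agent.Lib.QuadFF.restr Q P x = Q (x : ι → F) := rfl
    rw [h2, h3] at h1
    rw [h1]
    ring
  · rw [LinearMap.finrank_range_of_inj hinj, finrank_top, Module.finrank_fintype_fun_eq_card, hdim]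

/-- Summary: the case of different dimensions. -/
theorem maximal_of_nd (hQ' : Nondeg Q) (h13 : 11 ≤ Fintype.card ι) {W : Submodule F (ι → F)} (hW0 : W ≠ ⊥) (hW1 : W ≠ ⊤)
    (hN : IsNondegenerateOn (polar Q) W) (hne : 2 * finrank F W ≠ Fintype.card ι)
    (hex : ∀ P' : Submodule F (ι → F), (P' = W ∨ P' = perpQ Q W) → finrank F P' = 2 → Fintype.card F ≤ 3 →
      (∃ s ∈ P', s ≠ 0 ∧ Q s = 0) → False) :
    IsMaximalIn (omegaGL ⇑Q) (subspaceStabilizer W ⊓ omegaGL ⇑Q) := by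
  classical
  have hN' : ∀ x ∈ W, (∀ y ∈ W, polar Q x y = 0) → x = 0 := by
    intro x hx h
    by_contra hx0
    obtain ⟨y, hy, hy'⟩ := (hN x hx hx0).2
    exact hy' (h y hy)
  have hp0 := opair_of_nondeg hQ' hN'
  have hf := finrank_perpQ hQ' W
  have hft : finrank F W < Fintype.card ι := by
    have := Submodule.finrank_lt hW1
    rwa [Module.finrank_fintype_fun_eq_card] at this
  have hf0 : 0 < finrank F W := by
    rw [Module.finrank_pos_iff]
    exact Submodule.nontrivial_iff_ne_bot.2 hW0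
  have hfp : finrank F ↥(perpQ Q W) + finrank F W = Fintype.card ι := by omega
  by_cases hlt : finrank F W < finrank F ↥(perpQ Q W)
  · refine stab_maximal hQ' (by omega) hp0 (Or.inr rfl) (by omega) hlt ?_ ?_
    · exact Cfsg.Agent.Lib.QForm.exists_ne_zero_mem hf0
    · rintro ⟨h1, h2, h3⟩
      exact hex W (Or.inl rfl) h1 h2 h3
  · have hlt' : finrank F ↥(perpQ Q W) < finrank F W := by omega
    refine stab_maximal hQ' (by omega) hp0.symm (Or.inl rfl) (by omega) hlt' ?_ ?_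
    · exact Cfsg.Agent.Lib.QForm.exists_ne_zero_mem (by omega)
    · rintro ⟨h1, h2, h3⟩
      exact hex _ (Or.inr rfl) h1 h2 h3

/-- The plane exclusion in terms of the hypotheses of the statements. -/
theorem plane_plus (hQ' : Nondeg Q) (hp : OPair Q P P') (h2 : finrank F P' = 2) {s : ι → F} (hs : s ∈ P') (hs0 : s ≠ 0)
    (hQs : Q s = 0) : IsNondegenerateOn (polar Q) P' ∧ IsPlusTypeOn ⇑Q P' := by
  classical
  refine ⟨fun w hw hw0 => ?_, Submodule.span F {s}, ?_, ?_, ?_⟩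
  · obtain ⟨z, hz, hz'⟩ := hp.symm.nondeg hQ' hw hw0
    refine ⟨⟨z, hz, ?_⟩, ⟨z, hz, hz'⟩⟩
    rwa [polar_comm]
  · rw [Submodule.span_singleton_le_iff_mem]
    exact hs
  · intro w hw
    obtain ⟨c, rfl⟩ := Submodule.mem_span_singleton.1 hw
    rw [Q_sm, hQs, mul_zero]
  · rw [finrank_span_singleton hs0, h2]

end Cfsg.Agent.H28.St
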