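import Cfsg.Agent.H28.Isolated
import Cfsg.Agent.S1182
import Cfsg.Prelude.Def_Transfer

set_option autoImplicit false

namespace Cfsg.Agent.H28

open Cfsg

variable {G : Type*} [Group G]

/-- The centralizer of an isolated involution has odd index. -/
lemma index_centralizer_odd [Finite G] {z : G} (hz : IsIsolatedInvolution z) :
    Odd (Subgroup.centralizer ({z} : Set G)).index := by
  classical
  set C := Subgroup.centralizer ({z} : Set G) with hC
  have hzz : z * z = 1 := mul_self_of_order_two hz.1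
  have hzi : z⁻¹ = z := inv_eq_of_mul_eq_one_right hzz
  have hp : IsPGroup 2 (Subgroup.zpowers z) := by
    intro x
    obtain ⟨x, ⟨k, rfl⟩⟩ := x
    refine ⟨1, ?_⟩
    apply Subtype.ext
    show (z ^ k) ^ 2 ^ 1 = 1
    rw [pow_one, ← zpow_natCast, ← zpow_mul, mul_comm, zpow_mul, zpow_natCast, pow_two, hzz,
      one_zpow]
  have hfix : MulAction.fixedPoints (Subgroup.zpowers z) (G ⧸ C) = {QuotientGroup.mk 1} := by
    ext q
    obtain ⟨g, rfl⟩ := QuotientGroup.mk_surjective q
    simp only [MulAction.mem_fixedPoints, Set.mem_singleton_iff]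
    constructor
    · intro h
      have h1 := h ⟨z, Subgroup.mem_zpowers z⟩
      have h2 : (QuotientGroup.mk (z * g) : G ⧸ C) = QuotientGroup.mk g := h1
      rw [QuotientGroup.eq, hC, Subgroup.mem_centralizer_singleton_iff, mul_inv_rev, hzi] at h2
      have h3 : Commute z (g⁻¹ * z * g⁻¹⁻¹) := by
        show z * (g⁻¹ * z * g⁻¹⁻¹) = g⁻¹ * z * g⁻¹⁻¹ * z
        simpa [mul_assoc] using h2.symm
      have h4 := hz.2 g⁻¹ h3
      rw [eq_comm, QuotientGroup.eq, hC, Subgroup.mem_centralizer_singleton_iff]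
      rw [inv_inv] at h4
      have : g * z = z * g := by
        calc g * z = g * (g⁻¹ * z * g) := by rw [h4]
          _ = z * g := by group
      simpa using this
    · intro h x
      obtain ⟨x, ⟨k, rfl⟩⟩ := x
      rw [h]
      show (QuotientGroup.mk (z ^ k * 1) : G ⧸ C) = QuotientGroup.mk 1
      rw [QuotientGroup.eq]
      have hzC : z ∈ C := by
        rw [hC, Subgroup.mem_centralizer_singleton_iff]
      have := C.inv_mem (C.zpow_mem hzC k)
      simpa using this
  have h := hp.card_modEq_card_fixedPoints (G ⧸ C)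
  have h1 : Nat.card (MulAction.fixedPoints (Subgroup.zpowers z) (G ⧸ C)) = 1 := by
    rw [hfix]; simp
  rw [h1] at h
  have h2 : Nat.card (G ⧸ C) % 2 = 1 := by simpa [Nat.ModEq] using h
  exact Nat.odd_iff.mpr h2

/-- The residual is normal. -/
lemma pResidual_normal (p : ℕ) (H : Type*) [Group H] : (pResidual p H).Normal := by
  constructor
  intro n hn g
  unfold pResidual at hn ⊢
  induction hn using Subgroup.closure_induction with
  | mem x hx =>
    apply Subgroup.subset_closure
    have h1 : orderOf (g * x * g⁻¹) = orderOf x :=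
      orderOf_injective (MulAut.conj g).toMonoidHom (MulAut.conj g).injective x
    show Nat.Coprime (orderOf (g * x * g⁻¹)) p
    rw [h1]; exact hx
  | one => simp
  | mul x y _ _ hx hy =>
    have : g * (x * y) * g⁻¹ = (g * x * g⁻¹) * (g * y * g⁻¹) := by group
    rw [this]; exact Subgroup.mul_mem _ hx hy
  | inv x _ hx =>
    have : g * x⁻¹ * g⁻¹ = (g * x * g⁻¹)⁻¹ := by group
    rw [this]; exact Subgroup.inv_mem _ hx

/-- A nilpotent quotient argument: if every element has a 2-power power in the normal subgroup `R`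
and `R` together with the commutator subgroup is everything, then `R` is everything. -/
lemma residual_eq_top_of_sup {H : Type*} [Group H] [Finite H] {R : Subgroup H} [R.Normal]
    (h2 : ∀ c : H, ∃ a : ℕ, c ^ (2 ^ a) ∈ R) (htop : R ⊔ commutator H = ⊤) : R = ⊤ := by
  let Q := H ⧸ R
  have hQ : IsPGroup 2 Q := by
    intro q
    obtain ⟨c, rfl⟩ := QuotientGroup.mk_surjective q
    obtain ⟨a, ha⟩ := h2 c
    exact ⟨a, by rw [← QuotientGroup.mk_pow]; exact (QuotientGroup.eq_one_iff _).mpr ha⟩
  have : Fact (Nat.Prime 2) := ⟨Nat.prime_two⟩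
  have hnil : Group.IsNilpotent Q := hQ.isNilpotent
  have hcomm : commutator Q = ⊤ := by
    have h3 : (R ⊔ commutator H).map (QuotientGroup.mk' R) = ⊤ := by
      rw [htop, Subgroup.map_top_of_surjective _ (QuotientGroup.mk'_surjective R)]
    rw [Subgroup.map_sup] at h3
    have h4 : R.map (QuotientGroup.mk' R) = ⊥ := by
      rw [Subgroup.map_eq_bot_iff, QuotientGroup.ker_mk']
    rw [h4, bot_sup_eq, commutator_def, Subgroup.map_commutator,
      Subgroup.map_top_of_surjective _ (QuotientGroup.mk'_surjective R)] at h3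
    rw [commutator_def]; exact h3
  have hlcs : ∀ n, Subgroup.lowerCentralSeries (⊤ : Subgroup Q) n = ⊤ := by
    intro n
    induction n with
    | zero => rfl
    | succ n ih =>
      rw [Subgroup.lowerCentralSeries_succ, ih, ← commutator_def]; exact hcomm
  obtain ⟨n, hn⟩ := Subgroup.nilpotent_iff_lowerCentralSeries.mp hnil
  rw [hlcs n] at hn
  -- `Q` is trivial
  rw [eq_top_iff]
  intro c _
  have : (QuotientGroup.mk c : Q) ∈ (⊥ : Subgroup Q) := by rw [← hn]; exact Subgroup.mem_top _
  rw [Subgroup.mem_bot] at this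
  exact (QuotientGroup.eq_one_iff _).mp this

/-- The transfer along the centralizer of an isolated involution is the power map. -/
lemma transfer_isolated [Finite G] {z : G} (hz : IsIsolatedInvolution z) {A : Type*} [CommGroup A]
    {C : Subgroup G} (hC : C = Subgroup.centralizer ({z} : Set G)) (χ : ↥C →* A) (c : ↥C) :
    MonoidHom.transfer χ (c : G) = χ c ^ C.index := by
  classical
  have hnorm : z ∈ Subgroup.normalizer ((⊤ : Subgroup G) : Set G) := by
    rw [Subgroup.mem_normalizer_iff]; simp
  have : Fintype (Quotient (MulAction.orbitRel (Subgroup.zpowers (c : G)) (G ⧸ C))) :=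
    Fintype.ofFinite _
  rw [Subgroup.index_eq_sum_minimalPeriod C (c : G), ← Finset.prod_pow_eq_pow_sum,
    MonoidHom.transfer_eq_prod_quotient_orbitRel_zpowers_quot]
  apply Finset.prod_congr rfl
  intro q _
  set n := Function.minimalPeriod ((c : G) • ·) q.out with hn
  set g₀ := q.out.out with hg₀
  have hmem := QuotientGroup.out_conj_pow_minimalPeriod_mem C (c : G) q.out
  have hCmem : ∀ x : G, x ∈ C ↔ Commute x z := by
    intro x; rw [hC, Subgroup.mem_centralizer_singleton_iff]; rfl
  have hx : Commute ((c : G) ^ n) z := ((hCmem _).mp c.2).pow_left n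
  have hy : Commute (g₀⁻¹ * (c : G) ^ n * g₀) z := (hCmem _).mp hmem
  obtain ⟨d, -, hdz, hd⟩ := Cfsg.Agent.S1182.result z hz ⊤ hnorm ((c : G) ^ n)
    (g₀⁻¹ * (c : G) ^ n * g₀) (Subgroup.mem_top _) (Subgroup.mem_top _) hx hy g₀⁻¹
    (Subgroup.mem_top _) (by group)
  have hdC : d ∈ C := (hCmem _).mpr hdz
  have key : (⟨g₀⁻¹ * (c : G) ^ n * g₀, hmem⟩ : ↥C) =
      (⟨d, hdC⟩ : ↥C) * (c ^ n) * (⟨d, hdC⟩ : ↥C)⁻¹ := by
    apply Subtype.ext
    simp only [Subgroup.coe_mul, Subgroup.coe_inv, Subgroup.coe_pow]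
    exact hd.symm
  show χ ⟨g₀⁻¹ * (c : G) ^ n * g₀, hmem⟩ = χ c ^ n
  rw [key, map_mul, map_mul, map_inv, map_pow, mul_comm (χ _), mul_assoc, mul_comm]
  simp

end Cfsg.Agent.H28
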