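import Mathlib
import Cfsg.Agent.Lib.ExtA
import Cfsg.Agent.Lib.ExtB

/-!
# Symmetric forms over a finite field: planes, singular vectors, Siegel maps and the overgroup hypothesis
-/

set_option autoImplicit false
set_option linter.unusedSectionVars false
set_option linter.unusedSimpArgs false
set_option linter.unusedVariables false
set_option linter.style.haveILetI false

namespace Cfsg.Agent.H28.XA

open Module Cfsg.Agent.Lib.ExtA Cfsg.Agent.Lib.ExtB

section geom

variable {L V : Type*} [Field L] [AddCommGroup V] [Module L V]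

/-- A non-degenerate symmetric form, characteristic not two. -/
structure OH (h : LinearMap.BilinForm L V) : Prop where
  symm : ∀ u v, h u v = h v u
  nd : ∀ u, u ≠ 0 → ∃ v, h u v ≠ 0
  two : (2 : L) ≠ 0

variable {h : LinearMap.BilinForm L V}

/-- `L`-isometries. -/
def IsoL (h : LinearMap.BilinForm L V) (g : V ≃ₗ[L] V) : Prop := ∀ u v, h (g u) (g v) = h u v

theorem IsoL.inv {g : V ≃ₗ[L] V} (hg : IsoL h g) : IsoL h g⁻¹ := by
  intro u v
  have := hg (g⁻¹ u) (g⁻¹ v)
  rw [inv_app, inv_app] at this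
  exact this.symm

theorem IsoL.mul {g g' : V ≃ₗ[L] V} (hg : IsoL h g) (hg' : IsoL h g') : IsoL h (g * g') := by
  intro u v
  rw [LinearEquiv.mul_apply, LinearEquiv.mul_apply, hg, hg']

theorem IsoL.adj {g : V ≃ₗ[L] V} (hg : IsoL h g) (u v : V) : h (g⁻¹ u) v = h u (g v) := by
  have := hg (g⁻¹ u) v
  rw [inv_app] at this
  exact this.symm

/-- A subspace on which the form is non-degenerate. -/
def NDS (h : LinearMap.BilinForm L V) (S : Submodule L V) : Prop :=
  ∀ u ∈ S, u ≠ 0 → ∃ v ∈ S, h u v ≠ 0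

theorem nds_top (H : OH h) : NDS h ⊤ := fun u _ hu => by
  obtain ⟨v, hv⟩ := H.nd u hu
  exact ⟨v, trivial, hv⟩

theorem exists_nonsing (H : OH h) {S : Submodule L V} (hS : NDS h S) {u : V} (hu : u ∈ S) (hu0 : u ≠ 0) :
    ∃ e ∈ S, h e e ≠ 0 := by
  by_contra hall
  push Not at hall
  obtain ⟨v, hv, huv⟩ := hS u hu hu0
  apply huv
  have h1 := hall (u + v) (S.add_mem hu hv)
  simp only [map_add, LinearMap.add_apply, hall u hu, hall v hv, H.symm v u] at h1
  have h2 : (2 : L) * h u v = 0 := by linear_combination h1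
  exact (mul_eq_zero.mp h2).resolve_left H.two

/-- The perpendicular of a vector inside a subspace. -/
def pp (h : LinearMap.BilinForm L V) (S : Submodule L V) (e : V) : Submodule L V :=
  S ⊓ LinearMap.ker (h.flip e)

theorem mem_pp {S : Submodule L V} {e u : V} : u ∈ pp h S e ↔ u ∈ S ∧ h u e = 0 := by
  simp [pp]

theorem nds_pp (H : OH h) {S : Submodule L V} (hS : NDS h S) {e : V} (he : e ∈ S) (hee : h e e ≠ 0) :
    NDS h (pp h S e) := by
  intro u hu hu0
  obtain ⟨hu1, hu2⟩ := mem_pp.mp hu
  obtain ⟨v, hv, huv⟩ := hS u hu1 hu0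
  refine ⟨v - (h v e / h e e) • e, mem_pp.mpr ⟨S.sub_mem hv (S.smul_mem _ he), ?_⟩, ?_⟩
  · simp only [map_sub, map_smul, LinearMap.sub_apply, LinearMap.smul_apply, smul_eq_mul]
    field_simp
    ring
  · simp only [map_sub, map_smul, smul_eq_mul, hu2, mul_zero, sub_zero]
    exact huv

theorem finrank_pp [Module.Finite L V] (S : Submodule L V) (e : V) :
    finrank L S ≤ finrank L (pp h S e) + 1 := by
  have h1 := LinearMap.finrank_range_add_finrank_ker ((h.flip e).domRestrict S)
  have h2 : finrank L (LinearMap.range ((h.flip e).domRestrict S)) ≤ 1 := by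
    have := Submodule.finrank_le (LinearMap.range ((h.flip e).domRestrict S))
    simpa using this
  have h3 : finrank L (LinearMap.ker ((h.flip e).domRestrict S)) = finrank L (pp h S e) := by
    apply LinearEquiv.finrank_eq
    refine LinearEquiv.ofBijective
      { toFun := fun x => ⟨x.1.1, mem_pp.mpr ⟨x.1.2, LinearMap.mem_ker.mp x.2⟩⟩
        map_add' := fun _ _ => rfl
        map_smul' := fun _ _ => rfl } ⟨?_, ?_⟩
    · intro x y hxy
      apply Subtype.ext
      apply Subtype.ext
      exact congrArg (fun z : pp h S e => z.1) hxy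
    · intro x
      obtain ⟨h4, h5⟩ := mem_pp.mp x.2
      exact ⟨⟨⟨x.1, h4⟩, LinearMap.mem_ker.mpr h5⟩, rfl⟩
  omega

theorem exists_ne_of_finrank {S : Submodule L V} [Module.Finite L V] (hS : 1 ≤ finrank L S) :
    ∃ u ∈ S, u ≠ 0 := by
  have : Nontrivial S := Module.nontrivial_of_finrank_pos (R := L) (by omega)
  obtain ⟨x, hx⟩ := exists_ne (0 : S)
  exact ⟨x.1, x.2, fun h => hx (Subtype.ext h)⟩

theorem card_odd [Fintype L] (H2 : (2 : L) ≠ 0) : Fintype.card L % 2 = 1 := by
  apply FiniteField.odd_card_of_char_ne_two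
  intro hc
  apply H2
  have := ringChar.Nat.cast_ringChar (R := L)
  rw [hc] at this
  simpa using this

/-- A plane represents every non-zero value. -/
theorem exists_norm [Finite L] [Module.Finite L V] (H : OH h) {S : Submodule L V} (hS : NDS h S)
    (hd : 2 ≤ finrank L S) (c : L) : ∃ y ∈ S, h y y = c := by
  classical
  haveI : Fintype L := Fintype.ofFinite L
  obtain ⟨u, hu, hu0⟩ := exists_ne_of_finrank (S := S) (by omega)
  obtain ⟨e₁, he₁, h1⟩ := exists_nonsing H hS hu hu0
  have hS1 := nds_pp H hS he₁ h1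
  have hd1 := finrank_pp (h := h) S e₁
  obtain ⟨u', hu', hu'0⟩ := exists_ne_of_finrank (S := pp h S e₁) (by omega)
  obtain ⟨e₂, he₂, h2⟩ := exists_nonsing H hS1 hu' hu'0
  obtain ⟨he₂S, he₂p⟩ := mem_pp.mp he₂
  obtain ⟨a, a', haa⟩ := FiniteField.exists_root_sum_quadratic
    (f := Polynomial.C (h e₁ e₁) * Polynomial.X ^ 2 + Polynomial.C 0 * Polynomial.X + Polynomial.C (-c))
    (g := Polynomial.C (h e₂ e₂) * Polynomial.X ^ 2 + Polynomial.C 0 * Polynomial.X + Polynomial.C 0)
    (Polynomial.degree_quadratic h1) (Polynomial.degree_quadratic h2) (card_odd H.two)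
  refine ⟨a • e₁ + a' • e₂, S.add_mem (S.smul_mem _ he₁) (S.smul_mem _ he₂S), ?_⟩
  simp only [Polynomial.eval_add, Polynomial.eval_mul, Polynomial.eval_C, Polynomial.eval_pow,
    Polynomial.eval_X] at haa
  have h3 : h e₁ e₂ = 0 := by rw [H.symm]; exact he₂p
  simp only [map_add, map_smul, LinearMap.add_apply, LinearMap.smul_apply, smul_eq_mul, h3, he₂p]
  linear_combination haa

/-- A three-dimensional non-degenerate space has a singular vector. -/
theorem exists_sing [Finite L] [Module.Finite L V] (H : OH h) {S : Submodule L V} (hS : NDS h S)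
    (hd : 3 ≤ finrank L S) : ∃ b ∈ S, b ≠ 0 ∧ h b b = 0 := by
  obtain ⟨u, hu, hu0⟩ := exists_ne_of_finrank (S := S) (by omega)
  obtain ⟨e₁, he₁, h1⟩ := exists_nonsing H hS hu hu0
  have hS1 := nds_pp H hS he₁ h1
  have hd1 := finrank_pp (h := h) S e₁
  obtain ⟨y, hy, hyy⟩ := exists_norm H hS1 (by omega) (- h e₁ e₁)
  obtain ⟨hyS, hye⟩ := mem_pp.mp hy
  refine ⟨e₁ + y, S.add_mem he₁ hyS, ?_, ?_⟩
  · intro h0
    have h2 : h (e₁ + y) e₁ = h e₁ e₁ := by
      simp only [map_add, LinearMap.add_apply, hye, add_zero]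
    rw [h0] at h2
    simp only [map_zero, LinearMap.zero_apply] at h2
    exact h1 h2.symm
  · have h3 : h e₁ y = 0 := by rw [H.symm]; exact hye
    simp only [map_add, LinearMap.add_apply, h3, hye, hyy]
    ring

/-- The projection to the perpendicular of a hyperbolic pair. -/
def pj (h : LinearMap.BilinForm L V) (b z v : V) : V := v - h v z • b - h v b • z

/-- The perpendicular of a pair. -/
def J2 (h : LinearMap.BilinForm L V) (b z : V) : Submodule L V := pp h (pp h ⊤ b) z

theorem mem_J2 {b z u : V} : u ∈ J2 h b z ↔ h u b = 0 ∧ h u z = 0 := by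
  simp [J2, mem_pp]

theorem pj_mem (H : OH h) {b z : V} (hb : h b b = 0) (hz : h z z = 0) (hbz : h b z = 1) (v : V) :
    pj h b z v ∈ J2 h b z := by
  have hzb : h z b = 1 := by rw [H.symm]; exact hbz
  refine mem_J2.mpr ⟨?_, ?_⟩
  · simp [pj, hb, hzb]
  · simp [pj, hz, hbz]

theorem nds_J2 (H : OH h) {b z : V} (hb : h b b = 0) (hz : h z z = 0) (hbz : h b z = 1) :
    NDS h (J2 h b z) := by
  intro u hu hu0
  obtain ⟨h1, h2⟩ := mem_J2.mp hu
  obtain ⟨v, hv⟩ := H.nd u hu0
  refine ⟨pj h b z v, pj_mem H hb hz hbz v, ?_⟩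
  have h3 : h u b = 0 := h1
  have h4 : h u z = 0 := h2
  simp only [pj, map_sub, map_smul, smul_eq_mul, h3, h4, mul_zero, sub_zero]
  exact hv

theorem finrank_J2 [Module.Finite L V] (b z : V) : finrank L V ≤ finrank L (J2 h b z) + 2 := by
  have h1 := finrank_pp (h := h) (⊤ : Submodule L V) b
  have h2 := finrank_pp (h := h) (pp h ⊤ b) z
  rw [finrank_top] at h1
  change finrank L (pp h ⊤ b) ≤ finrank L (J2 h b z) + 1 at h2
  omega

/-- A hyperbolic partner. -/
theorem exists_partner (H : OH h) {b : V} (hb0 : b ≠ 0) (hb : h b b = 0) :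
    ∃ z, h z z = 0 ∧ h b z = 1 := by
  obtain ⟨v, hv⟩ := H.nd b hb0
  set u := (h b v)⁻¹ • v with hu
  have h1 : h b u = 1 := by simp [hu, hv]
  refine ⟨u - (h u u / 2) • b, ?_, ?_⟩
  · have h2 : h u b = 1 := by rw [H.symm]; exact h1
    simp only [map_sub, map_smul, LinearMap.sub_apply, LinearMap.smul_apply, smul_eq_mul, hb, h1, h2]
    have := H.two
    field_simp
    ring
  · simp only [map_sub, map_smul, smul_eq_mul, hb, h1]
    ring

theorem J2_ne [Module.Finite L V] {b z : V} (hd : 3 ≤ finrank L V) : ∃ u ∈ J2 h b z, u ≠ 0 := by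
  have := finrank_J2 (h := h) b z
  exact exists_ne_of_finrank (by omega)

/-- A non-singular vector perpendicular to a pair. -/
theorem exists_J2_nonsing [Module.Finite L V] (H : OH h) {b z : V} (hb : h b b = 0) (hz : h z z = 0)
    (hbz : h b z = 1) (hd : 3 ≤ finrank L V) : ∃ w, h w b = 0 ∧ h w z = 0 ∧ h w w ≠ 0 := by
  obtain ⟨u, hu, hu0⟩ := J2_ne (h := h) (b := b) (z := z) hd
  obtain ⟨w, hw, hww⟩ := exists_nonsing H (nds_J2 H hb hz hbz) hu hu0
  obtain ⟨h1, h2⟩ := mem_J2.mp hw
  exact ⟨w, h1, h2, hww⟩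

/-- Non-singular vectors perpendicular to a singular vector. -/
theorem exists_perp_nonsing [Module.Finite L V] (H : OH h) {b : V} (hb0 : b ≠ 0) (hb : h b b = 0)
    (hd : 3 ≤ finrank L V) : ∃ w, h b w = 0 ∧ h w w ≠ 0 := by
  obtain ⟨z, hz, hbz⟩ := exists_partner H hb0 hb
  obtain ⟨w, h1, h2, h3⟩ := exists_J2_nonsing H hb hz hbz hd
  exact ⟨w, by rw [H.symm]; exact h1, h3⟩

/-- A singular vector opposite two given ones. -/
theorem exists_opp2 [Module.Finite L V] (H : OH h) {b b' : V} (hb0 : b ≠ 0) (hb'0 : b' ≠ 0) (hb : h b b = 0)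
    (hb' : h b' b' = 0) (hd : 3 ≤ finrank L V) : ∃ v, h v v = 0 ∧ h v b ≠ 0 ∧ h v b' ≠ 0 := by
  by_cases hbb : h b b' = 0
  · have hex : ∃ u, h u b ≠ 0 ∧ h u b' ≠ 0 := by
      obtain ⟨u₁, hu₁⟩ := H.nd b hb0
      obtain ⟨u₂, hu₂⟩ := H.nd b' hb'0
      rw [H.symm] at hu₁ hu₂
      by_cases h1 : h u₁ b' = 0
      · by_cases h2 : h u₂ b = 0
        · refine ⟨u₁ + u₂, ?_, ?_⟩
          · simpa [h2] using hu₁
          · simpa [h1] using hu₂
        · exact ⟨u₂, h2, hu₂⟩
      · exact ⟨u₁, hu₁, h1⟩
    obtain ⟨u, h1, h2⟩ := hex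
    have hbu : h b u = h u b := H.symm _ _
    refine ⟨u - (h u u / (2 * h u b)) • b, ?_, ?_, ?_⟩
    · simp only [map_sub, map_smul, LinearMap.sub_apply, LinearMap.smul_apply, smul_eq_mul, hb, hbu]
      have := H.two
      field_simp
      ring
    · simpa [hb] using h1
    · simpa [hbb] using h2
  · set κ := h b b' with hκ
    have hbz : h b (κ⁻¹ • b') = 1 := by simp [← hκ, hbb]
    have hz : h (κ⁻¹ • b') (κ⁻¹ • b') = 0 := by simp [hb']
    obtain ⟨w, h1, h2, h3⟩ := exists_J2_nonsing H hb hz hbz hd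
    have h2' : h w b' = 0 := by
      have : κ⁻¹ * h w b' = 0 := by simpa using h2
      exact (mul_eq_zero.mp this).resolve_left (inv_ne_zero hbb)
    have h1' : h b w = 0 := by rw [H.symm]; exact h1
    have h2'' : h b' w = 0 := by rw [H.symm]; exact h2'
    have hb'b : h b' b = κ := H.symm _ _
    set β : L := - h w w / (2 * κ) with hβ
    have hβ0 : β ≠ 0 := by
      have := H.two
      rw [hβ]
      exact div_ne_zero (neg_ne_zero.mpr h3) (mul_ne_zero this hbb)
    refine ⟨b + β • b' + w, ?_, ?_, ?_⟩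
    · simp only [map_add, map_smul, LinearMap.add_apply, LinearMap.smul_apply, smul_eq_mul, hb, hb',
        h1, h2', h1', h2'', hb'b, ← hκ]
      have := H.two
      rw [hβ]
      field_simp
      ring
    · simp only [map_add, map_smul, LinearMap.add_apply, LinearMap.smul_apply, smul_eq_mul, hb,
        hb'b, h1, add_zero, zero_add]
      exact mul_ne_zero hβ0 hbb
    · simp only [map_add, map_smul, LinearMap.add_apply, LinearMap.smul_apply, smul_eq_mul, hb', h2',
        ← hκ, add_zero, mul_zero]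
      exact hbb

end geom

section siegel

variable {L V : Type*} [Field L] [AddCommGroup V] [Module L V] {h : LinearMap.BilinForm L V}

/-- The Siegel map over `L`. -/
noncomputable def sLin (h : LinearMap.BilinForm L V) (b y : V) : V →ₗ[L] V :=
  LinearMap.id + (h.flip b).smulRight y - ((h.flip y) + ((h y y / 2) • h.flip b)).smulRight b

theorem sLin_apply (b y v : V) :
    sLin h b y v = v + h v b • y - (h v y + (h y y / 2) * h v b) • b := by
  simp [sLin]

theorem sLin_zero (b v : V) : sLin h b 0 v = v := by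
  simp [sLin_apply]

theorem sLin_comp (H : OH h) {b y y' : V} (hb : h b b = 0) (hy : h b y = 0) (hy' : h b y' = 0) (v : V) :
    sLin h b y (sLin h b y' v) = sLin h b (y + y') v := by
  have hy1 : h y b = 0 := by rw [H.symm]; exact hy
  have hy2 : h y' b = 0 := by rw [H.symm]; exact hy'
  have e1 : h (sLin h b y' v) b = h v b := by
    simp [sLin_apply, hb, hy2]
  have e2 : h (sLin h b y' v) y = h v y + h v b * h y' y := by
    simp [sLin_apply, hy]
  have e3 : h (y + y') (y + y') / 2 = h y y / 2 + h y' y' / 2 + h y' y := by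
    simp only [map_add, LinearMap.add_apply, H.symm y y']
    have := H.two
    field_simp
    ring
  rw [sLin_apply, e1, e2, sLin_apply, sLin_apply, e3]
  simp only [map_add]
  module

theorem sLin_inv (H : OH h) {b y : V} (hb : h b b = 0) (hy : h b y = 0) (v : V) :
    sLin h b y (sLin h b (-y) v) = v := by
  rw [sLin_comp H hb hy (by simp [hy]), add_neg_cancel, sLin_zero]

theorem sLin_inv' (H : OH h) {b y : V} (hb : h b b = 0) (hy : h b y = 0) (v : V) :
    sLin h b (-y) (sLin h b y v) = v := by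
  rw [sLin_comp H hb (by simp [hy]) hy, neg_add_cancel, sLin_zero]

/-- The Siegel map as an equivalence. -/
noncomputable def sE (H : OH h) {b y : V} (hb : h b b = 0) (hy : h b y = 0) : V ≃ₗ[L] V :=
  LinearEquiv.ofLinearMap (sLin h b y) (sLin h b (-y))
    (LinearMap.ext fun v => sLin_inv H hb hy v) (LinearMap.ext fun v => sLin_inv' H hb hy v)

theorem sE_apply (H : OH h) {b y : V} (hb : h b b = 0) (hy : h b y = 0) (v : V) :
    sE H hb hy v = v + h v b • y - (h v y + (h y y / 2) * h v b) • b := sLin_apply b y v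

theorem sE_inv_apply (H : OH h) {b y : V} (hb : h b b = 0) (hy : h b y = 0) (v : V) :
    (sE H hb hy)⁻¹ v = sLin h b (-y) v := rfl

theorem sE_iso (H : OH h) {b y : V} (hb : h b b = 0) (hy : h b y = 0) : IsoL h (sE H hb hy) := by
  intro u v
  have hy1 : h y b = 0 := by rw [H.symm]; exact hy
  have e1 : h y u = h u y := H.symm _ _
  have e2 : h b v = h v b := H.symm _ _
  have e3 : h y v = h v y := H.symm _ _
  have hc : h y y / 2 + h y y / 2 = h y y := by
    have := H.two
    field_simp
    ring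
  rw [sE_apply, sE_apply]
  simp only [map_add, map_sub, map_smul, LinearMap.add_apply, LinearMap.sub_apply,
    LinearMap.smul_apply, smul_eq_mul, hb, hy, hy1, e1, e2, e3]
  linear_combination (- (h u b * h v b)) * hc

/-- Conjugating a Siegel map. -/
theorem sLin_conj {g : V ≃ₗ[L] V} (hg : IsoL h g) (b y v : V) :
    g (sLin h b y (g⁻¹ v)) = sLin h (g b) (g y) v := by
  rw [sLin_apply, sLin_apply, hg.adj, hg.adj, hg]
  simp only [map_add, map_sub, map_smul, inv_app]

/-- The reflection map. -/
noncomputable def rLin (h : LinearMap.BilinForm L V) (v : V) : V →ₗ[L] V :=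
  LinearMap.id - ((2 / h v v) • h.flip v).smulRight v

theorem rLin_apply (v x : V) : rLin h v x = x - ((2 / h v v) * h x v) • v := by
  simp [rLin]

theorem rLin_self {v : V} (hv : h v v ≠ 0) : rLin h v v = -v := by
  rw [rLin_apply, div_mul_cancel₀ _ hv, two_smul]
  abel

theorem rLin_perp {v x : V} (hx : h x v = 0) : rLin h v x = x := by
  simp [rLin_apply, hx]

theorem rLin_rLin (H : OH h) {v : V} (hv : h v v ≠ 0) (x : V) : rLin h v (rLin h v x) = x := by
  have e : h (rLin h v x) v = - h x v := by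
    rw [rLin_apply]
    simp only [map_sub, map_smul, LinearMap.sub_apply, LinearMap.smul_apply, smul_eq_mul]
    field_simp
    ring
  rw [rLin_apply _ (rLin h v x), e, rLin_apply]
  have : (2 / h v v) * -h x v = - ((2 / h v v) * h x v) := by ring
  rw [this, neg_smul]
  abel

/-- The reflection as an equivalence. -/
noncomputable def rE (H : OH h) {v : V} (hv : h v v ≠ 0) : V ≃ₗ[L] V :=
  LinearEquiv.ofLinearMap (rLin h v) (rLin h v)
    (LinearMap.ext fun x => rLin_rLin H hv x) (LinearMap.ext fun x => rLin_rLin H hv x)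

theorem rE_apply (H : OH h) {v : V} (hv : h v v ≠ 0) (x : V) : rE H hv x = rLin h v x := rfl
theorem rE_inv_apply (H : OH h) {v : V} (hv : h v v ≠ 0) (x : V) : (rE H hv)⁻¹ x = rLin h v x := rfl

theorem rE_iso (H : OH h) {v : V} (hv : h v v ≠ 0) : IsoL h (rE H hv) := by
  intro x y
  rw [rE_apply, rE_apply, rLin_apply, rLin_apply]
  have e : h v y = h y v := H.symm _ _
  simp only [map_sub, map_smul, LinearMap.sub_apply, LinearMap.smul_apply, smul_eq_mul, e]
  field_simp
  ring

/-- Conjugating a reflection. -/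
theorem rLin_conj {g : V ≃ₗ[L] V} (hg : IsoL h g) (v x : V) :
    g (rLin h v (g⁻¹ x)) = rLin h (g v) x := by
  rw [rLin_apply, rLin_apply, hg.adj, hg]
  simp only [map_sub, map_smul, inv_app]

end siegel

section overgroup

variable {F L V : Type*} [Field F] [Field L] [Algebra F L]
  [AddCommGroup V] [Module L V] [Module F V] [IsScalarTower F L V] {h : LinearMap.BilinForm L V}

/-- The overgroup hypothesis: all commutators of `L`-isometries lie in `X`. -/
def HO (h : LinearMap.BilinForm L V) (X : Subgroup (V ≃ₗ[F] V)) : Prop :=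
  ∀ g₁ g₂ : V ≃ₗ[L] V, IsoL h g₁ → IsoL h g₂ → toF (F := F) (g₁ * g₂ * g₁⁻¹ * g₂⁻¹) ∈ X

theorem half_add (H : OH h) (y : V) : (2 : L)⁻¹ • y + (2 : L)⁻¹ • y = y := by
  rw [← add_smul, ← two_mul, mul_inv_cancel₀ H.two, one_smul]

/-- Siegel maps with a non-singular second vector. -/
theorem sE_mem_ns (H : OH h) {X : Subgroup (V ≃ₗ[F] V)} (hX : HO h X) {b y : V} (hb : h b b = 0)
    (hy : h b y = 0) (hyy : h y y ≠ 0) : toF (F := F) (sE H hb hy) ∈ X := by
  have hy2 : h b (-(2 : L)⁻¹ • y) = 0 := by simp [hy]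
  have h1 := hX (rE H hyy) (sE H hb hy2) (rE_iso H hyy) (sE_iso H hb hy2)
  convert h1 using 1
  ext v
  simp only [toF_apply, LinearEquiv.mul_apply, LinearEquiv.restrictScalars_apply]
  rw [sE_inv_apply]
  set x := sLin h b (-(-(2 : L)⁻¹ • y)) v with hx
  have e1 : (rE H hyy) (sE H hb hy2 ((rE H hyy)⁻¹ x)) = sLin h ((rE H hyy) b) ((rE H hyy) (-(2 : L)⁻¹ • y)) x :=
    sLin_conj (rE_iso H hyy) b _ x
  rw [e1]
  have hyb : h b y = 0 := hy
  have e2 : (rE H hyy) b = b := by
    rw [rE_apply]
    exact rLin_perp hyb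
  have e3 : (rE H hyy) (-(2 : L)⁻¹ • y) = (2 : L)⁻¹ • y := by
    rw [map_smul, rE_apply, rLin_self hyy, smul_neg, neg_smul, neg_neg]
  have e4 : -(-(2 : L)⁻¹ • y) = (2 : L)⁻¹ • y := by rw [neg_smul, neg_neg]
  rw [e2, e3, hx, e4, sLin_comp H hb (by simp [hy]) (by simp [hy]), half_add H, sE_apply, sLin_apply]

/-- All Siegel maps. -/
theorem sE_mem (H : OH h) {X : Subgroup (V ≃ₗ[F] V)} (hX : HO h X) {b y w : V} (hb : h b b = 0)
    (hy : h b y = 0) (hw : h b w = 0) (hww : h w w ≠ 0) : toF (F := F) (sE H hb hy) ∈ X := by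
  by_cases hyy : h y y = 0
  · have hyw : h w y = h y w := H.symm _ _
    have hex : ∃ a : L, (a = 1 ∨ a = -1) ∧ h (y + a • w) (y + a • w) ≠ 0 := by
      by_contra hno
      push Not at hno
      have h1 := hno 1 (Or.inl rfl)
      have h2 := hno (-1) (Or.inr rfl)
      simp only [map_add, map_smul, LinearMap.add_apply, LinearMap.smul_apply, smul_eq_mul, hyy, hyw]
        at h1 h2
      apply hww
      have h3 : (2 : L) * h w w = 0 := by linear_combination h1 + h2
      exact (mul_eq_zero.mp h3).resolve_left H.two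
    obtain ⟨a, -, ha⟩ := hex
    have hy1 : h b (y + a • w) = 0 := by simp [hy, hw]
    have hy2 : h b (-(a • w)) = 0 := by simp [hw]
    have ha0 : h (-(a • w)) (-(a • w)) ≠ 0 := by
      intro h0
      apply ha
      have hw0 : a * a * h w w = 0 := by simpa using h0
      have hwy : a * h w y = h (y + a • w) (y + a • w) / 2 - a * a * h w w / 2 - h y y / 2 := by
        simp only [map_add, map_smul, LinearMap.add_apply, LinearMap.smul_apply, smul_eq_mul, hyw]
        have := H.two
        field_simp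
        ring
      by_cases ha1 : a = 0
      · subst ha1
        simp [hyy]
      have h4 : h w w = 0 := by
        have := (mul_eq_zero.mp hw0).resolve_left (mul_ne_zero ha1 ha1)
        exact this
      exact absurd h4 hww
    have h1 := sE_mem_ns H hX hb hy1 ha
    have h2 := sE_mem_ns H hX hb hy2 ha0
    have h3 := X.mul_mem h1 h2
    convert h3 using 1
    ext v
    simp only [toF_apply, LinearEquiv.mul_apply, LinearEquiv.restrictScalars_apply]
    change _ = sLin h b (y + a • w) (sLin h b (-(a • w)) v)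
    rw [sLin_comp H hb hy1 hy2, add_neg_cancel_right, sE_apply, sLin_apply]
  · exact sE_mem_ns H hX hb hy hyy

/-- The Siegel maps lie in `X` once the space is big enough. -/
theorem sE_mem' [Module.Finite L V] (H : OH h) {X : Subgroup (V ≃ₗ[F] V)} (hX : HO h X)
    (hd : 3 ≤ finrank L V) {b y : V} (hb : h b b = 0) (hy : h b y = 0) :
    toF (F := F) (sE H hb hy) ∈ X := by
  by_cases hb0 : b = 0
  · subst hb0
    convert X.one_mem using 1
    ext v
    simp [sE_apply]
  · obtain ⟨w, hw, hww⟩ := exists_perp_nonsing H hb0 hb hd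
    exact sE_mem H hX hb hy hw hww

/-- Products of reflections in vectors of equal norm. -/
theorem rr_mem (H : OH h) {X : Subgroup (V ≃ₗ[F] V)} (hX : HO h X) {v v' : V} (hv : h v v ≠ 0)
    (hv' : h v' v' ≠ 0) (hn : h v v = h v' v') : toF (F := F) (rE H hv * rE H hv') ∈ X := by
  have hs : h v v' = h v' v := H.symm _ _
  have hw : h (v - v') (v - v') ≠ 0 ∨ h (v + v') (v + v') ≠ 0 := by
    by_contra hno
    push Not at hno
    obtain ⟨h1, h2⟩ := hno
    simp only [map_sub, map_add, LinearMap.sub_apply, LinearMap.add_apply, hs] at h1 h2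
    apply hv
    have h3 : (2 : L) * ((2 : L) * h v v) = 0 := by linear_combination h1 + h2 + 2 * hn
    exact (mul_eq_zero.mp ((mul_eq_zero.mp h3).resolve_left H.two)).resolve_left H.two
  rcases hw with hw | hw
  · have h1 := hX (rE H hv) (rE H hw) (rE_iso H hv) (rE_iso H hw)
    convert h1 using 1
    ext x
    simp only [toF_apply, LinearEquiv.mul_apply, LinearEquiv.restrictScalars_apply]
    congr 1
    rw [rE_apply, rE_inv_apply, rE_inv_apply]
    have e1 := rLin_conj (rE_iso H hw) v x
    rw [rE_inv_apply] at e1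
    rw [e1, rE_apply]
    have e2 : rLin h (v - v') v = v' := by
      rw [rLin_apply]
      have e3 : h v (v - v') = h v v - h v v' := by simp
      have e4 : h (v - v') (v - v') = (2 : L) * (h v v - h v v') := by
        simp only [map_sub, LinearMap.sub_apply, hs, ← hn]
        ring
      rw [e3, e4]
      have h0 : h v v - h v v' ≠ 0 := by
        intro h0
        apply hw
        rw [e4, h0, mul_zero]
      have e5 : 2 / (2 * (h v v - h v v')) * (h v v - h v v') = 1 := by
        have := H.two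
        field_simp
      rw [e5, one_smul]
      abel
    rw [e2]
  · have h1 := hX (rE H hv) (rE H hw) (rE_iso H hv) (rE_iso H hw)
    convert h1 using 1
    ext x
    simp only [toF_apply, LinearEquiv.mul_apply, LinearEquiv.restrictScalars_apply]
    congr 1
    rw [rE_apply, rE_inv_apply, rE_inv_apply]
    have e1 := rLin_conj (rE_iso H hw) v x
    rw [rE_inv_apply] at e1
    rw [e1, rE_apply]
    have e2 : rLin h (v + v') v = -v' := by
      rw [rLin_apply]
      have e3 : h v (v + v') = h v v + h v v' := by simp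
      have e4 : h (v + v') (v + v') = (2 : L) * (h v v + h v v') := by
        simp only [map_add, LinearMap.add_apply, hs, ← hn]
        ring
      rw [e3, e4]
      have h0 : h v v + h v v' ≠ 0 := by
        intro h0
        apply hw
        rw [e4, h0, mul_zero]
      have e5 : 2 / (2 * (h v v + h v v')) * (h v v + h v v') = 1 := by
        have := H.two
        field_simp
      rw [e5, one_smul]
      abel
    rw [e2]
    have e6 : rLin h (-v') x = rLin h v' x := by
      simp [rLin_apply]
    rw [e6]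

/-- The torus map. -/
noncomputable def tLin (h : LinearMap.BilinForm L V) (b z : V) (e e' : L) : V →ₗ[L] V :=
  LinearMap.id + ((e - 1) • h.flip z).smulRight b + ((e' - 1) • h.flip b).smulRight z

theorem tLin_apply (b z : V) (e e' : L) (v : V) :
    tLin h b z e e' v = v + ((e - 1) * h v z) • b + ((e' - 1) * h v b) • z := by
  simp [tLin]

theorem tLin_comp (H : OH h) {b z : V} (hb : h b b = 0) (hz : h z z = 0) (hbz : h b z = 1)
    (e e' a a' : L) (v : V) :
    tLin h b z e e' (tLin h b z a a' v) = tLin h b z (e * a) (e' * a') v := by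
  have hzb : h z b = 1 := by rw [H.symm]; exact hbz
  have e1 : h (tLin h b z a a' v) z = a * h v z := by
    simp [tLin_apply, hz, hbz]
    ring
  have e2 : h (tLin h b z a a' v) b = a' * h v b := by
    simp [tLin_apply, hb, hzb]
    ring
  rw [tLin_apply _ _ _ _ (tLin h b z a a' v), e1, e2, tLin_apply, tLin_apply]
  module

/-- The torus as an equivalence. -/
noncomputable def tE (H : OH h) {b z : V} (hb : h b b = 0) (hz : h z z = 0) (hbz : h b z = 1) {e : L}
    (he : e ≠ 0) : V ≃ₗ[L] V :=
  LinearEquiv.ofLinearMap (tLin h b z e e⁻¹) (tLin h b z e⁻¹ e)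
    (LinearMap.ext fun v => by
      simp only [LinearMap.comp_apply, LinearMap.id_apply]
      rw [tLin_comp H hb hz hbz, mul_inv_cancel₀ he, inv_mul_cancel₀ he, tLin_apply]
      simp)
    (LinearMap.ext fun v => by
      simp only [LinearMap.comp_apply, LinearMap.id_apply]
      rw [tLin_comp H hb hz hbz, mul_inv_cancel₀ he, inv_mul_cancel₀ he, tLin_apply]
      simp)

theorem tE_apply (H : OH h) {b z : V} (hb : h b b = 0) (hz : h z z = 0) (hbz : h b z = 1) {e : L}
    (he : e ≠ 0) (v : V) : tE H hb hz hbz he v = v + ((e - 1) * h v z) • b + ((e⁻¹ - 1) * h v b) • z :=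
  tLin_apply b z e e⁻¹ v

theorem tE_inv_apply (H : OH h) {b z : V} (hb : h b b = 0) (hz : h z z = 0) (hbz : h b z = 1) {e : L}
    (he : e ≠ 0) (v : V) : (tE H hb hz hbz he)⁻¹ v = tLin h b z e⁻¹ e v := rfl

theorem tE_iso (H : OH h) {b z : V} (hb : h b b = 0) (hz : h z z = 0) (hbz : h b z = 1) {e : L}
    (he : e ≠ 0) : IsoL h (tE H hb hz hbz he) := by
  intro u v
  have hzb : h z b = 1 := by rw [H.symm]; exact hbz
  have e1 : h b v = h v b := H.symm _ _
  have e2 : h z v = h v z := H.symm _ _
  rw [tE_apply, tE_apply]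
  simp only [map_add, map_smul, LinearMap.add_apply, LinearMap.smul_apply, smul_eq_mul, hb, hz, hbz, hzb,
    e1, e2]
  have : e * e⁻¹ = 1 := mul_inv_cancel₀ he
  linear_combination (h u b * h v z + h u z * h v b) * this

theorem tE_eq (H : OH h) {b z : V} (hb : h b b = 0) (hz : h z z = 0) (hbz : h b z = 1) {e : L}
    (he : e ≠ 0) (v : V) : tE H hb hz hbz he v = tLin h b z e e⁻¹ v := rfl

theorem rSwap (H : OH h) {b z : V} (hb : h b b = 0) (hz : h z z = 0) (hbz : h b z = 1) (x : V) :
    rLin h (b - z) x = x + (h x b - h x z) • (b - z) := by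
  have hzb : h z b = 1 := by rw [H.symm]; exact hbz
  rw [rLin_apply]
  have e1 : h (b - z) (b - z) = -2 := by
    simp only [map_sub, LinearMap.sub_apply, hb, hz, hbz, hzb]
    ring
  have e2 : h x (b - z) = h x b - h x z := by simp
  have e3 : 2 / (-2 : L) = -1 := by
    have := H.two
    field_simp
  rw [e1, e2, e3, neg_one_mul, neg_smul, sub_neg_eq_add]

theorem tLin_swap (H : OH h) {b z : V} (hb : h b b = 0) (hz : h z z = 0) (hbz : h b z = 1) (a a' : L) (x : V) :
    rLin h (b - z) (tLin h b z a a' (rLin h (b - z) x)) = tLin h b z a' a x := by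
  have hzb : h z b = 1 := by rw [H.symm]; exact hbz
  simp only [rSwap H hb hz hbz, tLin_apply, map_add, map_sub, map_smul, LinearMap.add_apply,
    LinearMap.sub_apply, LinearMap.smul_apply, smul_eq_mul, hb, hz, hbz, hzb]
  module

/-- Squares in the torus lie in `X`. -/
theorem tE_sq_mem (H : OH h) {X : Subgroup (V ≃ₗ[F] V)} (hX : HO h X) {b z : V} (hb : h b b = 0)
    (hz : h z z = 0) (hbz : h b z = 1) {e : L} (he : e ≠ 0) :
    toF (F := F) (tE H hb hz hbz (mul_ne_zero he he)) ∈ X := by
  have hzb : h z b = 1 := by rw [H.symm]; exact hbz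
  have hn : h (b - z) (b - z) ≠ 0 := by
    simp only [map_sub, LinearMap.sub_apply, hb, hz, hbz, hzb]
    have := H.two
    intro h0
    apply this
    linear_combination -h0
  have h1 := hX (rE H hn) (tE H hb hz hbz (inv_ne_zero he)) (rE_iso H hn) (tE_iso H hb hz hbz _)
  convert h1 using 1
  ext v
  simp only [toF_apply, LinearEquiv.mul_apply, LinearEquiv.restrictScalars_apply]
  rw [tE_inv_apply, rE_inv_apply, rE_apply, tE_eq, tE_eq, tLin_swap H hb hz hbz, tLin_comp H hb hz hbz,
    inv_inv, mul_inv]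

end overgroup

end Cfsg.Agent.H28.XA
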