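import Mathlib
import Cfsg.Agent.H28.XA
import Cfsg.Agent.Lib.ExtSpB

/-!
# Singular lines: transitivity, maps preserving all singular lines, and the start of the maximality argument
-/

set_option autoImplicit false
set_option linter.unusedSectionVars false
set_option linter.unusedSimpArgs false
set_option linter.unusedVariables false
set_option linter.style.haveILetI false

namespace Cfsg.Agent.H28.XB

open Module Cfsg.Agent.Lib.ExtA Cfsg.Agent.Lib.ExtB Cfsg.Agent.H28.XA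

section scalar

variable {L V : Type*} [Field L] [AddCommGroup V] [Module L V] {h : LinearMap.BilinForm L V}

theorem alg1 {c e₁ e₂ κ m x x₂ : L} (h2 : (2 : L) ≠ 0) (hκ : κ ≠ 0) (hm : m ≠ 0) (hx : x ≠ 0)
    (h3 : κ * (2 * e₂) = c * e₁) (h7 : x₂ = x * (κ * m ^ 2)) (h6 : x₂ - x = e₁) :
    -((m * x) ^ 2 * c) / (2 * x₂) - (-((m * x) ^ 2 * c) / (2 * x)) = e₂ := by
  subst h7
  have e : -((m * x) ^ 2 * c) / (2 * (x * (κ * m ^ 2))) = -(x * c) / (2 * κ) := by
    field_simp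
  have e' : -((m * x) ^ 2 * c) / (2 * x) = -(m ^ 2 * x * c) / 2 := by
    field_simp
  rw [e, e']
  field_simp
  linear_combination c * h6 - h3

theorem S1 (H : OH h) {θ : L} (hθ0 : θ ≠ 0) (hθ1 : θ ≠ 1) (hθ2 : θ ≠ -1) (A : V →+ V)
    (hA : ∀ v, h v v = 0 → ∃ μ : L, A v = μ • v) {b z w : V} (hb : h b b = 0) (hz : h z z = 0)
    (hbz : h b z = 1) (hwb : h w b = 0) (hwz : h w z = 0) (hww : h w w ≠ 0) {e₁ e₂ : L} (he₁ : e₁ ≠ 0)
    (he₂ : e₂ ≠ 0) {μ₁ μ₂ : L} (h1 : A (e₁ • b) = μ₁ • (e₁ • b)) (h2 : A (e₂ • z) = μ₂ • (e₂ • z)) :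
    μ₁ = μ₂ := by
  have h20 := H.two
  have hzb : h z b = 1 := by rw [H.symm]; exact hbz
  have hbw : h b w = 0 := by rw [H.symm]; exact hwb
  have hzw : h z w = 0 := by rw [H.symm]; exact hwz
  set c := h w w with hc
  set κ₀ := c * e₁ / (2 * e₂) with hκ₀
  have hκ₀0 : κ₀ ≠ 0 := div_ne_zero (mul_ne_zero hww he₁) (mul_ne_zero h20 he₂)
  obtain ⟨m, hm0, hm⟩ : ∃ m : L, m ≠ 0 ∧ κ₀ * m ^ 2 - 1 ≠ 0 := by
    by_cases h3 : κ₀ * 1 ^ 2 - 1 = 0
    · refine ⟨θ, hθ0, fun h4 => ?_⟩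
      have h5 : κ₀ = 1 := by linear_combination h3
      rw [h5] at h4
      have h6 : (θ - 1) * (θ + 1) = 0 := by linear_combination h4
      rcases mul_eq_zero.mp h6 with h7 | h7
      · exact hθ1 (sub_eq_zero.mp h7)
      · exact hθ2 (eq_neg_of_add_eq_zero_left h7)
    · exact ⟨1, one_ne_zero, h3⟩
  set D := κ₀ * m ^ 2 - 1 with hD
  set x := e₁ / D with hx
  have hx0 : x ≠ 0 := div_ne_zero he₁ hm
  have hxD : x * D = e₁ := div_mul_cancel₀ _ hm
  set x₂ := x + e₁ with hx₂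
  have hx₂e : x₂ = x * (κ₀ * m ^ 2) := by
    rw [hx₂, ← hxD, hD]
    ring
  have hx₂0 : x₂ ≠ 0 := by
    rw [hx₂e]
    exact mul_ne_zero hx0 (mul_ne_zero hκ₀0 (pow_ne_zero _ hm0))
  set a := m * x with ha
  have ha0 : a ≠ 0 := mul_ne_zero hm0 hx0
  set β' := - (a ^ 2 * c) / (2 * x) with hβ'
  set β := - (a ^ 2 * c) / (2 * x₂) with hβ
  have hββ : β = e₂ + β' := by
    have h3 : κ₀ * (2 * e₂) = c * e₁ := div_mul_cancel₀ _ (mul_ne_zero h20 he₂)
    have h6 : x₂ - x = e₁ := by rw [hx₂]; ring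
    have h4 := alg1 h20 hκ₀0 hm0 hx0 h3 hx₂e h6
    rw [hβ, hβ', ha]
    linear_combination h4
  set v₃ := x • b + β' • z + a • w with hv₃
  set v := x₂ • b + β • z + a • w with hv
  have hv₃s : h v₃ v₃ = 0 := by
    simp only [hv₃, map_add, map_smul, LinearMap.add_apply, LinearMap.smul_apply, smul_eq_mul, hb, hz,
      hbz, hzb, hwb, hwz, hbw, hzw, ← hc]
    rw [hβ']
    field_simp
    try ring
  have hvs : h v v = 0 := by
    simp only [hv, map_add, map_smul, LinearMap.add_apply, LinearMap.smul_apply, smul_eq_mul, hb, hz,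
      hbz, hzb, hwb, hwz, hbw, hzw, ← hc]
    rw [hβ]
    field_simp
    try ring
  obtain ⟨μ₃, h3⟩ := hA v₃ hv₃s
  obtain ⟨μ, h4⟩ := hA v hvs
  have hdec : v = e₁ • b + e₂ • z + v₃ := by
    rw [hv, hv₃, hββ, hx₂]
    module
  have h5 : μ • v = μ₁ • (e₁ • b) + μ₂ • (e₂ • z) + μ₃ • v₃ := by
    rw [← h4, hdec, map_add, map_add, h1, h2, h3]
  have e1 : ∀ u, h (μ • v) u = h (μ₁ • (e₁ • b) + μ₂ • (e₂ • z) + μ₃ • v₃) u := fun u => by rw [h5]
  have h6 := e1 w
  have h7 := e1 z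
  simp only [hv, hv₃, map_add, map_smul, LinearMap.add_apply, LinearMap.smul_apply, smul_eq_mul, hb, hz,
    hbz, hzb, hwb, hwz, hbw, hzw, ← hc] at h6 h7
  have hμ3 : μ = μ₃ := by
    have h8 : (μ - μ₃) * (a * c) = 0 := by linear_combination h6
    have := (mul_eq_zero.mp h8).resolve_right (mul_ne_zero ha0 hww)
    exact sub_eq_zero.mp this
  have hμ1 : μ = μ₁ := by
    have h8 : (μ - μ₁) * e₁ = 0 := by
      rw [← hμ3] at h7
      rw [hx₂] at h7
      linear_combination h7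
    exact sub_eq_zero.mp ((mul_eq_zero.mp h8).resolve_right he₁)
  have h9 := e1 b
  simp only [hv, hv₃, map_add, map_smul, LinearMap.add_apply, LinearMap.smul_apply, smul_eq_mul, hb, hz,
    hbz, hzb, hwb, hwz, hbw, hzw, ← hc] at h9
  have hμ2 : μ = μ₂ := by
    have h8 : (μ - μ₂) * e₂ = 0 := by
      rw [← hμ3] at h9
      rw [hββ] at h9
      linear_combination h9
    exact sub_eq_zero.mp ((mul_eq_zero.mp h8).resolve_right he₂)
  rw [← hμ1, ← hμ2]

/-- An additive map with all singular vectors as eigenvectors is a scalar. -/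
theorem scalar_of_sing [Module.Finite L V] [Finite L] (H : OH h) (hd : 3 ≤ finrank L V) {θ : L} (hθ0 : θ ≠ 0)
    (hθ1 : θ ≠ 1) (hθ2 : θ ≠ -1) (A : V →+ V) (hA : ∀ v, h v v = 0 → ∃ μ : L, A v = μ • v) :
    ∃ μ : L, ∀ v, A v = μ • v := by
  obtain ⟨b₀, -, hb₀0, hb₀⟩ := exists_sing H (nds_top H) (S := ⊤) (by rwa [finrank_top])
  have hT : ∀ {b b' : V} {μ : L}, b ≠ 0 → b' ≠ 0 → h b b = 0 → h b' b' = 0 → h b b' ≠ 0 → A b = μ • b → A b' = μ • b' := by
    intro b b' μ hb0 hb'0 hb hb' hbb' hμ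
    obtain ⟨μ', hμ'⟩ := hA b' hb'
    set κ := h b b' with hκ
    have hbz : h b (κ⁻¹ • b') = 1 := by simp [← hκ, hbb']
    have hz : h (κ⁻¹ • b') (κ⁻¹ • b') = 0 := by simp [hb']
    obtain ⟨w, h1, h2, h3⟩ := exists_J2_nonsing H hb hz hbz hd
    have e : κ • (κ⁻¹ • b') = b' := by rw [smul_smul, mul_inv_cancel₀ hbb', one_smul]
    have := S1 H hθ0 hθ1 hθ2 A hA hb hz hbz h1 h2 h3 (e₁ := 1) (e₂ := κ) one_ne_zero hbb' (μ₁ := μ) (μ₂ := μ')
      (by rw [one_smul, hμ]) (by rw [e, hμ'])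
    rw [this]
    exact hμ'
  obtain ⟨μ₀, hμ₀⟩ := hA b₀ hb₀
  refine ⟨μ₀, ?_⟩
  have hS : ∀ v, h v v = 0 → A v = μ₀ • v := by
    intro v hv
    by_cases hv0 : v = 0
    · simp [hv0]
    obtain ⟨u, hu, hu1, hu2⟩ := exists_opp2 H hb₀0 hv0 hb₀ hv hd
    have hu0 : u ≠ 0 := by
      rintro rfl
      simp at hu1
    have h1 : A u = μ₀ • u := hT hb₀0 hu0 hb₀ hu (by rw [H.symm]; exact hu1) hμ₀
    exact hT hu0 hv0 hu hv hu2 h1
  obtain ⟨z₀, hz₀, hbz₀⟩ := exists_partner H hb₀0 hb₀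
  have hN : ∀ v, h v b₀ ≠ 0 → A v = μ₀ • v := by
    intro v hv
    set t := h v v / (2 * h v b₀) with ht
    have h20 := H.two
    have hbv : h b₀ v = h v b₀ := H.symm _ _
    have h1 : h (v - t • b₀) (v - t • b₀) = 0 := by
      simp only [map_sub, map_smul, LinearMap.sub_apply, LinearMap.smul_apply, smul_eq_mul, hb₀, hbv]
      rw [ht]
      field_simp
      ring
    have h2 : h (t • b₀) (t • b₀) = 0 := by simp [hb₀]
    have e : v = (v - t • b₀) + t • b₀ := by abel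
    rw [e, map_add, hS _ h1, hS _ h2]
    simp only [smul_sub, smul_add]
    try abel
  intro v
  by_cases hv : h v b₀ = 0
  · have hzb : h z₀ b₀ = 1 := by rw [H.symm]; exact hbz₀
    have h1 : h (v + z₀) b₀ ≠ 0 := by simp [hv, hzb]
    have e : v = (v + z₀) + (- z₀) := by abel
    have h2 : h (-z₀) (-z₀) = 0 := by simp [hz₀]
    rw [e, map_add, hN _ h1, hS _ h2]
    simp only [smul_add, smul_neg]
    try abel
  · exact hN v hv

end scalar

section lines

variable {F L V : Type*} [Field F] [Field L] [Algebra F L]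
  [AddCommGroup V] [Module L V] [Module F V] [IsScalarTower F L V] {h : LinearMap.BilinForm L V}
  [Module.Finite L V]

/-- Transitivity on singular lines. -/
theorem exists_line_trans (H : OH h) {X : Subgroup (V ≃ₗ[F] V)} (hX : HO h X) (hd : 3 ≤ finrank L V) {b b' : V}
    (hb0 : b ≠ 0) (hb'0 : b' ≠ 0) (hb : h b b = 0) (hb' : h b' b' = 0) :
    ∃ σ : V ≃ₗ[L] V, IsoL h σ ∧ toF (F := F) σ ∈ X ∧ ∃ c : L, c ≠ 0 ∧ σ b = c • b' := by
  obtain ⟨v, hv, h1, h2⟩ := exists_opp2 H hb0 hb'0 hb hb' hd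
  have h20 := H.two
  set κ := h v b with hκ
  set κ' := h v b' with hκ'
  set c := κ / κ' with hc
  have hc0 : c ≠ 0 := div_ne_zero h1 h2
  set y := κ⁻¹ • (c • b' - b) with hy
  have hvy : h v y = 0 := by
    simp only [hy, map_smul, map_sub, smul_eq_mul, ← hκ, ← hκ']
    rw [hc]
    field_simp
    ring
  refine ⟨sE H hv hvy, sE_iso H hv hvy, sE_mem' H hX hd hv hvy, c, hc0, ?_⟩
  rw [sE_apply]
  have e1 : h b v = κ := H.symm _ _
  have e2 : κ • y = c • b' - b := by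
    rw [hy, smul_smul, mul_inv_cancel₀ h1, one_smul]
  have e3 : h b y + h y y / 2 * h b v = 0 := by
    have e4 : h b' b = h b b' := H.symm _ _
    rw [e1]
    simp only [hy, map_smul, map_sub, LinearMap.smul_apply, LinearMap.sub_apply, smul_eq_mul, hb, hb',
      e4]
    field_simp
    ring
  rw [e3, e1, e2]
  simp

theorem finrank_lin {c : V} (hc : c ≠ 0) : finrank F ↥(lin F L c) = finrank F L := by
  symm
  apply LinearEquiv.finrank_eq
  refine LinearEquiv.ofBijective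
    { toFun := fun a => ⟨a • c, mem_lin.mpr ⟨a, rfl⟩⟩
      map_add' := fun a a' => Subtype.ext (add_smul _ _ _)
      map_smul' := fun e a => Subtype.ext (by simp) } ⟨?_, ?_⟩
  · intro a a' haa
    have h1 : a • c = a' • c := congrArg (fun z : lin F L c => z.1) haa
    have h2 : (a - a') • c = 0 := by rw [sub_smul, h1, sub_self]
    exact sub_eq_zero.mp ((smul_eq_zero.mp h2).resolve_right hc)
  · rintro ⟨y, hy⟩
    obtain ⟨a, rfl⟩ := mem_lin.mp hy
    exact ⟨a, rfl⟩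

theorem sE_toF_apply (H : OH h) {b y : V} (hb : h b b = 0) (hy : h b y = 0) (v : V) :
    toF (F := F) (sE H hb hy) v = v + h v b • y - (h v y + (h y y / 2) * h v b) • b := sE_apply H hb hy v

/-- If every image of a singular line under `X` is a line then `X` consists of semilinear maps. -/
theorem exists_not_line [Finite L] (H : OH h) {X : Subgroup (V ≃ₗ[F] V)} (hX : HO h X) (hd : 3 ≤ finrank L V)
    {θ : L} (hθ0 : θ ≠ 0) (hθ1 : θ ≠ 1) (hθ2 : θ ≠ -1) {x : V ≃ₗ[F] V} (hxX : x ∈ X) (hS : ¬ Semi (L := L) x)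
    {b : V} (hb0 : b ≠ 0) (hb : h b b = 0) : ∃ g ∈ X, ∀ c : V, Wg F L b g ≠ lin F L c := by
  by_contra hno
  push Not at hno
  apply hS
  intro c
  let A : V →+ V :=
    { toFun := fun v => x (c • x⁻¹ v)
      map_zero' := by simp
      map_add' := fun u w => by simp [smul_add] }
  have hA : ∀ v, h v v = 0 → ∃ μ : L, A v = μ • v := by
    intro v hv
    by_cases hv0 : v = 0
    · exact ⟨0, by simp [hv0, A]⟩
    obtain ⟨σ, -, hσ, c', hc', hσb⟩ := exists_line_trans H hX hd hv0 hb0 hv hb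
    obtain ⟨σ', -, hσ', c'', hc'', hσ'b⟩ := exists_line_trans H hX hd hb0 hv0 hb hv
    obtain ⟨d, hd1⟩ := hno (x⁻¹ * toF σ') (X.mul_mem (X.inv_mem hxX) hσ')
    have h1 : x⁻¹ v ∈ lin F L d := by
      rw [← hd1]
      refine mem_Wg.mpr ⟨c''⁻¹, ?_⟩
      simp only [LinearEquiv.mul_apply, toF_apply, map_smul, hσ'b, smul_smul, inv_mul_cancel₀ hc'', one_smul]
    obtain ⟨e, he⟩ := mem_lin.mp h1
    have h2 : c • x⁻¹ v ∈ Wg F L b (x⁻¹ * toF σ') := by
      rw [hd1, ← he, smul_smul]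
      exact smul_mem_lin d _
    obtain ⟨a, ha⟩ := mem_Wg.mp h2
    refine ⟨a * c'', ?_⟩
    change x (c • x⁻¹ v) = _
    rw [← ha]
    simp only [LinearEquiv.mul_apply, toF_apply, map_smul, hσ'b, inv_app, smul_smul]
  obtain ⟨μ, hμ⟩ := scalar_of_sing H hd hθ0 hθ1 hθ2 A hA
  refine ⟨μ, fun v => ?_⟩
  have := hμ (x v)
  change x (c • x⁻¹ (x v)) = _ at this
  rwa [app_inv] at this

/-- The start of the maximality argument. -/
theorem exists_start [Finite L] [Module.Finite F L] [Module.Finite F V] (H : OH h) {X : Subgroup (V ≃ₗ[F] V)}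
    (hX : HO h X) (hd : 4 ≤ finrank L V) {g₀ : V ≃ₗ[F] V} (hg₀ : g₀ ∈ X) {b : V} (hb0 : b ≠ 0) (hb : h b b = 0)
    (hne : ∀ c : V, Wg F L b g₀ ≠ lin F L c) :
    ∃ g ∈ X, Wg F L b g ≠ lin F L b ∧ ∃ κ : L, κ ≠ 0 ∧ κ • b ∈ Wg F L b g := by
  have hd3 : 3 ≤ finrank L V := by omega
  set W₀ := Wg F L b g₀ with hW₀
  by_cases hs : ∃ w ∈ W₀, w ≠ 0 ∧ h w w = 0
  · obtain ⟨w, hw, hw0, hww⟩ := hs
    obtain ⟨σ, hσi, hσ, c, hc, hσw⟩ := exists_line_trans H hX hd3 hw0 hb0 hww hb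
    refine ⟨toF σ * g₀, X.mul_mem hσ hg₀, ?_, c, hc, ?_⟩
    · intro heq
      apply hne (σ⁻¹ b)
      ext y
      constructor
      · intro hy
        have h1 : (toF (F := F) σ * g₀) ((g₀⁻¹ y)) ∈ lin F L b := by
          rw [← heq]
          obtain ⟨a, ha⟩ := mem_Wg.mp hy
          refine mem_Wg.mpr ⟨a, ?_⟩
          simp only [LinearEquiv.mul_apply, toF_apply, inv_app, ha]
        obtain ⟨a, ha⟩ := mem_lin.mp h1
        refine mem_lin.mpr ⟨a, ?_⟩
        simp only [LinearEquiv.mul_apply, toF_apply, inv_app] at ha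
        rw [← map_smul, ha]
        exact app_inv σ y
      · intro hy
        obtain ⟨a, rfl⟩ := mem_lin.mp hy
        have h1 : a • b ∈ Wg F L b (toF (F := F) σ * g₀) := by
          rw [heq]
          exact smul_mem_lin b a
        obtain ⟨a', ha'⟩ := mem_Wg.mp h1
        refine mem_Wg.mpr ⟨a', ?_⟩
        simp only [LinearEquiv.mul_apply, toF_apply] at ha'
        rw [← map_smul, ← ha']
        exact (app_inv σ _).symm
    · obtain ⟨a, ha⟩ := mem_Wg.mp hw
      refine mem_Wg.mpr ⟨a, ?_⟩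
      simp only [LinearEquiv.mul_apply, toF_apply, ha, hσw]
  · push Not at hs
    have hw1 : g₀ b ∈ W₀ := mem_Wg.mpr ⟨1, by rw [one_smul]⟩
    set w₁ := g₀ b with hw₁
    have hw10 : w₁ ≠ 0 := by simpa [hw₁] using hb0
    have h11 : h w₁ w₁ ≠ 0 := hs w₁ hw1 hw10
    obtain ⟨w₂, hw₂, hw₂n⟩ : ∃ w₂ ∈ W₀, w₂ ∉ lin F L w₁ := by
      by_contra hno
      push Not at hno
      apply hne w₁
      apply Submodule.eq_of_le_of_finrank_eq hno
      rw [hW₀, lin_finrank_eq, finrank_lin hb0, finrank_lin hw10]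
    set τ := h w₂ w₁ / h w₁ w₁ with hτ
    set y := w₂ - τ • w₁ with hy
    have hy1 : h y w₁ = 0 := by
      simp only [hy, map_sub, map_smul, LinearMap.sub_apply, LinearMap.smul_apply, smul_eq_mul]
      rw [hτ]
      field_simp
      ring
    have hy0 : y ≠ 0 := by
      intro h0
      apply hw₂n
      have : w₂ = τ • w₁ := sub_eq_zero.mp h0
      rw [this]
      exact smul_mem_lin _ _
    have hy1' : h w₁ y = 0 := by rw [H.symm]; exact hy1
    -- the singular vector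
    have hN := nds_pp H (nds_top H) (S := ⊤) (e := w₁) trivial h11
    have hNd := finrank_pp (h := h) (⊤ : Submodule L V) w₁
    rw [finrank_top] at hNd
    have hyN : y ∈ pp h ⊤ w₁ := mem_pp.mpr ⟨trivial, hy1⟩
    obtain ⟨b₁, hb₁N, hb₁, hb₁y⟩ : ∃ b₁ ∈ pp h ⊤ w₁, h b₁ b₁ = 0 ∧ h y b₁ ≠ 0 := by
      by_cases hyy : h y y = 0
      · obtain ⟨u, huN, hu⟩ := hN y hyN hy0
        set u' := (h y u)⁻¹ • u with hu'
        have huy : h y u' = 1 := by simp [hu', hu]
        have huy' : h u' y = 1 := by rw [H.symm]; exact huy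
        have h20 := H.two
        refine ⟨u' - (h u' u' / 2) • y, (pp h ⊤ w₁).sub_mem ((pp h ⊤ w₁).smul_mem _ huN)
          ((pp h ⊤ w₁).smul_mem _ hyN), ?_, ?_⟩
        · simp only [map_sub, map_smul, LinearMap.sub_apply, LinearMap.smul_apply, smul_eq_mul, hyy, huy, huy']
          field_simp
          ring
        · simp only [map_sub, map_smul, smul_eq_mul, hyy, huy]
          simp
      · have hS := nds_pp H hN hyN hyy
        have hSd := finrank_pp (h := h) (pp h ⊤ w₁) y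
        obtain ⟨u, hu, huu⟩ := exists_norm H hS (by omega) (- h y y)
        obtain ⟨hu1, hu2⟩ := mem_pp.mp hu
        have hu3 : h y u = 0 := by rw [H.symm]; exact hu2
        refine ⟨y + u, (pp h ⊤ w₁).add_mem hyN hu1, ?_, ?_⟩
        · simp only [map_add, LinearMap.add_apply, hu2, hu3, huu]
          ring
        · simp only [map_add, hu3, add_zero]
          exact hyy
    have hb₁w : h b₁ w₁ = 0 := (mem_pp.mp hb₁N).2
    have hw₁b₁ : h w₁ b₁ = 0 := by rw [H.symm]; exact hb₁w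
    -- the perpendicular vector
    obtain ⟨c, hcm, hc0⟩ : ∃ c ∈ pp h (pp h (pp h ⊤ w₁) b₁) y, c ≠ 0 := by
      have h1 := finrank_pp (h := h) (pp h ⊤ w₁) b₁
      have h2 := finrank_pp (h := h) (pp h (pp h ⊤ w₁) b₁) y
      exact exists_ne_of_finrank (by omega)
    obtain ⟨hc1, hcy⟩ := mem_pp.mp hcm
    obtain ⟨hc2, hcb⟩ := mem_pp.mp hc1
    obtain ⟨-, hcw⟩ := mem_pp.mp hc2
    have hcb' : h b₁ c = 0 := by rw [H.symm]; exact hcb
    have hyc : h y c = 0 := by rw [H.symm]; exact hcy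
    have hwc : h w₁ c = 0 := by rw [H.symm]; exact hcw
    set κ := h y b₁ with hκ
    have hta : ∀ a : L, h b₁ (a • c) = 0 := fun a => by simp [hcb']
    by_cases hall : ∀ a : L, (toF (F := F) (sE H hb₁ (hta a))) w₂ ∈ W₀
    · -- a singular vector in W₀
      exfalso
      have hE : ∀ a : L, (κ * a) • c - (a ^ 2 * h c c / 2 * κ) • b₁ ∈ W₀ := by
        intro a
        have h1 := W₀.sub_mem (hall a) hw₂
        convert h1 using 1
        rw [sE_toF_apply]
        have e1 : h w₂ b₁ = κ := by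
          simp only [hκ, hy, map_sub, map_smul, LinearMap.sub_apply, LinearMap.smul_apply, smul_eq_mul,
            hw₁b₁, mul_zero, sub_zero]
        have e2 : h w₂ (a • c) = 0 := by
          have e3 : w₂ = y + τ • w₁ := by rw [hy]; abel
          rw [e3]
          simp [hyc, hwc]
        rw [e1, e2]
        simp only [map_smul, LinearMap.smul_apply, smul_eq_mul]
        have e4 : h c (a • c) = a * h c c := by simp
        have e5 : (a * (a * h c c) / 2 * κ) = (a ^ 2 * h c c / 2 * κ) := by ring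
        simp only [zero_add, e5]
        module
      by_cases hcc : h c c = 0
      · have h1 := hE 1
        simp only [hcc, mul_zero, zero_div, zero_mul, zero_smul, sub_zero, mul_one] at h1
        have h2 := hs _ h1 (smul_ne_zero hb₁y hc0)
        apply h2
        simp [hcc]
      · have h1 := W₀.sub_mem (W₀.sub_mem (hE (1 + 1)) (hE 1)) (hE 1)
        have h20 := H.two
        have e : ((κ * (1 + 1)) • c - ((1 + 1) ^ 2 * h c c / 2 * κ) • b₁) - ((κ * 1) • c - (1 ^ 2 * h c c / 2 * κ) • b₁)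
            - ((κ * 1) • c - (1 ^ 2 * h c c / 2 * κ) • b₁) = (- (h c c * κ)) • b₁ := by
          have e6 : (1 + 1) ^ 2 * h c c / 2 * κ - 1 ^ 2 * h c c / 2 * κ - 1 ^ 2 * h c c / 2 * κ = h c c * κ := by
            field_simp
            ring
          rw [← e6]
          module
        rw [e] at h1
        have hb₁0 : b₁ ≠ 0 := by
          intro h0
          apply hb₁y
          simp [hκ, h0]
        have h2 := hs _ h1 (smul_ne_zero (neg_ne_zero.mpr (mul_ne_zero hcc hb₁y)) hb₁0)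
        apply h2
        simp [hb₁]
    · push Not at hall
      obtain ⟨a, ha⟩ := hall
      set t := toF (F := F) (sE H hb₁ (hta a)) with ht
      have htX : t ∈ X := sE_mem' H hX hd3 hb₁ (hta a)
      have htw : t w₁ = w₁ := by
        rw [ht, sE_toF_apply, hw₁b₁]
        simp [hwc]
      refine ⟨g₀⁻¹ * t * g₀, X.mul_mem (X.mul_mem (X.inv_mem hg₀) htX) hg₀, ?_, 1, one_ne_zero, ?_⟩
      · intro heq
        apply ha
        obtain ⟨a₂, ha₂⟩ := mem_Wg.mp hw₂
        have h1 : (g₀⁻¹ * t * g₀) (a₂ • b) ∈ lin F L b := by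
          rw [← heq]
          exact smul_mem_Wg b _ a₂
        obtain ⟨a₃, ha₃⟩ := mem_lin.mp h1
        refine mem_Wg.mpr ⟨a₃, ?_⟩
        rw [ha₃]
        simp only [LinearEquiv.mul_apply, inv_app, ha₂]
      · refine mem_Wg.mpr ⟨1, ?_⟩
        simp only [one_smul, LinearEquiv.mul_apply]
        rw [← hw₁, htw, hw₁, app_inv]

/-- A maximal element. -/
theorem exists_maxG_O [Finite L] [Module.Finite F L] [Module.Finite F V] (H : OH h) {X : Subgroup (V ≃ₗ[F] V)}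
    (hX : HO h X) (hd : 4 ≤ finrank L V) {θ : L} (hθ0 : θ ≠ 0) (hθ1 : θ ≠ 1) (hθ2 : θ ≠ -1) {x : V ≃ₗ[F] V}
    (hxX : x ∈ X) (hS : ¬ Semi (L := L) x) {b : V} (hb0 : b ≠ 0) (hb : h b b = 0) : ∃ g, MaxG L X b g := by
  obtain ⟨g₀, hg₀, hne⟩ := exists_not_line H hX (by omega) hθ0 hθ1 hθ2 hxX hS hb0 hb
  obtain ⟨g1, hg1, hne1, κ1, hκ1, hκ1b⟩ := exists_start H hX hd hg₀ hb0 hb hne
  obtain ⟨g, ⟨hg, hne'⟩, hmax⟩ := exists_max_of_bdd
    (fun g' : V ≃ₗ[F] V => g' ∈ X ∧ Wg F L b g' ≠ lin F L b) (DD F L b) (finrank F V)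
    ⟨g1, hg1, hne1⟩ (fun a _ => Submodule.finrank_le _)
  refine ⟨g, hg, hne', fun g' h1 h2 => hmax g' ⟨h1, h2⟩, ?_⟩
  have h1 : DD F L b g1 ≤ DD F L b g := hmax g1 ⟨hg1, hne1⟩
  have h2 : 0 < DD F L b g1 := by
    apply Module.finrank_pos_iff_exists_ne_zero.mpr
    refine ⟨⟨κ1 • b, smul_mem_lin b κ1, hκ1b⟩, ?_⟩
    intro h3
    exact (smul_ne_zero hκ1 hb0) (congrArg Subtype.val h3)
  have h3 : 0 < DD F L b g := by omega
  obtain ⟨⟨y, hy⟩, hy0⟩ := Module.finrank_pos_iff_exists_ne_zero.mp h3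
  obtain ⟨κ, hκ⟩ := mem_lin.mp hy.1
  refine ⟨κ, ?_, ?_⟩
  · rintro rfl
    apply hy0
    ext
    simpa using hκ.symm
  · rw [hκ]
    exact hy.2

end lines

end Cfsg.Agent.H28.XB
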