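import Mathlib
import Cfsg.Agent.H28.XB
import Cfsg.Agent.Lib.ExtSpC

/-!
# The maximal configuration: reduction to lines inside the perpendicular of a singular vector
-/

set_option autoImplicit false
set_option linter.unusedSectionVars false
set_option linter.unusedSimpArgs false
set_option linter.unusedVariables false
set_option linter.style.haveILetI false

namespace Cfsg.Agent.H28.XC

open Module Cfsg.Agent.Lib.ExtA Cfsg.Agent.Lib.ExtB Cfsg.Agent.H28.XA Cfsg.Agent.H28.XB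
  Cfsg.Agent.Lib.ExtSpB

section main

variable {F L V : Type*} [Field F] [Field L] [Algebra F L]
  [AddCommGroup V] [Module L V] [Module F V] [IsScalarTower F L V] {h : LinearMap.BilinForm L V}
  [Module.Finite L V] [Module.Finite F L] [Module.Finite F V]

theorem stab_of_fix {X : Subgroup (V ≃ₗ[F] V)} {b : V} {g : V ≃ₗ[F] V} (hg : MaxG L X b g) {t : V ≃ₗ[F] V}
    (ht : t ∈ X) (h1 : ∀ z ∈ lin F L b ⊓ Wg F L b g, t z = z) {w₀ : V} (hw₀ : w₀ ∈ Wg F L b g)
    (hw₀n : w₀ ∉ lin F L b) (htw : t w₀ = w₀) {y : V} (hy : y ∈ Wg F L b g) : t y ∈ Wg F L b g := by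
  set W := Wg F L b g with hW
  have hmap : W.map (t : V →ₗ[F] V) = W := by
    by_contra hne
    have h2 := pair_bound hg hg.mem (X.mul_mem ht hg.mem)
      (by rw [Wg_mul]; exact fun h => hne h.symm)
    rw [Wg_mul] at h2
    have h3 : lin F L b ⊓ W < W ⊓ W.map (t : V →ₗ[F] V) := by
      rw [SetLike.lt_iff_le_and_exists]
      constructor
      · rintro z ⟨hz1, hz2⟩
        exact ⟨hz2, z, hz2, h1 z ⟨hz1, hz2⟩⟩
      · exact ⟨w₀, ⟨hw₀, w₀, hw₀, htw⟩, fun h4 => hw₀n h4.1⟩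
    have h4 := Submodule.finrank_lt_finrank_of_lt h3
    have h5 : finrank F ↥(W ⊓ W.map (t : V →ₗ[F] V)) ≤ finrank F ↥(lin F L b ⊓ W) := h2
    omega
  rw [← hmap]
  exact ⟨y, hy, rfl⟩

theorem exists_rep' (H : OH h) (ψ : V →ₗ[L] L) : ∃ z, ∀ y, ψ y = h y z := by
  have hinj : Function.Injective (h.flip : V →ₗ[L] Module.Dual L V) := by
    rw [injective_iff_map_eq_zero]
    intro z hz
    by_contra h0
    obtain ⟨v, hv⟩ := H.nd z h0
    apply hv
    rw [H.symm]
    exact LinearMap.congr_fun hz v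
  have hsurj : Function.Surjective (h.flip : V →ₗ[L] Module.Dual L V) :=
    (LinearMap.injective_iff_surjective_of_finrank_eq_finrank
      (Subspace.dual_finrank_eq (K := L) (V := V)).symm).mp hinj
  obtain ⟨z, hz⟩ := hsurj ψ
  exact ⟨z, fun y => (LinearMap.congr_fun hz y).symm⟩

theorem lin_le_eq {b v : V} {g : V ≃ₗ[F] V} (hb : b ≠ 0) (hv : v ≠ 0) (h1 : lin F L v ≤ Wg F L b g) :
    Wg F L b g = lin F L v :=
  (Submodule.eq_of_le_of_finrank_eq h1 (by rw [lin_finrank_eq, finrank_lin hb, finrank_lin hv])).symm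

/-- If the maximal image has a vector outside the line and perpendicular to it, it is perpendicular. -/
theorem dichotomy (H : OH h) {X : Subgroup (V ≃ₗ[F] V)} (hX : HO h X) (hd : 4 ≤ finrank L V) {b : V} (hb0 : b ≠ 0)
    (hb : h b b = 0) {g : V ≃ₗ[F] V} (hg : MaxG L X b g) {w₀ : V} (hw₀ : w₀ ∈ Wg F L b g)
    (hw₀n : w₀ ∉ lin F L b) (hw₀b : h w₀ b = 0) {w' : V} (hw' : w' ∈ Wg F L b g) : h w' b = 0 := by
  by_contra hκ
  have hd3 : 3 ≤ finrank L V := by omega
  set W := Wg F L b g with hW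
  set κ := h w' b with hκd
  obtain ⟨z, hz, hbz⟩ := exists_partner H hb0 hb
  obtain ⟨c, hcm, hc0⟩ : ∃ c ∈ pp h (pp h (pp h ⊤ b) w₀) z, c ≠ 0 := by
    have h0 := finrank_pp (h := h) (⊤ : Submodule L V) b
    have h1 := finrank_pp (h := h) (pp h ⊤ b) w₀
    have h2 := finrank_pp (h := h) (pp h (pp h ⊤ b) w₀) z
    rw [finrank_top] at h0
    exact exists_ne_of_finrank (by omega)
  obtain ⟨hc1, hcz⟩ := mem_pp.mp hcm
  obtain ⟨hc2, hcw⟩ := mem_pp.mp hc1
  obtain ⟨-, hcb⟩ := mem_pp.mp hc2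
  have hbc : h b c = 0 := by rw [H.symm]; exact hcb
  have hwc : h w₀ c = 0 := by rw [H.symm]; exact hcw
  have hta : ∀ a : L, h b (a • c) = 0 := fun a => by simp [hbc]
  have hE : ∀ a : L, (κ * a) • c - (a * h w' c + a ^ 2 * h c c / 2 * κ) • b ∈ W := by
    intro a
    have h1 := stab_of_fix hg (sE_mem' H hX hd3 hb (hta a)) (fun z hz => by
        obtain ⟨e, he⟩ := mem_lin.mp hz.1
        rw [← he, sE_toF_apply]
        simp [hb, hbc]) hw₀ hw₀n (by
        rw [sE_toF_apply, hw₀b]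
        simp [hwc]) hw'
    have h2 := W.sub_mem h1 hw'
    convert h2 using 1
    rw [sE_toF_apply, ← hκd]
    simp only [map_smul, LinearMap.smul_apply, smul_eq_mul]
    have e5 : a * h w' c + a * (a * h c c) / 2 * κ = a * h w' c + a ^ 2 * h c c / 2 * κ := by ring
    rw [e5]
    module
  have hlinW : ∀ v : V, v ≠ 0 → (∀ a : L, a • v ∈ W) → False := by
    intro v hv hall
    have h1 : lin F L v ≤ W := by
      intro y hy
      obtain ⟨a, rfl⟩ := mem_lin.mp hy
      exact hall a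
    have h2 := lin_le_eq (g := g) hb0 hv h1
    obtain ⟨κ', hκ', hκ'b⟩ := hg.pos
    rw [h2] at hκ'b
    obtain ⟨a, ha⟩ := mem_lin.mp hκ'b
    apply hg.ne
    have ha0 : a ≠ 0 := by
      rintro rfl
      rw [zero_smul] at ha
      exact (smul_ne_zero hκ' hb0) ha.symm
    have hvb : v = (a⁻¹ * κ') • b := by
      rw [mul_smul, ← ha, smul_smul, inv_mul_cancel₀ ha0, one_smul]
    rw [h2]
    ext y
    simp only [mem_lin]
    constructor
    · rintro ⟨e, rfl⟩
      refine ⟨e * (a⁻¹ * κ'), ?_⟩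
      rw [mul_smul, ← hvb]
    · rintro ⟨e, rfl⟩
      refine ⟨e * (a⁻¹ * κ')⁻¹, ?_⟩
      rw [mul_smul, hvb, smul_smul, smul_smul]
      have : (a⁻¹ * κ')⁻¹ * (a⁻¹ * κ') = 1 := inv_mul_cancel₀ (mul_ne_zero (inv_ne_zero ha0) hκ')
      rw [mul_assoc, this, mul_one]
  by_cases hcc : h c c = 0
  · set v₀ := κ • c - h w' c • b with hv₀
    have hv₀0 : v₀ ≠ 0 := by
      intro h0
      have h1 : h v₀ z = - h w' c := by
        simp only [hv₀, map_sub, map_smul, LinearMap.sub_apply, LinearMap.smul_apply, smul_eq_mul, hcz, hbz]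
        ring
      rw [h0] at h1
      have h2 : h w' c = 0 := by simpa using h1.symm
      rw [hv₀, h2, zero_smul, sub_zero] at h0
      exact (smul_ne_zero hκ hc0) h0
    refine hlinW v₀ hv₀0 fun a => ?_
    have h1 := hE a
    convert h1 using 1
    rw [hv₀, hcc]
    simp only [mul_zero, zero_div, zero_mul, add_zero]
    module
  · have hb_in : ∀ e : L, e • b ∈ W := by
      intro e
      have h20 := H.two
      have hc3 : h c c * κ ≠ 0 := mul_ne_zero hcc hκ
      set a := - (e / (h c c * κ)) with ha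
      have h1 := W.sub_mem (W.sub_mem (hE (a + 1)) (hE a)) (hE 1)
      convert h1 using 1
      have e6 : (a + 1) * h w' c + (a + 1) ^ 2 * h c c / 2 * κ - (a * h w' c + a ^ 2 * h c c / 2 * κ)
          - (1 * h w' c + 1 ^ 2 * h c c / 2 * κ) = a * (h c c * κ) := by
        field_simp
        ring
      have e7 : a * (h c c * κ) = - e := by
        rw [ha]
        field_simp
      have e8 : (κ * (a + 1)) • c - ((a + 1) * h w' c + (a + 1) ^ 2 * h c c / 2 * κ) • b -
          ((κ * a) • c - (a * h w' c + a ^ 2 * h c c / 2 * κ) • b) -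
          ((κ * 1) • c - (1 * h w' c + 1 ^ 2 * h c c / 2 * κ) • b) =
          (- ((a + 1) * h w' c + (a + 1) ^ 2 * h c c / 2 * κ - (a * h w' c + a ^ 2 * h c c / 2 * κ)
          - (1 * h w' c + 1 ^ 2 * h c c / 2 * κ))) • b := by
        module
      rw [e8, e6, e7, neg_neg]
    exact hlinW b hb0 hb_in

/-- A non-zero vector perpendicular to a hyperbolic pair is moved by `X`, fixing the pair. -/
theorem exists_move [Finite L] (H : OH h) {X : Subgroup (V ≃ₗ[F] V)} (hX : HO h X) (hd : 4 ≤ finrank L V) {θ : L}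
    (hθ0 : θ ≠ 0) (hθ1 : θ ≠ 1) (hθ2 : θ ≠ -1) {b z : V} (hb : h b b = 0) (hz : h z z = 0) (hbz : h b z = 1)
    {y : V} (hy : y ∈ J2 h b z) (hy0 : y ≠ 0) :
    ∃ τ : V ≃ₗ[L] V, IsoL h τ ∧ toF (F := F) τ ∈ X ∧ τ b = b ∧ τ z = z ∧ τ y ≠ y := by
  have hJ := nds_J2 H hb hz hbz
  have hJd := finrank_J2 (h := h) b z
  obtain ⟨hyb, hyz⟩ := mem_J2.mp hy
  by_cases hyy : h y y = 0
  · obtain ⟨u, hu, huy⟩ := hJ y hy hy0
    obtain ⟨hub, huz⟩ := mem_J2.mp hu
    set u' := (h y u)⁻¹ • u with hu'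
    have huy1 : h y u' = 1 := by simp [hu', huy]
    have huy2 : h u' y = 1 := by rw [H.symm]; exact huy1
    have h20 := H.two
    set z' := u' - (h u' u' / 2) • y with hz'
    have hz's : h z' z' = 0 := by
      simp only [hz', map_sub, map_smul, LinearMap.sub_apply, LinearMap.smul_apply, smul_eq_mul, hyy, huy1, huy2]
      field_simp
      ring
    have hyz' : h y z' = 1 := by
      simp only [hz', map_sub, map_smul, smul_eq_mul, hyy, huy1]
      simp
    have he : θ * θ ≠ 1 := by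
      intro h1
      have h6 : (θ - 1) * (θ + 1) = 0 := by linear_combination h1
      rcases mul_eq_zero.mp h6 with h7 | h7
      · exact hθ1 (sub_eq_zero.mp h7)
      · exact hθ2 (eq_neg_of_add_eq_zero_left h7)
    have hz'b : h b z' = 0 := by
      have h1 : h b y = 0 := by rw [H.symm]; exact hyb
      have h2 : h b u' = 0 := by
        have h3 : h b u = 0 := by rw [H.symm]; exact hub
        simp [hu', h3]
      simp [hz', h1, h2]
    have hz'z : h z z' = 0 := by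
      have h1 : h z y = 0 := by rw [H.symm]; exact hyz
      have h2 : h z u' = 0 := by
        have h3 : h z u = 0 := by rw [H.symm]; exact huz
        simp [hu', h3]
      simp [hz', h1, h2]
    have hzy : h z y = 0 := by rw [H.symm]; exact hyz
    have hby : h b y = 0 := by rw [H.symm]; exact hyb
    refine ⟨tE H hyy hz's hyz' (mul_ne_zero hθ0 hθ0), tE_iso H hyy hz's hyz' _,
      tE_sq_mem H hX hyy hz's hyz' hθ0, ?_, ?_, ?_⟩
    · rw [tE_apply, hz'b, hby]
      simp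
    · rw [tE_apply, hz'z, hzy]
      simp
    · rw [tE_apply, hyy, hyz']
      intro h1
      apply he
      have h2 : (θ * θ - 1) • y = 0 := by
        have h3 : y + ((θ * θ - 1) * 1) • y + ((θ * θ)⁻¹ - 1) • (0 : L) • z' = y := by
          simpa using h1
        simpa using h3
      exact sub_eq_zero.mp ((smul_eq_zero.mp h2).resolve_right hy0)
  · -- a non-singular vector
    have hS := nds_pp H hJ hy hyy
    have hSd := finrank_pp (h := h) (J2 h b z) y
    obtain ⟨u₀, hu₀, hu₀0⟩ := exists_ne_of_finrank (S := pp h (J2 h b z) y) (by omega)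
    obtain ⟨u, hu, huu⟩ := exists_nonsing H hS hu₀ hu₀0
    obtain ⟨hu1, huy⟩ := mem_pp.mp hu
    obtain ⟨hub, huz⟩ := mem_J2.mp hu1
    have hyu : h y u = 0 := by rw [H.symm]; exact huy
    set c := h y y with hc
    set cu := h u u with hcu
    have hs0 : ∃ t : L, t ≠ 0 ∧ 1 + t ^ 2 * (cu / c) ≠ 0 := by
      by_cases h1 : 1 + (1 : L) ^ 2 * (cu / c) = 0
      · refine ⟨θ, hθ0, fun h2 => ?_⟩
        have h3 : cu / c = -1 := by linear_combination h1
        rw [h3] at h2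
        have h6 : (θ - 1) * (θ + 1) = 0 := by linear_combination -h2
        rcases mul_eq_zero.mp h6 with h7 | h7
        · exact hθ1 (sub_eq_zero.mp h7)
        · exact hθ2 (eq_neg_of_add_eq_zero_left h7)
      · exact ⟨1, one_ne_zero, h1⟩
    obtain ⟨t, ht0, hs⟩ := hs0
    set s := t ^ 2 * (cu / c) with hsd
    have h20 := H.two
    set v' := (1 + s)⁻¹ • ((1 - s) • y + (2 * t) • u) with hv'
    have hv'n : h v' v' = c := by
      have h3 : s * c = t ^ 2 * cu := by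
        rw [hsd]
        field_simp
      have e0 : h ((1 - s) • y + (2 * t) • u) ((1 - s) • y + (2 * t) • u) = (1 + s) ^ 2 * c := by
        simp only [map_add, map_smul, LinearMap.add_apply, LinearMap.smul_apply, smul_eq_mul, huy, hyu,
          ← hc, ← hcu]
        linear_combination (-4) * h3
      simp only [hv', map_smul, LinearMap.smul_apply, smul_eq_mul]
      rw [e0]
      field_simp
    have hv'0 : h v' v' ≠ 0 := by rw [hv'n]; exact hyy
    have hv'y : v' ≠ y ∧ v' ≠ -y := by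
      have h3 : h v' u = (1 + s)⁻¹ * (2 * t * cu) := by
        simp only [hv', map_add, map_smul, LinearMap.add_apply, LinearMap.smul_apply, smul_eq_mul, huy, hyu, ← hcu]
        ring
      have h4 : h v' u ≠ 0 := by
        rw [h3]
        exact mul_ne_zero (inv_ne_zero hs) (mul_ne_zero (mul_ne_zero h20 ht0) huu)
      constructor
      · intro h5
        rw [h5] at h4
        exact h4 hyu
      · intro h5
        rw [h5] at h4
        apply h4
        simp [hyu]
    have hv'b : h v' b = 0 := by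
      simp only [hv', map_add, map_smul, LinearMap.add_apply, LinearMap.smul_apply, smul_eq_mul, hyb, hub]
      ring
    have hv'z : h v' z = 0 := by
      simp only [hv', map_add, map_smul, LinearMap.add_apply, LinearMap.smul_apply, smul_eq_mul, hyz, huz]
      ring
    have hby : h b y = 0 := by rw [H.symm]; exact hyb
    have hzy : h z y = 0 := by rw [H.symm]; exact hyz
    have hbv : h b v' = 0 := by rw [H.symm]; exact hv'b
    have hzv : h z v' = 0 := by rw [H.symm]; exact hv'z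
    refine ⟨rE H hyy * rE H hv'0, (rE_iso H hyy).mul (rE_iso H hv'0), rr_mem H hX hyy hv'0 hv'n.symm, ?_, ?_, ?_⟩
    · rw [LinearEquiv.mul_apply, rE_apply, rE_apply, rLin_perp hbv, rLin_perp hby]
    · rw [LinearEquiv.mul_apply, rE_apply, rE_apply, rLin_perp hzv, rLin_perp hzy]
    · rw [LinearEquiv.mul_apply, rE_apply, rE_apply]
      intro h1
      -- `r_v' y = - y`
      have h2 : rLin h v' y = - y := by
        have h3 := congrArg (rLin h y) h1
        rw [rLin_rLin H hyy, rLin_self hyy] at h3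
        exact h3
      rw [rLin_apply] at h2
      have h3 : ((2 / h v' v') * h y v') • v' = (2 : L) • y := by
        have h4 : y - ((2 / h v' v') * h y v') • v' + y = 0 := by rw [h2]; abel
        have h5 : ((2 / h v' v') * h y v') • v' = y + y := by
          have h6 : y + y - ((2 / h v' v') * h y v') • v' = 0 := by
            rw [← h4]
            abel
          exact (sub_eq_zero.mp h6).symm
        rw [h5, two_smul]
      have h4 : h (((2 / h v' v') * h y v') • v') u = h ((2 : L) • y) u := by rw [h3]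
      simp only [map_smul, LinearMap.smul_apply, smul_eq_mul, hyu, mul_zero] at h4
      have h5 : h v' u = (1 + s)⁻¹ * (2 * t * cu) := by
        simp only [hv', map_add, map_smul, LinearMap.add_apply, LinearMap.smul_apply, smul_eq_mul, huy, hyu, ← hcu]
        ring
      have h6 : h y v' ≠ 0 := by
        intro h7
        -- then `r_v'` fixes `y`, so `y = -y`
        rw [h7, mul_zero, zero_smul] at h3
        have h8 : (2 : L) • y ≠ 0 := smul_ne_zero h20 hy0
        exact h8 h3.symm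
      have h7 := (mul_eq_zero.mp h4).resolve_left (mul_ne_zero (div_ne_zero h20 hv'0) h6)
      rw [h5] at h7
      exact (mul_ne_zero (inv_ne_zero hs) (mul_ne_zero (mul_ne_zero h20 ht0) huu)) h7

theorem perp_inv [Finite L] {X : Subgroup (V ≃ₗ[F] V)} {lam : L →ₗ[F] F} (hlam : lam ≠ 0)
    (hiso : ∀ g ∈ X, ∀ x y, lam (h (g x) (g y)) = lam (h x y)) (H : OH h) {b : V} {g : V ≃ₗ[F] V} (hg : g ∈ X)
    (hP : ∀ y ∈ Wg F L b g⁻¹, h y b = 0) {y : V} (hy : y ∈ Wg F L b g) : h y b = 0 := by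
  obtain ⟨a, rfl⟩ := mem_Wg.mp hy
  apply Cfsg.Agent.Lib.ExtSpC.lam_unique hlam
  intro e
  have h1 := hiso g hg (a • b) (g⁻¹ (e • b))
  rw [inv_app] at h1
  have h2 : h (g (a • b)) (e • b) = e * h (g (a • b)) b := by simp
  rw [← h2, h1]
  have h3 := hP _ (smul_mem_Wg b g⁻¹ e)
  have h4 : h (a • b) (g⁻¹ (e • b)) = 0 := by
    rw [map_smul, LinearMap.smul_apply, H.symm, h3, smul_zero]
  rw [h4]
  simp

/-- A maximal configuration can be chosen inside the perpendicular. -/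
theorem exists_caseA [Finite L] (H : OH h) {X : Subgroup (V ≃ₗ[F] V)} (hX : HO h X) (hd : 4 ≤ finrank L V) {θ : L}
    (hθ0 : θ ≠ 0) (hθ1 : θ ≠ 1) (hθ2 : θ ≠ -1) {lam : L →ₗ[F] F} (hlam : lam ≠ 0)
    (hiso : ∀ g ∈ X, ∀ x y, lam (h (g x) (g y)) = lam (h x y)) {b : V} (hb0 : b ≠ 0) (hb : h b b = 0) {g : V ≃ₗ[F] V}
    (hg : MaxG L X b g) : ∃ g', MaxG L X b g' ∧ ∀ y ∈ Wg F L b g', h y b = 0 := by
  by_cases hP : ∀ y ∈ Wg F L b g, h y b = 0
  · exact ⟨g, hg, hP⟩
  have hd3 : 3 ≤ finrank L V := by omega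
  have h20 := H.two
  have hg' := maxG_inv hg
  have hP' : ¬ ∀ y ∈ Wg F L b g⁻¹, h y b = 0 := fun h1 => hP fun y hy => perp_inv hlam hiso H hg.mem h1 hy
  push Not at hP'
  obtain ⟨w₁, hw₁, hκ₁⟩ := hP'
  set W' := Wg F L b g⁻¹ with hW'
  set κ₁ := h w₁ b with hκ₁d
  have hw₁n : w₁ ∉ lin F L b := by
    intro h1
    obtain ⟨a, ha⟩ := mem_lin.mp h1
    apply hκ₁
    rw [hκ₁d, ← ha]
    simp [hb]
  -- elements of `W'` perpendicular to `b` lie on the line
  have hline : ∀ y ∈ W', h y b = 0 → y ∈ lin F L b := by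
    intro y hy hyb
    by_contra h1
    exact hκ₁ (dichotomy H hX hd hb0 hb hg' hy h1 hyb hw₁)
  set u := κ₁⁻¹ • w₁ with hu
  have hbu : h b u = 1 := by
    have e : h b w₁ = κ₁ := H.symm _ _
    simp [hu, e, hκ₁]
  set γ := h u u / 2 with hγ
  set z₁ := u - γ • b with hz₁
  have hbz₁ : h b z₁ = 1 := by simp [hz₁, hb, hbu]
  have hub : h u b = 1 := by rw [H.symm]; exact hbu
  have hz₁s : h z₁ z₁ = 0 := by
    simp only [hz₁, map_sub, map_smul, LinearMap.sub_apply, LinearMap.smul_apply, smul_eq_mul, hb, hbu, hub]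
    rw [hγ]
    field_simp
    ring
  have hw₁e : w₁ = κ₁ • z₁ + (κ₁ * γ) • b := by
    rw [hz₁, hu]
    simp only [smul_sub, smul_smul, mul_inv_cancel₀ hκ₁, one_smul]
    abel
  have hzb : h z₁ b = 1 := by rw [H.symm]; exact hbz₁
  have hJfin := finrank_J2 (h := h) b z₁
  have hJ := nds_J2 H hb hz₁s hbz₁
  -- `W'` lies in the hyperbolic plane
  have hpj : ∀ y ∈ W', pj h b z₁ y = 0 := by
    intro y hy
    by_contra h1
    obtain ⟨τ, hτi, hτ, hτb, hτz, hτy⟩ := exists_move (F := F) H hX hd hθ0 hθ1 hθ2 hb hz₁s hbz₁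
      (pj_mem H hb hz₁s hbz₁ y) h1
    have hτw : τ w₁ = w₁ := by
      rw [hw₁e, map_add, map_smul, map_smul, hτz, hτb]
    have h2 := stab_of_fix hg' hτ (fun z hz => by
      obtain ⟨e, he⟩ := mem_lin.mp hz.1
      rw [← he, toF_apply, map_smul, hτb]) hw₁ hw₁n hτw hy
    have h3 := W'.sub_mem h2 hy
    have hy3 : τ y - y = τ (pj h b z₁ y) - pj h b z₁ y := by
      have e : y = pj h b z₁ y + h y z₁ • b + h y b • z₁ := by
        simp only [pj]
        abel
      conv_lhs => rw [e]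
      rw [toF_apply] at h2
      simp only [map_add, map_smul, hτb, hτz]
      abel
    have hpb : h (pj h b z₁ y) b = 0 := (mem_J2.mp (pj_mem H hb hz₁s hbz₁ y)).1
    have hpz : h (pj h b z₁ y) z₁ = 0 := (mem_J2.mp (pj_mem H hb hz₁s hbz₁ y)).2
    have e1 : h (τ (pj h b z₁ y)) b = 0 := by
      have := hτi (pj h b z₁ y) b
      rw [hτb, hpb] at this
      exact this
    have e2 : h (τ (pj h b z₁ y)) z₁ = 0 := by
      have := hτi (pj h b z₁ y) z₁
      rw [hτz, hpz] at this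
      exact this
    have h4 : (toF (F := F) τ) y - y ∈ lin F L b := by
      apply hline _ h3
      rw [toF_apply, hy3]
      simp [e1, hpb]
    obtain ⟨a, ha⟩ := mem_lin.mp h4
    rw [toF_apply, hy3] at ha
    have h5 : h (a • b) z₁ = 0 := by
      rw [ha]
      simp [e2, hpz]
    have ha0 : a = 0 := by simpa [hbz₁] using h5
    rw [ha0, zero_smul] at ha
    exact hτy (sub_eq_zero.mp ha.symm)
  have hW'E : ∀ y ∈ W', y = h y z₁ • b + h y b • z₁ := by
    intro y hy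
    have := hpj y hy
    simp only [pj] at this
    rw [sub_sub, sub_eq_zero] at this
    exact this
  obtain ⟨a', ha'0, ha'⟩ := hg'.pos
  set c := - (2 * a') / κ₁ with hc
  obtain ⟨y₂, hy₂, hy₂n⟩ := exists_norm H hJ (S := J2 h b z₁) (by omega) c
  obtain ⟨hy₂b, hy₂z⟩ := mem_J2.mp hy₂
  have hby₂ : h b y₂ = 0 := by rw [H.symm]; exact hy₂b
  have hc0 : c ≠ 0 := div_ne_zero (neg_ne_zero.mpr (mul_ne_zero h20 ha'0)) hκ₁
  have hy₂0 : y₂ ≠ 0 := by
    rintro rfl
    simp at hy₂n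
    exact hc0 hy₂n.symm
  set τ₂ := toF (F := F) (sE H hb hby₂) with hτ₂
  have hτ₂X : τ₂ ∈ X := sE_mem' H hX hd3 hb hby₂
  have hτ₂a : ∀ v, τ₂ v = v + h v b • y₂ - (h v y₂ + (c / 2) * h v b) • b := by
    intro v
    rw [hτ₂, sE_toF_apply, hy₂n]
  have hτ₂f : ∀ e : L, τ₂ (e • b) = e • b := by
    intro e
    rw [hτ₂a]
    simp [hb, hby₂]
  set g₂ := g * τ₂ * g⁻¹ with hg₂
  have hg₂X : g₂ ∈ X := X.mul_mem (X.mul_mem hg.mem hτ₂X) (X.inv_mem hg.mem)
  have hg₂a : ∀ v, g₂ v = g (τ₂ (g⁻¹ v)) := fun v => rfl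
  have hgy : ∀ κ : L, h (g (κ • y₂)) b = 0 := by
    intro κ
    apply Cfsg.Agent.Lib.ExtSpC.lam_unique hlam
    intro e
    have h1 := hiso g hg.mem (κ • y₂) (g⁻¹ (e • b))
    rw [inv_app] at h1
    have h2 : h (g (κ • y₂)) (e • b) = e * h (g (κ • y₂)) b := by simp
    rw [← h2, h1]
    have h3 := hW'E _ (smul_mem_Wg b g⁻¹ e)
    have h4 : h (κ • y₂) (g⁻¹ (e • b)) = 0 := by
      rw [h3]
      simp [hy₂b, hy₂z]
    rw [h4]
    simp
  obtain ⟨e₁, he₁⟩ := mem_Wg.mp hw₁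
  obtain ⟨e₂, he₂⟩ := mem_Wg.mp ha'
  have hgw₁ : g w₁ = e₁ • b := by rw [← he₁, inv_app]
  have hga' : g (a' • b) = e₂ • b := by rw [← he₂, inv_app]
  have hτw₁ : τ₂ w₁ = w₁ + κ₁ • y₂ + a' • b := by
    rw [hτ₂a, ← hκ₁d]
    have e3 : h w₁ y₂ = 0 := by
      have hz₁y₂ : h z₁ y₂ = 0 := by rw [H.symm]; exact hy₂z
      rw [hW'E w₁ hw₁]
      simp [hby₂, hz₁y₂]
    have e4 : c / 2 * κ₁ = - a' := by
      rw [hc]
      field_simp
    rw [e3, zero_add, e4, neg_smul, sub_neg_eq_add]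
  set v₂ := g₂ (e₁ • b) with hv₂
  have hv₂e : v₂ = e₁ • b + g (κ₁ • y₂) + e₂ • b := by
    rw [hv₂, hg₂a, he₁, hτw₁, map_add, map_add, hgw₁, hga']
  have hv₂m : v₂ ∈ Wg F L b g₂ := smul_mem_Wg b g₂ e₁
  have hv₂b : h v₂ b = 0 := by
    rw [hv₂e]
    simp [hb, hgy]
  have hv₂n : v₂ ∉ lin F L b := by
    intro h1
    obtain ⟨e₃, he₃⟩ := mem_lin.mp h1
    have h2 : g (κ₁ • y₂) = (e₃ - e₁ - e₂) • b := by
      rw [sub_smul, sub_smul, he₃, hv₂e]
      abel
    have h3 : κ₁ • y₂ = g⁻¹ ((e₃ - e₁ - e₂) • b) := by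
      rw [← h2, app_inv]
    have h4 := hW'E _ (smul_mem_Wg b g⁻¹ (e₃ - e₁ - e₂))
    rw [← h3] at h4
    have h5 : h (κ₁ • y₂) z₁ = 0 := by simp [hy₂z]
    have h6 : h (κ₁ • y₂) b = 0 := by simp [hy₂b]
    rw [h5, h6, zero_smul, zero_smul, add_zero] at h4
    exact (smul_ne_zero hκ₁ hy₂0) h4
  have hle : lin F L b ⊓ Wg F L b g ≤ lin F L b ⊓ Wg F L b g₂ := by
    rintro z ⟨hz1, hz2⟩
    refine ⟨hz1, ?_⟩
    obtain ⟨e, he⟩ := mem_lin.mp hz1
    obtain ⟨a, ha⟩ := mem_Wg.mp hz2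
    refine mem_Wg.mpr ⟨e, ?_⟩
    rw [hg₂a, he, ← ha, app_inv, hτ₂f]
  have hDD : DD F L b g ≤ DD F L b g₂ := Submodule.finrank_mono hle
  have hmax : MaxG L X b g₂ := by
    refine ⟨hg₂X, fun h1 => hv₂n (h1 ▸ hv₂m), fun g' h1 h2 => (hg.max g' h1 h2).trans hDD, ?_⟩
    obtain ⟨κ, hκ, hκb⟩ := hg.pos
    exact ⟨κ, hκ, (hle ⟨smul_mem_lin b κ, hκb⟩).2⟩
  exact ⟨g₂, hmax, fun y hy => dichotomy H hX hd hb0 hb hmax hv₂m hv₂n hv₂b hy⟩

theorem hQ_of_perp (H : OH h) {X : Subgroup (V ≃ₗ[F] V)} (hX : HO h X) (hd3 : 3 ≤ finrank L V) {b : V}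
    (hb : h b b = 0) {W : Submodule F V} (hP : ∀ y ∈ W, h y b = 0) {ψ : V →ₗ[L] L} (hψ : ψ b = 0) (μ : L) :
    ∃ t ∈ X, ∀ y ∈ W, t y = y + (μ * ψ y) • b := by
  obtain ⟨y₁, hy₁⟩ := exists_rep' H ψ
  have hby₁ : h b y₁ = 0 := by rw [← hy₁]; exact hψ
  have hy : h b (-(μ • y₁)) = 0 := by simp [hby₁]
  refine ⟨toF (sE H hb hy), sE_mem' H hX hd3 hb hy, fun y hyW => ?_⟩
  rw [sE_toF_apply, hP y hyW, hy₁]
  simp

theorem key_lineO (hr : (finrank F L).Prime) (H : OH h) {X : Subgroup (V ≃ₗ[F] V)} (hX : HO h X)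
    (hd3 : 3 ≤ finrank L V) {b : V} (hb : h b b = 0) {g : V ≃ₗ[F] V} (hg : MaxG L X b g)
    (hP : ∀ y ∈ Wg F L b g, h y b = 0) :
    ∃ z ∈ Wg F L b g, z ∉ Submodule.span L {b} ∧
      ∀ y ∈ Wg F L b g, ∃ (c : F) (d : L), y = c • z + d • b := by
  obtain ⟨z, hzW, hz⟩ := exists_mem_Wg_not_lin hg
  have hz' : z ∉ Submodule.span L {b} := hz
  refine ⟨z, hzW, hz', fun y hy => ?_⟩
  obtain ⟨ψ1, h1b, h1z⟩ := exists_sep_pair hz'
  by_cases hys : y ∈ Submodule.span L {b, z}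
  · obtain ⟨α, β, hαβ⟩ := Submodule.mem_span_pair.mp hys
    have h2 : ψ1 y = β := by
      rw [← hαβ]
      simp [h1b, h1z]
    obtain ⟨c, hc⟩ := key_prop_gen hr hg h1b (hQ_of_perp H hX hd3 hb hP h1b) hzW hy
      (by rw [h1z]; exact one_ne_zero)
    rw [h1z, h2, mul_one] at hc
    refine ⟨c, α, ?_⟩
    rw [← hαβ, hc, algebraMap_smul, add_comm]
  · exfalso
    obtain ⟨ψ0, h0y, h0s⟩ := exists_sep hys
    have h0b : ψ0 b = 0 := h0s b (Submodule.subset_span (by simp))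
    have h0z : ψ0 z = 0 := h0s z (Submodule.subset_span (by simp))
    obtain ⟨θ, hθ⟩ := exists_not_alg (F := F) hr
    let ψ : V →ₗ[L] L := ψ1 + (θ - ψ1 y) • ψ0
    have hψb : ψ b = 0 := by simp [ψ, h1b, h0b]
    have hψz : ψ z = 1 := by simp [ψ, h1z, h0z]
    have hψy : ψ y = θ := by simp [ψ, h0y]
    obtain ⟨c, hc⟩ := key_prop_gen hr hg hψb (hQ_of_perp H hX hd3 hb hP hψb) hzW hy
      (by rw [hψz]; exact one_ne_zero)
    rw [hψz, hψy, mul_one] at hc
    exact hθ c hc.symm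

end main

end Cfsg.Agent.H28.XC
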