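import Mathlib
import Cfsg.Agent.H28.XC

/-!
# Elements of `X` acting on the perpendicular of a singular vector through a rank one map
-/

set_option autoImplicit false
set_option linter.unusedSectionVars false
set_option linter.unusedSimpArgs false
set_option linter.unusedVariables false
set_option linter.style.haveILetI false

namespace Cfsg.Agent.H28.XD

open Module Cfsg.Agent.Lib.ExtA Cfsg.Agent.Lib.ExtB Cfsg.Agent.Lib.ExtC Cfsg.Agent.H28.XA Cfsg.Agent.H28.XB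
  Cfsg.Agent.H28.XC Cfsg.Agent.Lib.ExtSpB

section main

variable {F L V : Type*} [Field F] [Field L] [Algebra F L]
  [AddCommGroup V] [Module L V] [Module F V] [IsScalarTower F L V] {h : LinearMap.BilinForm L V}
  [Module.Finite L V]

theorem hF_right (c : F) (u v : V) : h u (c • v) = c • h u v := by
  rw [LinearMap.map_smul_of_tower]

theorem hF_left (c : F) (u v : V) : h (c • u) v = c • h u v := by
  rw [LinearMap.map_smul_of_tower, LinearMap.smul_apply]

theorem lam_F (lam : L →ₗ[F] F) (c : F) (x : L) : lam (c • x) = c * lam x := by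
  rw [map_smul, smul_eq_mul]

variable {lam : L →ₗ[F] F} {X : Subgroup (V ≃ₗ[F] V)} {b w₀ z₀ : V} {g : V ≃ₗ[F] V} {cf ε : L →ₗ[F] F} {e₀ : L}

theorem h_eta (hlam : lam ≠ 0) (hiso : ∀ g ∈ X, ∀ x y, lam (h (g x) (g y)) = lam (h x y)) (hg : g ∈ X)
    (hε : ∀ a : L, ∃ d : L, g⁻¹ (a • b) = ε a • w₀ + d • b) (hε' : ∀ a, ε a = lam (e₀ * a))
    {v : V} (hv : h v b = 0) : h (g v) b = lam (h v w₀) • e₀ := by
  apply Cfsg.Agent.Lib.ExtSpC.lam_unique hlam
  intro a
  have h1 := hiso g hg v (g⁻¹ (a • b))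
  rw [inv_app] at h1
  have h2 : h (g v) (a • b) = a * h (g v) b := by simp
  rw [← h2, h1]
  obtain ⟨d, hd⟩ := hε a
  rw [hd, map_add, hF_right, map_smul, hv, smul_zero, add_zero, mul_smul_comm, lam_F, lam_F, hε', mul_comm]
  rw [mul_comm a e₀]

theorem Y_P (H : OH h) (hlam : lam ≠ 0) (hiso : ∀ g ∈ X, ∀ x y, lam (h (g x) (g y)) = lam (h x y)) (hg : g ∈ X)
    (hb : h b b = 0) (hcf : ∀ a : L, ∃ d : L, g (a • b) = cf a • z₀ + d • b)
    (hε : ∀ a : L, ∃ d : L, g⁻¹ (a • b) = ε a • w₀ + d • b) (hε' : ∀ a, ε a = lam (e₀ * a))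
    (hw₀n : w₀ ∉ lin F L b) {y : V} (hy : h b y = 0) {pp : L} (hpp : g (pp • b) = h z₀ y • b) :
    h (g⁻¹ (e₀ • y)) b = 0 := by
  apply Cfsg.Agent.Lib.ExtSpC.lam_unique hlam
  intro a
  have h1 := hiso g hg (g⁻¹ (e₀ • y)) (a • b)
  rw [inv_app] at h1
  have h2 : h (g⁻¹ (e₀ • y)) (a • b) = a * h (g⁻¹ (e₀ • y)) b := by simp
  rw [← h2, ← h1]
  obtain ⟨d, hd⟩ := hcf a
  have hyb : h y b = 0 := by rw [H.symm]; exact hy
  have hyz : h y z₀ = h z₀ y := H.symm _ _
  rw [hd, map_smul, LinearMap.smul_apply, smul_eq_mul, map_add, hF_right, map_smul, hyb, smul_zero, add_zero, hyz,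
    mul_smul_comm, lam_F]
  have h3 : ε (h z₀ y) = 0 := by
    obtain ⟨d', hd'⟩ := hε (h z₀ y)
    rw [← hpp, app_inv] at hd'
    by_contra h4
    apply hw₀n
    refine mem_lin.mpr ⟨(ε (h z₀ y))⁻¹ • (pp - d'), ?_⟩
    have h5 : ε (h z₀ y) • w₀ = (pp - d') • b := by
      rw [sub_smul, hd']
      abel
    rw [smul_assoc, ← h5, smul_smul, inv_mul_cancel₀ h4, one_smul]
  rw [← hε', h3]
  simp

theorem U_b (H : OH h) (hb : h b b = 0) (hPa : ∀ a : L, h (g (a • b)) b = 0)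
    (hcf : ∀ a : L, ∃ d : L, g (a • b) = cf a • z₀ + d • b) {y : V} (hy : h b y = 0) {pp : L}
    (hpp : g (pp • b) = h z₀ y • b) (a : L) :
    (g⁻¹ * toF (F := F) (sE H hb hy) * g) (a • b) = (a - cf a • pp) • b := by
  simp only [LinearEquiv.mul_apply]
  rw [sE_toF_apply, hPa a, zero_smul, add_zero, mul_zero, add_zero]
  obtain ⟨d, hd⟩ := hcf a
  have e1 : h (g (a • b)) y = cf a • h z₀ y := by
    rw [hd, map_add, LinearMap.add_apply, hF_left, map_smul, LinearMap.smul_apply, hy, smul_zero, add_zero]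
  rw [e1, smul_assoc, ← hpp, ← map_smul, ← map_sub, app_inv, sub_smul, smul_assoc]

theorem U_P (H : OH h) (hlam : lam ≠ 0) (hiso : ∀ g ∈ X, ∀ x y, lam (h (g x) (g y)) = lam (h x y)) (hg : g ∈ X)
    (hb : h b b = 0) (hε : ∀ a : L, ∃ d : L, g⁻¹ (a • b) = ε a • w₀ + d • b) (hε' : ∀ a, ε a = lam (e₀ * a))
    {y : V} (hy : h b y = 0) {v : V} (hv : h v b = 0) :
    ∃ (ζ : F) (d : L), (g⁻¹ * toF (F := F) (sE H hb hy) * g) v =
      v + lam (h v w₀) • g⁻¹ (e₀ • y) + ζ • w₀ + d • b := by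
  have e1 := h_eta hlam hiso hg hε hε' hv
  set φ := lam (h v w₀) with hφ
  set β := h (g v) y + h y y / 2 * h (g v) b with hβ
  obtain ⟨d, hd⟩ := hε β
  refine ⟨- ε β, -d, ?_⟩
  simp only [LinearEquiv.mul_apply]
  rw [sE_toF_apply, ← hβ, e1, smul_assoc, map_sub, map_add, map_smul, app_inv, hd]
  simp only [neg_smul]
  abel

theorem U_U (H : OH h) (hb : h b b = 0) {y : V} (hy : h b y = 0) (hy' : h b (-y) = 0) (x : V) :
    (g⁻¹ * toF (F := F) (sE H hb hy) * g) ((g⁻¹ * toF (F := F) (sE H hb hy') * g) x) = x := by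
  simp only [LinearEquiv.mul_apply, inv_app]
  rw [toF_apply, toF_apply]
  have e : sE H hb hy (sE H hb hy' (g x)) = g x := by
    change sLin h b y (sLin h b (-y) (g x)) = g x
    rw [sLin_comp H hb hy hy', add_neg_cancel, sLin_zero]
  rw [e, app_inv]

theorem xi_formula (H : OH h) (hlam : lam ≠ 0) (hiso : ∀ g ∈ X, ∀ x y, lam (h (g x) (g y)) = lam (h x y)) (hg : g ∈ X)
    (hb : h b b = 0) (hPa : ∀ a : L, h (g (a • b)) b = 0) (hcf : ∀ a : L, ∃ d : L, g (a • b) = cf a • z₀ + d • b)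
    (hε : ∀ a : L, ∃ d : L, g⁻¹ (a • b) = ε a • w₀ + d • b) (hε' : ∀ a, ε a = lam (e₀ * a))
    (hw₀n : w₀ ∉ lin F L b) (hw₀b : h w₀ b = 0) {y : V} (hy : h b y = 0) (hy' : h b (-y) = 0) {pp : L}
    (hpp : g (pp • b) = h z₀ y • b) {ys : V} (hys : h b ys = 0) (hw₀s : h w₀ ys = 0) (v : V) (hv : h v b = 0) :
    ((g⁻¹ * toF (F := F) (sE H hb hy) * g) * toF (F := F) (sE H hb hys) * (g⁻¹ * toF (F := F) (sE H hb hy') * g)
      * (toF (F := F) (sE H hb hys))⁻¹) v =
    v + (lam (h v w₀) • h (g⁻¹ (e₀ • y)) ys + cf (h v ys) • pp - (lam (h v w₀) * cf (h (g⁻¹ (e₀ • y)) ys)) • pp) • b := by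
  set η := h (g⁻¹ (e₀ • y)) ys with hη
  set φ := lam (h v w₀) with hφ
  set A := h v ys with hA
  have hinv : (toF (F := F) (sE H hb hys))⁻¹ v = v + A • b := by
    change sLin h b (-ys) v = _
    rw [sLin_apply, hv]
    simp [← hA]
  have hpp' : g ((-pp) • b) = h z₀ (-y) • b := by
    simp only [neg_smul, map_neg, hpp]
  set Um := g⁻¹ * toF (F := F) (sE H hb hy') * g with hUm
  set Up := g⁻¹ * toF (F := F) (sE H hb hy) * g with hUp
  have hq1 : Um (A • b) = (A + cf A • pp) • b := by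
    rw [hUm, U_b H hb hPa hcf hy' hpp' A]
    simp
  obtain ⟨ζ, d, hq2⟩ := U_P H hlam hiso hg hb hε hε' hy' hv (w₀ := w₀) (e₀ := e₀)
  have hY : g⁻¹ (e₀ • (-y)) = - g⁻¹ (e₀ • y) := by
    rw [smul_neg, map_neg]
  rw [hY, ← hUm] at hq2
  have hYb := Y_P H hlam hiso hg hb hcf hε hε' hw₀n hy hpp
  have hqb : h (Um v + Um (A • b)) b = 0 := by
    rw [hq2, hq1]
    have hYb' : h (g.symm (e₀ • y)) b = 0 := hYb
    simp [hv, hb, hYb, hYb', hw₀b, hF_left]
  have hqs : h (Um v + Um (A • b)) ys = A - φ • η := by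
    rw [hq2, hq1]
    simp only [map_add, LinearMap.add_apply, hF_left, map_smul, LinearMap.smul_apply, map_neg,
      LinearMap.neg_apply, smul_neg, hw₀s, hys, smul_zero, smul_eq_mul, mul_zero, add_zero, ← hη, ← hA]
    abel
  simp only [LinearEquiv.mul_apply]
  rw [hinv, map_add]
  rw [sE_toF_apply, hqb, zero_smul, add_zero, mul_zero, add_zero, hqs]
  rw [map_sub, map_add]
  have h1 : Up (Um v) = v := U_U H hb hy hy' v
  have h2 : Up (Um (A • b)) = A • b := U_U H hb hy hy' _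
  rw [h1, h2, hUp, U_b H hb hPa hcf hy hpp (A - φ • η)]
  simp only [map_sub, map_smul, smul_eq_mul]
  have e : (φ • η + cf A • pp - (φ * cf η) • pp) = A - (A - φ • η - (cf A - φ * cf η) • pp) := by
    rw [sub_smul]
    abel
  rw [e, sub_smul A]
  abel

end main

section step

variable {F L V : Type*} [Field F] [Field L] [Algebra F L]
  [AddCommGroup V] [Module L V] [Module F V] [IsScalarTower F L V] {h : LinearMap.BilinForm L V}
  [Module.Finite L V] [Module.Finite F L] [Module.Finite F V]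

/-- The rank one element. -/
theorem step3 [Finite L] (hr : (finrank F L).Prime) (H : OH h) {X : Subgroup (V ≃ₗ[F] V)} (hX : HO h X)
    (hd : 4 ≤ finrank L V) {lam : L →ₗ[F] F} (hlam : lam ≠ 0)
    (hiso : ∀ g ∈ X, ∀ x y, lam (h (g x) (g y)) = lam (h x y)) {b : V} (hb0 : b ≠ 0) (hb : h b b = 0) {g : V ≃ₗ[F] V}
    (hg : MaxG L X b g) (hP : ∀ y ∈ Wg F L b g, h y b = 0) :
    ∃ ξ ∈ X, ∃ (ys : V) (p' : L), p' ≠ 0 ∧ h b ys = 0 ∧ ys ∉ lin F L b ∧
      ∀ v, h v b = 0 → ξ v = v + lam (h v ys) • (p' • b) := by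
  have hd3 : 3 ≤ finrank L V := by omega
  have h20 := H.two
  have h20F : (2 : F) ≠ 0 := by
    intro h0
    apply h20
    have := congrArg (algebraMap F L) h0
    rw [map_ofNat, map_zero] at this
    exact this
  have hP' : ∀ y ∈ Wg F L b g⁻¹, h y b = 0 := fun y hy =>
    perp_inv hlam hiso H (X.inv_mem hg.mem) (by rw [inv_inv]; exact hP) hy
  obtain ⟨z₀, hz₀, hz₀n, hl⟩ := key_lineO hr H hX hd3 hb hg hP
  obtain ⟨w₀, hw₀, hw₀n, hl'⟩ := key_lineO hr H hX hd3 hb (maxG_inv hg) hP'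
  obtain ⟨ψ, hψb, hψz⟩ := exists_sep_pair hz₀n
  obtain ⟨ψ', hψ'b, hψ'w⟩ := exists_sep_pair hw₀n
  obtain ⟨R, hR⟩ := exists_retr (F := F) (L := L)
  let π0 : L →ₗ[F] L :=
    { toFun := fun a => ψ (g (a • b))
      map_add' := by intro a a'; simp [add_smul]
      map_smul' := by
        intro c a
        simp only [smul_assoc, map_smul, RingHom.id_apply]
        rw [LinearMap.map_smul_of_tower] }
  let π1 : L →ₗ[F] L :=
    { toFun := fun a => ψ' (g⁻¹ (a • b))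
      map_add' := by intro a a'; simp [add_smul]
      map_smul' := by
        intro c a
        simp only [smul_assoc, map_smul, RingHom.id_apply]
        rw [LinearMap.map_smul_of_tower] }
  set cf : L →ₗ[F] F := R ∘ₗ π0 with hcfd
  set ε : L →ₗ[F] F := R ∘ₗ π1 with hεd
  have hcf : ∀ a : L, ∃ d : L, g (a • b) = cf a • z₀ + d • b := by
    intro a
    obtain ⟨c, d, e⟩ := hl _ (smul_mem_Wg b g a)
    refine ⟨d, ?_⟩
    have h1 : cf a = c := by
      change R (ψ (g (a • b))) = c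
      rw [e, map_add, LinearMap.map_smul_of_tower, map_smul ψ d b, hψb, smul_zero, add_zero, hψz,
        Algebra.smul_def, mul_one, hR]
    rw [h1, e]
  have hε : ∀ a : L, ∃ d : L, g⁻¹ (a • b) = ε a • w₀ + d • b := by
    intro a
    obtain ⟨c, d, e⟩ := hl' _ (smul_mem_Wg b g⁻¹ a)
    refine ⟨d, ?_⟩
    have h1 : ε a = c := by
      change R (ψ' (g⁻¹ (a • b))) = c
      rw [e, map_add, LinearMap.map_smul_of_tower, map_smul ψ' d b, hψ'b, smul_zero, add_zero, hψ'w,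
        Algebra.smul_def, mul_one, hR]
    rw [h1, e]
  haveI : Finite F := Finite.of_injective (algebraMap F L) (algebraMap F L).injective
  obtain ⟨e₀, he₀⟩ := nondeg hlam ε
  obtain ⟨e₁, he₁⟩ := nondeg hlam cf
  have hε' : ∀ a, ε a = lam (e₀ * a) := fun a => by rw [he₀]; rfl
  have hcf' : ∀ a, cf a = lam (e₁ * a) := fun a => by rw [he₁]; rfl
  have hPa : ∀ a : L, h (g (a • b)) b = 0 := fun a => hP _ (smul_mem_Wg b g a)
  have hw₀b : h w₀ b = 0 := hP' _ hw₀
  have hbw₀ : h b w₀ = 0 := by rw [H.symm]; exact hw₀b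
  have hw₀n' : w₀ ∉ lin F L b := hw₀n
  have hcf0 : ∃ x, cf x ≠ 0 := by
    obtain ⟨a, ha⟩ := mem_Wg.mp hz₀
    refine ⟨a, ?_⟩
    have h1 : cf a = 1 := by
      change R (ψ (g (a • b))) = 1
      rw [ha, hψz]
      have := hR 1
      simpa using this
    rw [h1]
    exact one_ne_zero
  obtain ⟨y₁, hy₁⟩ := exists_rep' H ψ
  have hby₁ : h b y₁ = 0 := by rw [← hy₁]; exact hψb
  have hz₀y₁ : h z₀ y₁ = 1 := by rw [← hy₁]; exact hψz
  obtain ⟨κ0, hκ0, hκ0b⟩ := hg.pos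
  obtain ⟨p, hp⟩ := mem_Wg.mp hκ0b
  have hp0 : p ≠ 0 := by
    rintro rfl
    rw [zero_smul, map_zero] at hp
    exact (smul_ne_zero hκ0 hb0) hp.symm
  set y' := κ0 • y₁ with hy'd
  have hby' : h b y' = 0 := by simp [hy'd, hby₁]
  have hby'n : h b (-y') = 0 := by simp [hby']
  have hby'nn : h b (-(-y')) = 0 := by simp [hby']
  have hzy' : h z₀ y' = κ0 := by simp [hy'd, hz₀y₁]
  have hpp : g (p • b) = h z₀ y' • b := by rw [hzy', hp]
  have hppn : g ((-p) • b) = h z₀ (-y') • b := by simp [hpp]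
  -- the perpendicular vector
  obtain ⟨z, hz, hbz⟩ := exists_partner H hb0 hb
  obtain ⟨yp, hypm, hyp0⟩ : ∃ yp ∈ pp h (J2 h b z) w₀, yp ≠ 0 := by
    have h1 := finrank_J2 (h := h) b z
    have h2 := finrank_pp (h := h) (J2 h b z) w₀
    exact exists_ne_of_finrank (by omega)
  obtain ⟨hyp1, hypw⟩ := mem_pp.mp hypm
  obtain ⟨hypb, hypz⟩ := mem_J2.mp hyp1
  have hbyp : h b yp = 0 := by rw [H.symm]; exact hypb
  have hwyp : h w₀ yp = 0 := by rw [H.symm]; exact hypw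
  have hypn : yp ∉ lin F L b := by
    intro h1
    obtain ⟨a, ha⟩ := mem_lin.mp h1
    have h2 : a = 0 := by
      have h3 := hypz
      rw [← ha] at h3
      simpa [hbz] using h3
    rw [h2, zero_smul] at ha
    exact hyp0 ha.symm
  set Y := g⁻¹ (e₀ • y') with hY
  have hYn : g⁻¹ (e₀ • (-y')) = - Y := by rw [smul_neg, map_neg]
  by_cases hη₁ : h Y yp = 0
  · -- the first case
    have hF := xi_formula (cf := cf) (ε := ε) (z₀ := z₀) (w₀ := w₀) (e₀ := e₀) H hlam hiso hg.mem hb hPa hcf hε hε' hw₀n' hw₀b hby' hby'n hpp hbyp hwyp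
    refine ⟨_, X.mul_mem (X.mul_mem (X.mul_mem (X.mul_mem (X.mul_mem (X.inv_mem hg.mem)
      (sE_mem' H hX hd3 hb hby')) hg.mem) (sE_mem' H hX hd3 hb hbyp))
      (X.mul_mem (X.mul_mem (X.inv_mem hg.mem) (sE_mem' H hX hd3 hb hby'n)) hg.mem))
      (X.inv_mem (sE_mem' H hX hd3 hb hbyp)), e₁ • yp, p, hp0, ?_, ?_, ?_⟩
    · simp [hbyp]
    · intro h1
      obtain ⟨a, ha⟩ := mem_lin.mp h1
      have he₁0 : e₁ ≠ 0 := by
        rintro rfl
        obtain ⟨x, hx⟩ := hcf0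
        apply hx
        rw [hcf']
        simp
      apply hypn
      refine mem_lin.mpr ⟨e₁⁻¹ * a, ?_⟩
      rw [mul_smul, ha, smul_smul, inv_mul_cancel₀ he₁0, one_smul]
    · intro v hv
      rw [hF v hv, ← hY, hη₁]
      simp only [smul_zero, map_zero, mul_zero, zero_smul, zero_add, sub_zero]
      rw [hcf', smul_assoc]
      simp
  · -- the second case
    obtain ⟨x, hx⟩ := hcf0
    set a := x / h Y yp with ha
    have hax : a * h Y yp = x := div_mul_cancel₀ _ hη₁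
    set ys := a • yp with hys
    have hbys : h b ys = 0 := by simp [hys, hbyp]
    have hwys : h w₀ ys = 0 := by simp [hys, hwyp]
    have hη : h Y ys = x := by simp [hys, hax]
    clear_value ys
    have hF1 := xi_formula (cf := cf) (ε := ε) (z₀ := z₀) (w₀ := w₀) (e₀ := e₀) H hlam hiso hg.mem hb hPa hcf hε hε' hw₀n' hw₀b hby' hby'n hpp hbys hwys
    have hF2 := xi_formula (cf := cf) (ε := ε) (z₀ := z₀) (w₀ := w₀) (e₀ := e₀) H hlam hiso hg.mem hb hPa hcf hε hε' hw₀n' hw₀b hby'n hby'nn hppn hbys hwys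
    refine ⟨_, X.mul_mem
      (X.mul_mem (X.mul_mem (X.mul_mem (X.mul_mem (X.mul_mem (X.inv_mem hg.mem)
      (sE_mem' H hX hd3 hb hby')) hg.mem) (sE_mem' H hX hd3 hb hbys))
      (X.mul_mem (X.mul_mem (X.inv_mem hg.mem) (sE_mem' H hX hd3 hb hby'n)) hg.mem))
      (X.inv_mem (sE_mem' H hX hd3 hb hbys)))
      (X.mul_mem
      (X.mul_mem (X.mul_mem (X.mul_mem (X.mul_mem (X.inv_mem hg.mem)
      (sE_mem' H hX hd3 hb hby'n)) hg.mem) (sE_mem' H hX hd3 hb hbys))
      (X.mul_mem (X.mul_mem (X.inv_mem hg.mem) (sE_mem' H hX hd3 hb hby'nn)) hg.mem))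
      (X.inv_mem (sE_mem' H hX hd3 hb hbys))), (-(2 * cf x)) • w₀, p, hp0, ?_, ?_, ?_⟩
    · rw [hF_right, hbw₀, smul_zero]
    · intro h1
      apply hw₀n'
      have h2 : (-(2 * cf x)) ≠ 0 := neg_ne_zero.mpr (mul_ne_zero h20F hx)
      have h3 : w₀ = (-(2 * cf x))⁻¹ • ((-(2 * cf x)) • w₀) := by
        rw [smul_smul, inv_mul_cancel₀ h2, one_smul]
      rw [h3]
      exact (lin F L b).smul_mem _ h1
    · intro v hv
      rw [LinearEquiv.mul_apply, hF2 v hv]
      have hE : ∀ e : L, h (e • b) b = 0 := fun e => by simp [hb]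
      rw [map_add]
      have h5 := hF1 _ (hE (lam (h v w₀) • h (g⁻¹ (e₀ • -y')) ys + cf (h v ys) • (-p) -
        (lam (h v w₀) * cf (h (g⁻¹ (e₀ • -y')) ys)) • (-p)))
      rw [h5, hF1 v hv, hYn]
      have e1 : ∀ e : L, h (e • b) w₀ = 0 := fun e => by simp [hbw₀]
      have e2 : ∀ e : L, h (e • b) ys = 0 := fun e => by simp [hbys]
      simp only [e1, e2, map_zero, zero_smul, zero_mul, add_zero, sub_zero]
      rw [hF_right (-(2 * cf x)) v w₀, lam_F]
      simp only [map_neg, LinearMap.neg_apply, ← hY, hη, smul_neg, map_neg, mul_neg, neg_smul, neg_neg]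
      have e3 : ((-(2 * cf x) * lam (h v w₀)) • p) = -(2 : L) * ((lam (h v w₀) * cf x) • p) := by
        simp only [Algebra.smul_def, map_mul, map_neg, map_ofNat]
        ring
      rw [← smul_assoc, e3]
      generalize (lam (h v w₀) * cf x) • p = P
      generalize lam (h v w₀) • x = A
      generalize cf (h v ys) • p = B
      module

end step

end Cfsg.Agent.H28.XD
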