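import Mathlib
import Cfsg.Agent.H28.XD
import Cfsg.Agent.Lib.OmCalc

/-!
# From a rank one element to the whole of Omega
-/

set_option autoImplicit false
set_option linter.unusedSectionVars false
set_option linter.unusedSimpArgs false
set_option linter.unusedVariables false
set_option linter.style.haveILetI false

namespace Cfsg.Agent.H28.XE

open Module Matrix QuadraticMap Cfsg Cfsg.Geo Cfsg.Agent.Lib.ExtA Cfsg.Agent.Lib.ExtB Cfsg.Agent.Lib.ExtC
  Cfsg.Agent.H28.XA Cfsg.Agent.H28.XB Cfsg.Agent.H28.XC Cfsg.Agent.H28.XD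
  Cfsg.Agent.Lib.OrthoBasic Cfsg.Agent.Lib.OrthoSiegel Cfsg.Agent.Lib.OmCalc
open Cfsg.Agent.Lib.ExtSpC (lam_unique)

local notation:70 g:71 " ⋆ " x:70 => Matrix.mulVec (Units.val g) x

section geo

variable {L V : Type*} [Field L] [AddCommGroup V] [Module L V] {h : LinearMap.BilinForm L V}

theorem perp_line (H : OH h) {b z w : V} (hbz : h b z = 1) (hw : ∀ v, h v b = 0 → h w v = 0) : w = h w z • b := by
  by_contra hne
  obtain ⟨v, hv⟩ := H.nd _ (sub_ne_zero.mpr hne)
  apply hv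
  have hzb : h z b = 1 := by rw [H.symm]; exact hbz
  have e := hw (v - h v b • z) (by simp [hzb])
  simp only [map_sub, map_smul, smul_eq_mul, LinearMap.sub_apply, LinearMap.smul_apply] at e ⊢
  rw [H.symm b v]
  linear_combination e

/-- Every element is a difference of squares. -/
theorem diff_sq (H2 : (2 : L) ≠ 0) (a : L) : ∃ x y : L, a = x * x - y * y := by
  refine ⟨(a + 1) / 2, (a - 1) / 2, ?_⟩
  field_simp
  ring

end geo

variable {ι : Type} [Fintype ι] [DecidableEq ι] {F L : Type*} [Field F] [Fintype F] [Field L] [Algebra F L]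
  [Module L (ι → F)] [IsScalarTower F L (ι → F)] {h : LinearMap.BilinForm L (ι → F)}
  [Module.Finite L (ι → F)]
  {lam : L →ₗ[F] F} {Q : QuadraticForm F (ι → F)} {hQ : Nondeg Q} {M : Subgroup (GL ι F)}
  {X : Subgroup ((ι → F) ≃ₗ[F] (ι → F))}

/-- The running hypotheses. -/
structure Ctx (h : LinearMap.BilinForm L (ι → F)) (lam : L →ₗ[F] F) (Q : QuadraticForm F (ι → F))
    (M : Subgroup (GL ι F)) (X : Subgroup ((ι → F) ≃ₗ[F] (ι → F))) : Prop where
  H : OH h
  hlam : lam ≠ 0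
  hf : ∀ u v, polar Q u v = lam (h u v)
  hMX : ∀ g ∈ X, ∃ t ∈ M, ∀ v, t ⋆ v = g v
  hMQ : ∀ t ∈ M, ∀ v, Q (t ⋆ v) = Q v
  hX : HO h X

theorem Ctx.two (C : Ctx h lam Q M X) : (2 : F) ≠ 0 := by
  intro h0
  apply C.H.two
  have := congrArg (algebraMap F L) h0
  rw [map_ofNat, map_zero] at this
  exact this

theorem Ctx.iso (C : Ctx h lam Q M X) (g) (hg : g ∈ X) (x y : ι → F) : lam (h (g x) (g y)) = lam (h x y) := by
  obtain ⟨t, ht, hte⟩ := C.hMX g hg
  have := polar_iso (C.hMQ t ht) x y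
  rw [hte, hte, C.hf, C.hf] at this
  exact this

theorem Ctx.Q_eq (C : Ctx h lam Q M X) (v : ι → F) : Q v = (2 : F)⁻¹ * lam (h v v) := by
  have h1 := C.hf v v
  rw [QuadraticMap.polar_self, two_nsmul] at h1
  rw [← h1]
  have := C.two
  field_simp
  ring

theorem Ctx.Q_sing (C : Ctx h lam Q M X) {v : ι → F} (hv : h v v = 0) : Q v = 0 := by
  rw [C.Q_eq, hv, map_zero, mul_zero]

theorem Ctx.R_conj' (C : Ctx h lam Q M X) {g} (hg : g ∈ X) {e y : ι → F} (hR : R hQ M e y) : R hQ M (g e) (g y) := by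
  obtain ⟨t, ht, hte⟩ := C.hMX g hg
  have := R_conj (C.hMQ t ht) ht hR
  rwa [hte, hte] at this

theorem comm_R (C : Ctx h lam Q M X) {b z ys : ι → F} (hb : h b b = 0) (hbz : h b z = 1) (hys : h b ys = 0)
    {ξ τ : (ι → F) ≃ₗ[F] (ι → F)} (hξ : ξ ∈ X) (hτ : τ ∈ X) (hτb : ∀ a : L, τ (a • b) = a • b) (p : L)
    (hξf : ∀ v, h v b = 0 → ξ v = v + lam (h v ys) • (p • b)) :
    R hQ M (p • b) (ys - τ ys) := by
  have H := C.H
  have iso := C.iso
  set u := p • b with hu
  set y0 := ys - τ ys with hy0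
  have hτu : τ u = u := hτb p
  clear_value u y0
  have huu : h u u = 0 := by simp [hu, hb]
  have hQu : Q u = 0 := C.Q_sing huu
  have hbs : ∀ v, h v b = h b v := fun v => H.symm _ _
  have hτys : h b (τ ys) = 0 := by
    apply lam_unique C.hlam
    intro a
    have := iso τ hτ (a • b) ys
    rw [hτb] at this
    simpa [hys] using this
  have hby0 : h b y0 = 0 := by simp [hy0, hys, hτys]
  have huy0 : h u y0 = 0 := by simp [hu, hby0]
  have huys : h u ys = 0 := by simp [hu, hys]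
  have hpol : polar Q u y0 = 0 := by rw [C.hf, huy0, map_zero]
  have hQy0 : Q y0 = lam (h ys y0) := by
    have e1 := iso τ hτ ys ys
    have e2 : lam (h y0 y0) = (2 : F) * lam (h ys y0) := by
      simp only [hy0, map_sub, LinearMap.sub_apply, e1, H.symm (τ ys) ys]
      ring
    rw [C.Q_eq, e2, ← mul_assoc, inv_mul_cancel₀ C.two, one_mul]
  have hξinv : ξ⁻¹ ∈ X := X.inv_mem hξ
  have key : ∀ x, (τ * ξ * τ⁻¹ * ξ⁻¹) x =
      x + lam (h x u) • y0 - (lam (h x y0) + Q y0 * lam (h x u)) • u := by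
    intro x
    set x₁ := ξ⁻¹ x with hx₁
    have hξx₁ : ξ x₁ = x := inv_app ξ x
    set d := τ⁻¹ x₁ - x₁ with hd
    have hdb : h d b = 0 := by
      apply lam_unique C.hlam
      intro a
      have e := iso τ hτ (τ⁻¹ x₁) (a • b)
      rw [inv_app, hτb] at e
      simp only [map_smul, smul_eq_mul] at e
      simp only [hd, map_sub, LinearMap.sub_apply, mul_sub, mul_zero, map_zero, ← e, sub_self]
    have hξd := hξf d hdb
    set φ := lam (h d ys) with hφ
    have e1 : ξ (τ⁻¹ x₁) = x + d + φ • u := by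
      have : τ⁻¹ x₁ = x₁ + d := by simp [hd]
      rw [this, map_add, hξx₁, hξd]
      abel
    have e2 : τ (ξ (τ⁻¹ x₁)) = τ x + (x₁ - τ x₁) + φ • u := by
      rw [e1, map_add, map_add, map_smul, hτu, hd, map_sub, inv_app]
    have hprod : (τ * ξ * τ⁻¹ * ξ⁻¹) x = τ (ξ (τ⁻¹ x₁)) := rfl
    set E' := x + lam (h x u) • ys - (lam (h x ys) + Q ys * lam (h x u)) • u with hE'
    clear_value E'
    obtain ⟨c, hc⟩ : ∃ c : L, x₁ = E' + c • b := by
      have hw : ∀ v, h v b = 0 → h (x₁ - E') v = 0 := by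
        intro v hv
        apply lam_unique C.hlam
        intro a
        have hav : h (a • v) b = 0 := by simp [hv]
        have huav : h u (a • v) = 0 := by
          simp only [hu, map_smul, LinearMap.smul_apply, smul_eq_mul]
          rw [← hbs, hv]
          simp
        have e3 := iso ξ hξ x₁ (a • v)
        rw [hξx₁, hξf _ hav] at e3
        have e4 : lam (h x (a • v)) + lam (h (a • v) ys) * lam (h x u) = lam (h x₁ (a • v)) := by
          rw [← e3, map_add, map_add, hF_right (h := h) (lam (h (a • v) ys)) x u, lam_F]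
        have e5 : lam (h E' (a • v)) = lam (h x (a • v)) + lam (h x u) * lam (h ys (a • v)) := by
          simp only [hE', map_sub, map_add, LinearMap.sub_apply, LinearMap.add_apply]
          rw [hF_left, hF_left, huav]
          simp
        rw [mul_zero, map_zero, ← smul_eq_mul a (h _ _), ← map_smul, map_sub, LinearMap.sub_apply, map_sub, e5, ← e4, H.symm ys]
        ring
      exact ⟨h (x₁ - E') z, by
        have := perp_line H hbz hw
        rw [← this]
        abel⟩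
    have e3 : x₁ - τ x₁ = x - τ x + lam (h x u) • y0 := by
      rw [hc, map_add, hτb, hE']
      simp only [map_sub, map_add, map_smul, hτu, hy0]
      module
    have e4 : φ = - (lam (h x y0) + Q y0 * lam (h x u)) := by
      have e5 : lam (h (τ⁻¹ x₁) ys) = lam (h x₁ (τ ys)) := by
        have := iso τ hτ (τ⁻¹ x₁) ys
        rw [inv_app] at this
        exact this.symm
      have e6 : φ = - lam (h x₁ y0) := by
        simp only [hφ, hd, hy0, map_sub, LinearMap.sub_apply, e5]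
        ring
      rw [e6, hc, map_add, LinearMap.add_apply, map_add, hQy0]
      simp only [map_smul, LinearMap.smul_apply, hby0, smul_zero, map_zero, add_zero]
      simp only [hE', map_sub, map_add, LinearMap.sub_apply, LinearMap.add_apply]
      rw [hF_left, hF_left, huy0]
      simp only [smul_zero, sub_zero, map_zero, map_smul, smul_eq_mul]
      ring
    rw [hprod, e2, e3, e4]
    simp only [neg_smul]
    abel
  have hbu : h u u = 0 := huu
  obtain ⟨t, ht, hte⟩ := C.hMX _ (X.mul_mem (X.mul_mem (X.mul_mem hτ hξ) (X.inv_mem hτ)) hξinv)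
  refine R_of_mem hQ hQu hpol ht ?_
  intro x
  rw [hte, key, siegelLin_apply, C.hf, C.hf]

/-- All multiples of the rank one map occur. -/
theorem xi_all (C : Ctx h lam Q M X) {b z ys : ι → F} (hb : h b b = 0) (hz : h z z = 0) (hbz : h b z = 1)
    (hys : h b ys = 0) {ξ : (ι → F) ≃ₗ[F] (ι → F)} (hξ : ξ ∈ X) {p' : L} (hp' : p' ≠ 0)
    (hξf : ∀ v, h v b = 0 → ξ v = v + lam (h v ys) • (p' • b)) (p : L) :
    ∃ ξ' ∈ X, ∀ v, h v b = 0 → ξ' v = v + lam (h v ys) • (p • b) := by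
  have H := C.H
  have hbv : ∀ a : L, h (a • b) b = 0 := fun a => by simp [hb]
  have hbs : ∀ a : L, h (a • b) ys = 0 := fun a => by simp [hys]
  have Sadd : ∀ q q' : L, (∃ ξ' ∈ X, ∀ v, h v b = 0 → ξ' v = v + lam (h v ys) • (q • b)) →
      (∃ ξ' ∈ X, ∀ v, h v b = 0 → ξ' v = v + lam (h v ys) • (q' • b)) →
      ∃ ξ' ∈ X, ∀ v, h v b = 0 → ξ' v = v + lam (h v ys) • ((q + q') • b) := by
    rintro q q' ⟨g, hg, hgf⟩ ⟨g', hg', hgf'⟩
    refine ⟨g * g', X.mul_mem hg hg', fun v hv => ?_⟩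
    rw [LinearEquiv.mul_apply, hgf' v hv, map_add, hgf v hv, map_smul, hgf _ (hbv q'), hbs q']
    simp only [map_zero, zero_smul, add_zero, add_smul, smul_add]
    abel
  have Sneg : ∀ q : L, (∃ ξ' ∈ X, ∀ v, h v b = 0 → ξ' v = v + lam (h v ys) • (q • b)) →
      ∃ ξ' ∈ X, ∀ v, h v b = 0 → ξ' v = v + lam (h v ys) • ((-q) • b) := by
    rintro q ⟨g, hg, hgf⟩
    refine ⟨g⁻¹, X.inv_mem hg, fun v hv => ?_⟩
    have e : g (v - lam (h v ys) • (q • b)) = v := by
      have e1 : h (v - lam (h v ys) • (q • b)) b = 0 := by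
        rw [map_sub, LinearMap.sub_apply, hv, hF_left, hbv]
        simp
      have e2 : h (v - lam (h v ys) • (q • b)) ys = h v ys := by
        rw [map_sub, LinearMap.sub_apply, hF_left, hbs]
        simp
      rw [hgf _ e1, e2]
      abel
    have e' : g⁻¹ v = v - lam (h v ys) • (q • b) := by
      calc g⁻¹ v = g⁻¹ (g (v - lam (h v ys) • (q • b))) := by rw [e]
        _ = _ := app_inv g _
    rw [e']
    simp only [neg_smul, smul_neg, sub_eq_add_neg]
  have Ssq : ∀ e : L, ∃ ξ' ∈ X, ∀ v, h v b = 0 → ξ' v = v + lam (h v ys) • ((p' * (e * e)) • b) := by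
    intro e
    by_cases he : e = 0
    · refine ⟨1, X.one_mem, fun v _ => ?_⟩
      simp [he]
    · have hee : e * e ≠ 0 := mul_ne_zero he he
      refine ⟨toF (F := F) (tE H hb hz hbz hee) * ξ * (toF (F := F) (tE H hb hz hbz hee))⁻¹,
        X.mul_mem (X.mul_mem (tE_sq_mem H C.hX hb hz hbz he) hξ) (X.inv_mem (tE_sq_mem H C.hX hb hz hbz he)),
        fun v hv => ?_⟩
      have hTinv : (toF (F := F) (tE H hb hz hbz hee))⁻¹ v = v + (((e * e)⁻¹ - 1) * h v z) • b := by
        change (tE H hb hz hbz hee)⁻¹ v = _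
        rw [tE_inv_apply, tLin_apply, hv]
        simp
      have hTb : ∀ a : L, toF (F := F) (tE H hb hz hbz hee) (a • b) = (a * (e * e)) • b := by
        intro a
        rw [toF_apply, map_smul, tE_apply, hb, hbz]
        simp only [mul_one, mul_zero, zero_smul, add_zero]
        module
      have hTT : toF (F := F) (tE H hb hz hbz hee) ((toF (F := F) (tE H hb hz hbz hee))⁻¹ v) = v :=
        inv_app _ v
      set w := (toF (F := F) (tE H hb hz hbz hee))⁻¹ v with hw
      have hwb : h w b = 0 := by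
        rw [hTinv]
        simp [hv, hb]
      have hws : h w ys = h v ys := by
        rw [hTinv]
        simp [hys]
      change toF (F := F) (tE H hb hz hbz hee) (ξ w) = _
      rw [hξf w hwb, hws, map_add, hTT, map_smul, hTb]
  obtain ⟨x, y, hxy⟩ := diff_sq H.two (p / p')
  have e : p = p' * (x * x) + -(p' * (y * y)) := by
    have : p = p' * (p / p') := by field_simp
    rw [this, hxy]
    ring
  rw [e]
  exact Sadd _ _ (Ssq x) (Sneg _ (Ssq y))

/-- Elements acting through `y` on all multiples of `b`. -/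
def G (hQ : Nondeg Q) (M : Subgroup (GL ι F)) (b y : ι → F) : Prop := ∀ p : L, R hQ M (p • b) y

theorem G_add {b y y' : ι → F} (h1 : G (L := L) hQ M b y) (h2 : G (L := L) hQ M b y') : G (L := L) hQ M b (y + y') :=
  fun p => R_add (h1 p) (h2 p)

theorem G_sub {b y y' : ι → F} (h1 : G (L := L) hQ M b y) (h2 : G (L := L) hQ M b y') : G (L := L) hQ M b (y - y') :=
  fun p => R_sub (h1 p) (h2 p)

theorem G_neg {b y : ι → F} (h1 : G (L := L) hQ M b y) : G (L := L) hQ M b (-y) :=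
  fun p => R_neg (h1 p)

theorem G_zero (C : Ctx h lam Q M X) {b : ι → F} (hb : h b b = 0) : G (L := L) hQ M b 0 :=
  fun p => R_zero (C.Q_sing (by simp [hb]))

theorem G_smul (C : Ctx h lam Q M X) {b y : ι → F} (hb : h b b = 0) (c : F) (h1 : G (L := L) hQ M b y) :
    G (L := L) hQ M b (c • y) := by
  intro p
  apply R_smul_right (C.Q_sing (by simp [hb])) c
  rw [← smul_assoc]
  exact h1 (c • p)

theorem G_conj (C : Ctx h lam Q M X) {b y : ι → F} {τ : (ι → F) ≃ₗ[F] (ι → F)} (hτ : τ ∈ X)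
    (hτb : ∀ a : L, τ (a • b) = a • b) (h1 : G (L := L) hQ M b y) : G (L := L) hQ M b (τ y) := by
  intro p
  have := C.R_conj' hτ (h1 p)
  rwa [hτb] at this

theorem sE_fix (H : OH h) {b y : ι → F} (hb : h b b = 0) (hy : h b y = 0) (a : L) :
    toF (F := F) (sE H hb hy) (a • b) = a • b := by
  rw [toF_apply, map_smul, Cfsg.Agent.H28.XA.sE_apply, hb, hy]
  simp

/-- The first non-zero element. -/
theorem exists_y0 (C : Ctx h lam Q M X) (hd : 4 ≤ finrank L (ι → F)) [Finite L] {θ : L} (hθ0 : θ ≠ 0) (hθ1 : θ ≠ 1)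
    (hθ2 : θ ≠ -1) {b z ys : ι → F} (hb : h b b = 0) (hz : h z z = 0) (hbz : h b z = 1) (hys : h b ys = 0)
    (hysn : ys ∉ lin F L b) {ξ : (ι → F) ≃ₗ[F] (ι → F)} (hξ : ξ ∈ X) {p' : L} (hp' : p' ≠ 0)
    (hξf : ∀ v, h v b = 0 → ξ v = v + lam (h v ys) • (p' • b)) :
    ∃ y ∈ J2 h b z, y ≠ 0 ∧ G (L := L) hQ M b y := by
  have H := C.H
  have hzb : h z b = 1 := by rw [H.symm]; exact hbz
  set yb := ys - h ys z • b with hyb
  have hyb1 : yb ∈ J2 h b z := by
    refine mem_J2.mpr ⟨?_, ?_⟩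
    · simp only [hyb, map_sub, map_smul, LinearMap.sub_apply, LinearMap.smul_apply, hb, smul_eq_mul, mul_zero, sub_zero]
      rw [H.symm]
      exact hys
    · simp [hyb, hbz]
  have hyb0 : yb ≠ 0 := by
    intro h0
    apply hysn
    refine mem_lin.mpr ⟨h ys z, ?_⟩
    rw [hyb] at h0
    exact (sub_eq_zero.mp h0).symm
  obtain ⟨τ, hτi, hτX, hτb, hτz, hτy⟩ := exists_move H C.hX hd hθ0 hθ1 hθ2 hb hz hbz hyb1 hyb0
  have hτa : ∀ a : L, toF (F := F) τ (a • b) = a • b := fun a => by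
    rw [toF_apply, map_smul, hτb]
  have e : ys - toF (F := F) τ ys = yb - τ yb := by
    rw [toF_apply, hyb, map_sub, map_smul, hτb]
    abel
  refine ⟨yb - τ yb, ?_, sub_ne_zero.mpr (Ne.symm hτy), ?_⟩
  · refine (J2 h b z).sub_mem hyb1 ?_
    obtain ⟨h1, h2⟩ := mem_J2.mp hyb1
    refine mem_J2.mpr ⟨?_, ?_⟩
    · rw [← hτb, hτi, h1] <;> rw [← hτb]
    · rw [← hτz, hτi, h2]
  · intro p
    obtain ⟨ξ', hξ', hξ'f⟩ := xi_all C hb hz hbz hys hξ hp' hξf p
    rw [← e]
    exact comm_R C hb hbz hys hξ' hτX hτa p hξ'f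

/-- All of the line through `b`. -/
theorem G_line (C : Ctx h lam Q M X) (hd : 3 ≤ finrank L (ι → F)) {b z y0 : ι → F} (hb : h b b = 0) (hz : h z z = 0)
    (hbz : h b z = 1) (hy0 : y0 ∈ J2 h b z) (hy00 : y0 ≠ 0) (hG : G (L := L) hQ M b y0) (a : L) :
    G (L := L) hQ M b (a • b) := by
  have H := C.H
  obtain ⟨u, hu, huy⟩ := nds_J2 H hb hz hbz y0 hy0 hy00
  obtain ⟨hub, huz⟩ := mem_J2.mp hu
  obtain ⟨hyb, hyz⟩ := mem_J2.mp hy0
  set ya := (a / h y0 u) • u with hya
  have hbya : h b ya = 0 := by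
    rw [hya, map_smul, smul_eq_mul, H.symm b u, hub, mul_zero]
  have e1 : Cfsg.Agent.H28.XA.sE H hb hbya y0 = y0 - a • b := by
    rw [Cfsg.Agent.H28.XA.sE_apply, hyb]
    have e2 : h y0 ya = a := by
      rw [hya, map_smul, smul_eq_mul]
      field_simp
    rw [e2]
    simp
  have h2 := G_conj C (sE_mem' H C.hX hd hb hbya) (sE_fix H hb hbya) hG
  rw [toF_apply, e1] at h2
  have h3 := G_sub hG h2
  rwa [sub_sub_cancel] at h3

section alg

variable {F' L' : Type*} [Field F'] [Field L'] [Algebra F' L'] [Module.Finite F' L']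

theorem sq_not_alg (hr : (finrank F' L').Prime) (hr3 : 3 ≤ finrank F' L') {x : L'}
    (hx : ∀ c : F', algebraMap F' L' c ≠ x) : ∀ c : F', algebraMap F' L' c ≠ x * x := by
  classical
  intro c hc
  let W := Submodule.span F' ((({1, x} : Finset L') : Set L'))
  have hmem : ∀ a, a ∈ W ↔ ∃ a₁ a₂ : F', a₁ • (1 : L') + a₂ • x = a := by
    intro a
    have : ((({1, x} : Finset L') : Set L')) = {1, x} := by simp
    change a ∈ Submodule.span F' _ ↔ _
    rw [this, Submodule.mem_span_pair]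
  have hxmem : x ∈ W := (hmem x).mpr ⟨0, 1, by simp⟩
  have honem : (1 : L') ∈ W := (hmem 1).mpr ⟨1, 0, by simp⟩
  let Z : Subalgebra F' L' :=
    { carrier := W
      mul_mem' := by
        intro a b ha hb
        obtain ⟨a₁, a₂, rfl⟩ := (hmem a).mp ha
        obtain ⟨b₁, b₂, rfl⟩ := (hmem b).mp hb
        refine (hmem _).mpr ⟨a₁ * b₁ + a₂ * b₂ * c, a₁ * b₂ + a₂ * b₁, ?_⟩
        simp only [Algebra.smul_def, mul_one, map_add, map_mul, hc]
        ring
      one_mem' := honem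
      add_mem' := fun ha hb => W.add_mem ha hb
      zero_mem' := W.zero_mem
      algebraMap_mem' := fun r => by
        have := W.smul_mem r honem
        rwa [Algebra.smul_def, mul_one] at this }
  have hZ := alg_eq_top hr Z (show x ∈ Z from hxmem) hx
  have hW : W = ⊤ := by
    apply top_unique
    intro a _
    have : a ∈ Z := by rw [hZ]; trivial
    exact this
  have h1 : finrank F' W ≤ _ := finrank_span_finset_le_card (R := F') ({1, x} : Finset L')
  have h2 : ({1, x} : Finset L').card ≤ 2 := Finset.card_le_two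
  rw [hW, finrank_top] at h1
  omega

theorem not_all_sq (hr : (finrank F' L').Prime) (H2 : (2 : L') ≠ 0) : ∃ α : L', ∀ c : F', algebraMap F' L' c ≠ α * α := by
  by_contra hcon
  push Not at hcon
  obtain ⟨θ, hθ⟩ := exists_not_alg (F := F') (L := L') hr
  obtain ⟨x, y, hxy⟩ := diff_sq H2 θ
  obtain ⟨c₁, h1⟩ := hcon x
  obtain ⟨c₂, h2⟩ := hcon y
  apply hθ (c₁ - c₂)
  rw [map_sub, h1, h2, hxy]

theorem t_of {α : L'} (H2 : (2 : L') ≠ 0) (hα : ∀ c : F', algebraMap F' L' c ≠ α * α) :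
    ∀ c : F', algebraMap F' L' c ≠ 4 * α ^ 2 - 2 := by
  intro c hc
  have h2F : (2 : F') ≠ 0 := by
    intro h0
    apply H2
    have := congrArg (algebraMap F' L') h0
    rwa [map_ofNat, map_zero] at this
  apply hα ((c + 2) / 4)
  have h4 : (4 : F') ≠ 0 := by
    have : (4 : F') = 2 * 2 := by norm_num
    rw [this]
    exact mul_ne_zero h2F h2F
  have h4L : (4 : L') ≠ 0 := by
    have : (4 : L') = 2 * 2 := by norm_num
    rw [this]
    exact mul_ne_zero H2 H2
  rw [map_div₀, map_add, hc, map_ofNat, map_ofNat]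
  field_simp
  ring

end alg

section vect

variable {L V : Type*} [Field L] [AddCommGroup V] [Module L V] {h : LinearMap.BilinForm L V}

theorem partner_in (H : OH h) {S : Submodule L V} (hS : NDS h S) {y : V} (hy : y ∈ S) (hy0 : y ≠ 0) (hyy : h y y = 0) :
    ∃ y' ∈ S, h y' y' = 0 ∧ h y y' = 1 := by
  obtain ⟨u, hu, huy⟩ := hS y hy hy0
  set u1 := (h y u)⁻¹ • u with hu1
  have e1 : h y u1 = 1 := by simp [hu1, huy]
  have hm : u1 ∈ S := S.smul_mem _ hu
  refine ⟨u1 - (h u1 u1 / 2) • y, S.sub_mem hm (S.smul_mem _ hy), ?_, ?_⟩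
  · have e2 : h u1 y = 1 := by rw [H.symm]; exact e1
    simp only [map_sub, map_smul, LinearMap.sub_apply, LinearMap.smul_apply, smul_eq_mul, hyy, e1, e2]
    have := H.two
    field_simp
    ring
  · simp [e1, hyy]

theorem rLin_hyp (H : OH h) {b z : V} (hb : h b b = 0) (hz : h z z = 0) (hbz : h b z = 1) :
    rLin h (b - z) b = z := by
  have hzb : h z b = 1 := by rw [H.symm]; exact hbz
  have e1 : h (b - z) (b - z) = -2 := by
    simp only [map_sub, LinearMap.sub_apply, hb, hz, hbz, hzb]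
    ring
  rw [rLin_apply, e1]
  have e2 : h b (b - z) = -1 := by simp [hb, hbz]
  rw [e2]
  have e3 : (2 : L) / -2 * -1 = 1 := by
    have := H.two
    field_simp
  rw [e3, one_smul]
  abel

theorem norm_hyp (H : OH h) {b z : V} (hb : h b b = 0) (hz : h z z = 0) (hbz : h b z = 1) :
    h (b - z) (b - z) = -2 := by
  have hzb : h z b = 1 := by rw [H.symm]; exact hbz
  simp only [map_sub, LinearMap.sub_apply, hb, hz, hbz, hzb]
  ring

end vect

variable [Module.Finite F L]

/-- Multiples of a singular vector. -/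
theorem G_sing_line (C : Ctx h lam Q M X) {b y y' : ι → F} (hb : h b b = 0) (hyy : h y y = 0) (hy'y' : h y' y' = 0)
    (hyy' : h y y' = 1) (hby : h b y = 0) (hby' : h b y' = 0) (hG : G (L := L) hQ M b y) (a : L) :
    G (L := L) hQ M b (a • y) := by
  have H := C.H
  have key : ∀ x : L, G (L := L) hQ M b ((x * x) • y) := by
    intro x
    by_cases hx : x = 0
    · subst hx
      simpa using G_zero C hb
    · have hxx : x * x ≠ 0 := mul_ne_zero hx hx
      have h1 := G_conj C (tE_sq_mem H C.hX hyy hy'y' hyy' hx) (fun a => by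
        rw [toF_apply, map_smul, tE_apply, hby, hby']
        simp) hG
      rw [toF_apply, tE_apply, hyy, hyy'] at h1
      convert h1 using 1
      module
  obtain ⟨x, w, rfl⟩ := diff_sq H.two a
  rw [sub_smul]
  exact G_sub (key x) (key w)

/-- A pair from a singular element. -/
theorem pair_sing (C : Ctx h lam Q M X) {b z y : ι → F} (hb : h b b = 0) (hz : h z z = 0) (hbz : h b z = 1)
    (hy : y ∈ J2 h b z) (hy0 : y ≠ 0) (hyy : h y y = 0) (hG : G (L := L) hQ M b y) :
    ∃ y₁ ∈ J2 h b z, ∃ y₂ ∈ J2 h b z, G (L := L) hQ M b y₁ ∧ G (L := L) hQ M z y₂ ∧ lam (h y₁ y₂) ≠ 0 := by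
  have H := C.H
  obtain ⟨y', hy', hy'y', hyy'⟩ := partner_in H (nds_J2 H hb hz hbz) hy hy0 hyy
  obtain ⟨hyb, hyz⟩ := mem_J2.mp hy
  obtain ⟨hy'b, hy'z⟩ := mem_J2.mp hy'
  have hby : h b y = 0 := by rw [H.symm]; exact hyb
  have hby' : h b y' = 0 := by rw [H.symm]; exact hy'b
  have e1 := norm_hyp H hb hz hbz
  have e2 := norm_hyp H hyy hy'y' hyy'
  have h2 : (-2 : L) ≠ 0 := neg_ne_zero.mpr H.two
  have hn1 : h (b - z) (b - z) ≠ 0 := by rw [e1]; exact h2
  have hn2 : h (y - y') (y - y') ≠ 0 := by rw [e2]; exact h2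
  have hσ := rr_mem H C.hX hn1 hn2 (by rw [e1, e2])
  have eb : (rE H hn1 * rE H hn2) b = z := by
    have e0 : rLin h (y - y') b = b := rLin_perp (by simp [hby, hby'])
    rw [LinearEquiv.mul_apply, rE_apply, rE_apply, e0, rLin_hyp H hb hz hbz]
  have ey : (rE H hn1 * rE H hn2) y = y' := by
    have e0 : rLin h (b - z) y' = y' := rLin_perp (by simp [hy'b, hy'z])
    rw [LinearEquiv.mul_apply, rE_apply, rE_apply, rLin_hyp H hyy hy'y' hyy', e0]
  obtain ⟨a, ha⟩ : ∃ a, lam a ≠ 0 := by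
    by_contra hcon
    push Not at hcon
    exact C.hlam (LinearMap.ext hcon)
  refine ⟨a • y, (J2 h b z).smul_mem _ hy, y', hy', G_sing_line C hb hyy hy'y' hyy' hby hby' hG a, ?_, ?_⟩
  · intro p
    have := C.R_conj' hσ (hG p)
    rwa [toF_apply, toF_apply, map_smul, eb, ey] at this
  · simp [hyy', ha]

/-- A pair from a non-singular element. -/
theorem pair_ns (C : Ctx h lam Q M X) (hr : (finrank F L).Prime) {b z y v : ι → F} (hb : h b b = 0) (hz : h z z = 0)
    (hbz : h b z = 1) (hy : y ∈ J2 h b z) (hv : v ∈ J2 h b z) (hn : h y y ≠ 0) (hvv : h v v = h y y)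
    (ht : ∀ c : F, algebraMap F L c ≠ 4 * (h y v / h y y) ^ 2 - 2) (hG : G (L := L) hQ M b y) :
    ∃ y₁ ∈ J2 h b z, ∃ y₂ ∈ J2 h b z, G (L := L) hQ M b y₁ ∧ G (L := L) hQ M z y₂ ∧ lam (h y₁ y₂) ≠ 0 := by
  have H := C.H
  have h20 := H.two
  obtain ⟨hyb, hyz⟩ := mem_J2.mp hy
  obtain ⟨hvb, hvz⟩ := mem_J2.mp hv
  have hzb : h z b = 1 := by rw [H.symm]; exact hbz
  have hby : h b y = 0 := by rw [H.symm]; exact hyb
  have hbv : h b v = 0 := by rw [H.symm]; exact hvb
  have hv' : h v v ≠ 0 := by rw [hvv]; exact hn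
  set n := h y y with hnd
  set ρ := rE H hv' * rE H hn with hρ
  have hρX : toF (F := F) ρ ∈ X := rr_mem H C.hX hv' hn hvv
  have hρinvX : (toF (F := F) ρ)⁻¹ ∈ X := X.inv_mem hρX
  have hρb : ρ b = b := by
    have e0 : rLin h y b = b := rLin_perp hby
    have e0' : rLin h v b = b := rLin_perp hbv
    rw [hρ, LinearEquiv.mul_apply, rE_apply, rE_apply, e0, e0']
  have hτa : ∀ a : L, toF (F := F) ρ (a • b) = a • b := fun a => by
    rw [toF_apply, map_smul, hρb]
  have hτa' : ∀ a : L, (toF (F := F) ρ)⁻¹ (a • b) = a • b := fun a => by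
    calc (toF (F := F) ρ)⁻¹ (a • b) = (toF (F := F) ρ)⁻¹ (toF (F := F) ρ (a • b)) := by rw [hτa]
      _ = _ := app_inv _ _
  set k := (2 / n) * h y v with hk
  have hk' : (2 / h v v) * h y v = k := by rw [hvv]
  have hk'' : (2 / n) * h v y = k := by rw [H.symm v y]
  have e1 : ρ y = - y + k • v := by
    rw [hρ, LinearEquiv.mul_apply, rE_apply, rE_apply, rLin_self hn, map_neg, rLin_apply, hk']
    abel
  have e2 : (toF (F := F) ρ)⁻¹ y = - y - k • v + (k * k) • y := by
    change (rE H hn)⁻¹ ((rE H hv')⁻¹ y) = _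
    rw [rE_inv_apply, rE_inv_apply, rLin_apply v y, hk', map_sub, map_smul, rLin_self hn, rLin_apply y v, hk'']
    module
  set t := 4 * (h y v / n) ^ 2 - 2 with htd
  have hkt : k * k - 2 = t := by
    rw [hk, htd]
    field_simp
    ring
  have hsum : ∀ c : L, toF (F := F) ρ (c • y) + (toF (F := F) ρ)⁻¹ (c • y) = (t * c) • y := by
    intro c
    have e3 : (toF (F := F) ρ)⁻¹ (c • y) = c • (toF (F := F) ρ)⁻¹ y := by
      change ρ⁻¹ (c • y) = c • ρ⁻¹ y
      rw [map_smul]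
    rw [e3, toF_apply, map_smul, e1, e2, ← hkt]
    module
  have hP : ∀ s ∈ Algebra.adjoin F ({t} : Set L), ∀ c : L, G (L := L) hQ M b (c • y) → G (L := L) hQ M b ((s * c) • y) := by
    intro s hs
    induction hs using Algebra.adjoin_induction with
    | mem x hx =>
      obtain rfl : x = t := hx
      intro c hc
      rw [← hsum]
      exact G_add (G_conj C hρX hτa hc) (G_conj C hρinvX hτa' hc)
    | algebraMap r =>
      intro c hc
      have := G_smul C hb r hc
      rwa [← algebraMap_smul L r, smul_smul] at this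
    | add s s' _ _ h1 h2 =>
      intro c hc
      rw [add_mul, add_smul]
      exact G_add (h1 c hc) (h2 c hc)
    | mul s s' _ _ h1 h2 =>
      intro c hc
      rw [mul_assoc]
      exact h1 _ (h2 c hc)
  have htop : Algebra.adjoin F ({t} : Set L) = ⊤ :=
    alg_eq_top hr _ (Algebra.subset_adjoin rfl) ht
  have hline : ∀ a : L, G (L := L) hQ M b (a • y) := by
    intro a
    have h1 := hP a (by rw [htop]; trivial) 1 (by rwa [one_smul])
    rwa [mul_one] at h1
  -- the swap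
  set e : L := - n / 2 with he
  have he0 : e ≠ 0 := by
    rw [he]
    exact div_ne_zero (neg_ne_zero.mpr hn) h20
  have hn1' : h (b - e • z) (b - e • z) = n := by
    simp only [map_sub, map_smul, LinearMap.sub_apply, LinearMap.smul_apply, smul_eq_mul, hb, hz, hbz, hzb]
    rw [he]
    field_simp
    ring
  have hn1 : h (b - e • z) (b - e • z) ≠ 0 := by rw [hn1']; exact hn
  have hσ := rr_mem H C.hX hn1 hn hn1'
  have eb : (rE H hn1 * rE H hn) b = e • z := by
    have e0 : rLin h y b = b := rLin_perp hby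
    rw [LinearEquiv.mul_apply, rE_apply, rE_apply, e0, rLin_apply (b - e • z) b, hn1']
    have e3 : h b (b - e • z) = - e := by simp [hb, hbz]
    rw [e3]
    have e4 : (2 / n) * (- e) = 1 := by
      rw [he]
      field_simp
    rw [e4, one_smul]
    abel
  have ey : (rE H hn1 * rE H hn) y = - y := by
    rw [LinearEquiv.mul_apply, rE_apply, rE_apply, rLin_self hn, map_neg, rLin_perp]
    simp [hyb, hyz]
  obtain ⟨a, ha⟩ : ∃ a, lam a ≠ 0 := by
    by_contra hcon
    push Not at hcon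
    exact C.hlam (LinearMap.ext hcon)
  refine ⟨(a / n) • y, (J2 h b z).smul_mem _ hy, - y, (J2 h b z).neg_mem hy, hline _, ?_, ?_⟩
  · intro p
    have := C.R_conj' hσ (hG (p / e))
    rw [toF_apply, toF_apply, map_smul, eb, ey, smul_smul, div_mul_cancel₀ _ he0] at this
    exact this
  · have e5 : h ((a / n) • y) (- y) = - a := by
      simp only [map_smul, map_neg, LinearMap.smul_apply, smul_eq_mul, ← hnd]
      field_simp
    rw [e5, map_neg]
    exact neg_ne_zero.mpr ha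

theorem exists_v_5 [Finite L] (C : Ctx h lam Q M X) (hr : (finrank F L).Prime) (hd : 5 ≤ finrank L (ι → F))
    {b z y : ι → F} (hb : h b b = 0) (hz : h z z = 0) (hbz : h b z = 1) (hy : y ∈ J2 h b z) (hn : h y y ≠ 0) :
    ∃ v ∈ J2 h b z, h v v = h y y ∧ ∀ c : F, algebraMap F L c ≠ 4 * (h y v / h y y) ^ 2 - 2 := by
  have H := C.H
  obtain ⟨α, hα⟩ := not_all_sq (F' := F) (L' := L) hr H.two
  have hJ := nds_J2 H hb hz hbz
  have hS := nds_pp H hJ hy hn
  have h1 := finrank_J2 (h := h) b z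
  have h2 := finrank_pp (h := h) (J2 h b z) y
  obtain ⟨w, hw, hww⟩ := exists_norm H hS (by omega) (h y y * (1 - α * α))
  obtain ⟨hw1, hwy⟩ := mem_pp.mp hw
  have hyw : h y w = 0 := by rw [H.symm]; exact hwy
  refine ⟨α • y + w, (J2 h b z).add_mem ((J2 h b z).smul_mem _ hy) hw1, ?_, ?_⟩
  · simp only [map_add, map_smul, LinearMap.add_apply, LinearMap.smul_apply, smul_eq_mul, hwy, hyw, hww]
    ring
  · have e : h y (α • y + w) / h y y = α := by
      simp only [map_add, map_smul, smul_eq_mul, hyw, add_zero]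
      field_simp
    rw [e]
    exact t_of H.two hα

theorem exists_v_3 [Finite L] (C : Ctx h lam Q M X) (hr : (finrank F L).Prime) (hr3 : 3 ≤ finrank F L)
    (hd : 4 ≤ finrank L (ι → F)) {b z y : ι → F} (hb : h b b = 0) (hz : h z z = 0) (hbz : h b z = 1)
    (hy : y ∈ J2 h b z) (hn : h y y ≠ 0) :
    ∃ v ∈ J2 h b z, h v v = h y y ∧ ∀ c : F, algebraMap F L c ≠ 4 * (h y v / h y y) ^ 2 - 2 := by
  have H := C.H
  have hJ := nds_J2 H hb hz hbz
  have hS := nds_pp H hJ hy hn
  have h1 := finrank_J2 (h := h) b z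
  have h2 := finrank_pp (h := h) (J2 h b z) y
  obtain ⟨u, hu, hu0⟩ := exists_ne_of_finrank (S := pp h (J2 h b z) y) (by omega)
  obtain ⟨y', hy', hn'⟩ := exists_nonsing H hS hu hu0
  obtain ⟨hy'1, hy'y⟩ := mem_pp.mp hy'
  have hyy' : h y y' = 0 := by rw [H.symm]; exact hy'y
  set n := h y y with hnd
  set n' := h y' y' with hnd'
  have hν : n / n' ≠ 0 := div_ne_zero hn hn'
  obtain ⟨m, hm0, hc⟩ : ∃ m : L, m ≠ 0 ∧ ∀ c₀ : F, algebraMap F L c₀ ≠ (n / n') / (m * m) := by
    by_contra hcon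
    push Not at hcon
    obtain ⟨α, hα⟩ := not_all_sq (F' := F) (L' := L) hr H.two
    have hα0 : α ≠ 0 := by
      rintro rfl
      exact hα 0 (by simp)
    obtain ⟨c₁, h1'⟩ := hcon 1 one_ne_zero
    obtain ⟨c₂, h2'⟩ := hcon α hα0
    have hαα : α * α ≠ 0 := mul_ne_zero hα0 hα0
    have hc2 : algebraMap F L c₂ ≠ 0 := by
      rw [h2']
      exact div_ne_zero hν hαα
    apply hα (c₁ / c₂)
    rw [map_div₀, h1', h2']
    field_simp
  set c := (n / n') / (m * m) with hcd
  clear_value c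
  have hc0 : c ≠ 0 := by
    intro h0
    exact hc 0 (by simp [h0])
  have hc1 : 1 + c ≠ 0 := by
    intro h0
    apply hc (-1)
    rw [map_neg, map_one]
    linear_combination -h0
  set α := (1 - c) / (1 + c) with hαd
  have hαc : α * (1 + c) = 1 - c := div_mul_cancel₀ _ hc1
  clear_value α
  have hα : ∀ c₀ : F, algebraMap F L c₀ ≠ α := by
    intro c₀ h0
    have e : c * (1 + α) = 1 - α := by linear_combination hαc
    have h1α : 1 + α ≠ 0 := by
      intro h3
      apply H.two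
      rw [h3, mul_zero] at e
      linear_combination h3 - e
    apply hc ((1 - c₀) / (1 + c₀))
    rw [map_div₀, map_sub, map_add, map_one, h0]
    field_simp
    linear_combination -e
  have hkey : α * α * c + (α - 1) * (α - 1) = c := by
    rw [hαd]
    field_simp
    ring
  have hn'' : n = n' * (c * (m * m)) := by
    rw [hcd]
    field_simp
  refine ⟨α • y + (m * (α - 1)) • y', (J2 h b z).add_mem ((J2 h b z).smul_mem _ hy) ((J2 h b z).smul_mem _ hy'1), ?_, ?_⟩
  · simp only [map_add, map_smul, LinearMap.add_apply, LinearMap.smul_apply, smul_eq_mul, hy'y, hyy', ← hnd, ← hnd',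
      mul_zero, add_zero, zero_add]
    linear_combination (n' * (m * m)) * hkey + (α * α - 1) * hn''
  · have e : h y (α • y + (m * (α - 1)) • y') / n = α := by
      simp only [map_add, map_smul, smul_eq_mul, hyy', mul_zero, add_zero, ← hnd]
      field_simp
    rw [e]
    exact t_of H.two (sq_not_alg hr hr3 hα)

theorem exists_pair [Finite L] (C : Ctx h lam Q M X) (hr : (finrank F L).Prime)
    (hcase : 5 ≤ finrank L (ι → F) ∨ 3 ≤ finrank F L) (hd : 4 ≤ finrank L (ι → F)) {b z y : ι → F}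
    (hb : h b b = 0) (hz : h z z = 0) (hbz : h b z = 1) (hy : y ∈ J2 h b z) (hy0 : y ≠ 0)
    (hG : G (L := L) hQ M b y) :
    ∃ y₁ ∈ J2 h b z, ∃ y₂ ∈ J2 h b z, G (L := L) hQ M b y₁ ∧ G (L := L) hQ M z y₂ ∧ lam (h y₁ y₂) ≠ 0 := by
  by_cases hyy : h y y = 0
  · exact pair_sing C hb hz hbz hy hy0 hyy hG
  · obtain ⟨v, hv, hvv, ht⟩ : ∃ v ∈ J2 h b z, h v v = h y y ∧
        ∀ c : F, algebraMap F L c ≠ 4 * (h y v / h y y) ^ 2 - 2 := by
      rcases hcase with h5 | h3
      · exact exists_v_5 C hr h5 hb hz hbz hy hyy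
      · exact exists_v_3 C hr h3 hd hb hz hbz hy hyy
    exact pair_ns C hr hb hz hbz hy hv hyy hvv ht hG

theorem R_pz (C : Ctx h lam Q M X) {b z y₁ y₂ : ι → F} (hb : h b b = 0) (hz : h z z = 0) (hbz : h b z = 1)
    (hy₁ : y₁ ∈ J2 h b z) (hy₂ : y₂ ∈ J2 h b z) (hG₁ : G (L := L) hQ M b y₁) (hG₂ : G (L := L) hQ M z y₂)
    (hne : lam (h y₁ y₂) ≠ 0) (p p₁ : L) (hpp : lam (p * p₁) = 0) : R hQ M (p • b) (p₁ • z) := by
  have H := C.H
  obtain ⟨hy₁b, hy₁z⟩ := mem_J2.mp hy₁
  obtain ⟨hy₂b, hy₂z⟩ := mem_J2.mp hy₂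
  have hby₂ : h b y₂ = 0 := by rw [H.symm]; exact hy₂b
  set c := lam (h y₁ y₂) with hc
  set p₂ := c⁻¹ • p₁ with hp₂
  obtain ⟨he, hyy, ht⟩ := hG₂ p₂
  have h1 := R_conj (sE_iso hQ he hyy) ht (hG₁ p)
  have e1 : sE hQ he hyy ⋆ (p • b) = p • b := by
    rw [sE_apply', C.hf, C.hf]
    have e3 : lam (h (p • b) (p₂ • z)) = 0 := by
      have : h (p • b) (p₂ • z) = c⁻¹ • (p * p₁) := by
        simp only [map_smul, LinearMap.smul_apply, smul_eq_mul, hbz, hp₂, mul_one]
        rw [Algebra.smul_def, Algebra.smul_def]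
        ring
      rw [this, map_smul, hpp, smul_zero]
    have e4 : lam (h (p • b) y₂) = 0 := by simp [hby₂]
    rw [e3, e4]
    simp
  have e2 : sE hQ he hyy ⋆ y₁ = y₁ - p₁ • z := by
    rw [sE_apply', C.hf, C.hf]
    have e3 : lam (h y₁ (p₂ • z)) = 0 := by simp [hy₁z]
    rw [e3, ← hc]
    simp only [zero_smul, add_zero, mul_zero]
    congr 1
    rw [hp₂, smul_assoc, smul_smul, mul_inv_cancel₀ hne, one_smul]
  rw [e1, e2] at h1
  have h2 := R_sub (hG₁ p) h1
  rwa [sub_sub_cancel] at h2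

theorem R_py (C : Ctx h lam Q M X) (hd : 3 ≤ finrank L (ι → F)) {b z y : ι → F} (hb : h b b = 0) (hz : h z z = 0)
    (hbz : h b z = 1) (hline : ∀ a : L, G (L := L) hQ M b (a • b)) {p p₁ : L} (hpz : R hQ M (p • b) (p₁ • z))
    (hy : y ∈ J2 h b z) : R hQ M (p • b) (p₁ • y) := by
  have H := C.H
  obtain ⟨hyb, hyz⟩ := mem_J2.mp hy
  have hby : h b y = 0 := by rw [H.symm]; exact hyb
  have hzy : h z y = 0 := by rw [H.symm]; exact hyz
  have hzb : h z b = 1 := by rw [H.symm]; exact hbz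
  have h1 := C.R_conj' (sE_mem' H C.hX hd hb hby) hpz
  rw [sE_fix H hb hby p, toF_apply, map_smul, Cfsg.Agent.H28.XA.sE_apply, hzb, hzy] at h1
  have h2 := R_sub h1 hpz
  have h3 := R_add h2 (hline (p₁ * (h y y / 2)) p)
  convert h3 using 1
  simp only [zero_add, mul_one, one_smul]
  module

theorem T_pb [Finite L] (C : Ctx h lam Q M X) (hr : (finrank F L).Prime) (hd : 3 ≤ finrank L (ι → F)) {b z : ι → F}
    (hb : h b b = 0) (hz : h z z = 0) (hbz : h b z = 1) (hline : ∀ a : L, G (L := L) hQ M b (a • b))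
    (hpz : ∀ p p₁ : L, lam (p * p₁) = 0 → R hQ M (p • b) (p₁ • z)) {p : L} (hp : p ≠ 0) :
    T hQ M (p • b) := by
  have H := C.H
  have hQe : Q (p • b) = 0 := C.Q_sing (by simp [hb])
  obtain ⟨a, ha⟩ : ∃ a, lam a ≠ 0 := by
    by_contra hcon
    push Not at hcon
    exact C.hlam (LinearMap.ext hcon)
  have ha0 : a ≠ 0 := by
    rintro rfl
    simp at ha
  obtain ⟨θ, hθ⟩ := exists_not_alg (F := F) (L := L) hr
  set k : L := a * (θ - algebraMap F L (lam (θ * a) / lam a)) with hk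
  have hk0 : k ≠ 0 := mul_ne_zero ha0 (sub_ne_zero.mpr (Ne.symm (hθ _)))
  have hlk : lam k = 0 := by
    have e : k = θ * a - (lam (θ * a) / lam a) • a := by
      rw [hk, Algebra.smul_def]
      ring
    rw [e, map_sub, map_smul, smul_eq_mul]
    field_simp
    simp
  set p₁ := p⁻¹ * k with hp₁
  have hpp₁ : lam (p * p₁) = 0 := by
    rw [hp₁, ← mul_assoc, mul_inv_cancel₀ hp, one_mul, hlk]
  have hp₁0 : p₁ ≠ 0 := mul_ne_zero (inv_ne_zero hp) hk0
  refine ⟨hQe, fun y hy => ?_⟩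
  rw [C.hf] at hy
  have hzb : h z b = 1 := by rw [H.symm]; exact hbz
  have hm := pj_mem H hb hz hbz y
  have hR1 : R hQ M (p • b) (h y z • b) := hline _ p
  have hR2 : R hQ M (p • b) (h y b • z) := by
    apply hpz
    have : h (p • b) y = p * h y b := by
      simp [H.symm b y]
    rw [← this]
    exact hy
  have hR3 : R hQ M (p • b) (pj h b z y) := by
    have hm' : p₁⁻¹ • pj h b z y ∈ J2 h b z := (J2 h b z).smul_mem _ hm
    have := R_py C hd hb hz hbz hline (hpz p p₁ hpp₁) hm'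
    rwa [smul_smul, mul_inv_cancel₀ hp₁0, one_smul] at this
  have e : y = h y z • b + h y b • z + pj h b z y := by
    simp only [pj]
    abel
  rw [e]
  exact R_add (R_add hR1 hR2) hR3

/-- The end of the argument. -/
theorem omega_le [Finite L] (C : Ctx h lam Q M X) (hQ : Nondeg Q) (hr : (finrank F L).Prime)
    (hcase : 5 ≤ finrank L (ι → F) ∨ 3 ≤ finrank F L) (hd : 4 ≤ finrank L (ι → F)) (h11 : 11 ≤ Fintype.card ι)
    {θ : L} (hθ0 : θ ≠ 0) (hθ1 : θ ≠ 1) (hθ2 : θ ≠ -1) {b ys : ι → F} (hb0 : b ≠ 0) (hb : h b b = 0)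
    (hys : h b ys = 0) (hysn : ys ∉ lin F L b) {ξ : (ι → F) ≃ₗ[F] (ι → F)} (hξ : ξ ∈ X) {p' : L} (hp' : p' ≠ 0)
    (hξf : ∀ v, h v b = 0 → ξ v = v + lam (h v ys) • (p' • b)) : omegaGL ⇑Q ≤ M := by
  have H := C.H
  have hd3 : 3 ≤ finrank L (ι → F) := by omega
  obtain ⟨z, hz, hbz⟩ := exists_partner H hb0 hb
  have hzb : h z b = 1 := by rw [H.symm]; exact hbz
  obtain ⟨y, hy, hy0, hG⟩ := exists_y0 (hQ := hQ) C hd hθ0 hθ1 hθ2 hb hz hbz hys hysn hξ hp' hξf
  have hline := G_line C hd3 hb hz hbz hy hy0 hG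
  obtain ⟨y₁, hy₁, y₂, hy₂, hG₁, hG₂, hne⟩ := exists_pair C hr hcase hd hb hz hbz hy hy0 hG
  have hpz := R_pz C hb hz hbz hy₁ hy₂ hG₁ hG₂ hne
  have hT : ∀ {p : L}, p ≠ 0 → T hQ M (p • b) := fun hp => T_pb C hr hd3 hb hz hbz hline hpz hp
  obtain ⟨a, ha⟩ : ∃ a, lam a ≠ 0 := by
    by_contra hcon
    push Not at hcon
    exact C.hlam (LinearMap.ext hcon)
  have ha0 : a ≠ 0 := by
    rintro rfl
    simp at ha
  -- the swap
  have h1 := finrank_J2 (h := h) b z
  obtain ⟨v₀, hv₀, hv₀n⟩ := exists_norm H (nds_J2 H hb hz hbz) (by omega) (-2 : L)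
  obtain ⟨hv₀b, hv₀z⟩ := mem_J2.mp hv₀
  have hbv₀ : h b v₀ = 0 := by rw [H.symm]; exact hv₀b
  have e1 := norm_hyp H hb hz hbz
  have h2 : (-2 : L) ≠ 0 := neg_ne_zero.mpr H.two
  have hn1 : h (b - z) (b - z) ≠ 0 := by rw [e1]; exact h2
  have hn2 : h v₀ v₀ ≠ 0 := by rw [hv₀n]; exact h2
  have hσ := rr_mem H C.hX hn1 hn2 (by rw [e1, hv₀n])
  have eb : (rE H hn1 * rE H hn2) b = z := by
    have e0 : rLin h v₀ b = b := rLin_perp hbv₀
    rw [LinearEquiv.mul_apply, rE_apply, rE_apply, e0, rLin_hyp H hb hz hbz]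
  have hTz : T hQ M z := by
    obtain ⟨t, ht, hte⟩ := C.hMX _ hσ
    have h3 := T_conj (C.hMQ t ht) ht (hT (p := 1) one_ne_zero)
    rw [one_smul, hte, toF_apply, eb] at h3
    exact h3
  refine omega_le_of_opp h11 (hT ha0) hTz ?_
  rw [C.hf]
  simp [hzb, ha]

end Cfsg.Agent.H28.XE
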