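import Mathlib
import Cfsg.Agent.H28.XE
import Cfsg.Agent.Lib.ExtSpE
import Cfsg.Agent.Lib.FieldModel
import Cfsg.Agent.Lib.H97Ort4

/-!
# Normalisers of self-adjoint field extensions in orthogonal groups
-/

set_option autoImplicit false
set_option linter.unusedSectionVars false
set_option linter.unusedSimpArgs false
set_option linter.unusedVariables false
set_option linter.style.haveILetI false

namespace Cfsg.Agent.H28.XF

open Module Matrix QuadraticMap Cfsg Cfsg.Geo Cfsg.Agent.Lib.ExtA Cfsg.Agent.Lib.ExtB Cfsg.Agent.Lib.ExtC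
  Cfsg.Agent.H28.XA Cfsg.Agent.H28.XB Cfsg.Agent.H28.XC Cfsg.Agent.H28.XD Cfsg.Agent.H28.XE
  Cfsg.Agent.Lib.OrthoBasic Cfsg.Agent.Lib.OrthoSiegel Cfsg.Agent.Lib.OmCalc
open Cfsg.Agent.Lib.ExtSpC (lam_unique)
open Cfsg.Agent.Lib.ExtSpE (Thi Thi_apply semi_iff)

local notation:70 g:71 " ⋆ " x:70 => Matrix.mulVec (Units.val g) x

universe u

section form

variable {F L V : Type*} [Field F] [Field L] [Algebra F L]
  [AddCommGroup V] [Module L V] [Module F V] [IsScalarTower F L V] [Finite F] [Module.Finite F L]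

theorem exists_form {lam : L →ₗ[F] F} (hlam : lam ≠ 0) (h2 : (2 : L) ≠ 0) {f : V → V → F}
    (fal : ∀ x y v, f (x + y) v = f x v + f y v)
    (fsl : ∀ (c : F) x v, f (c • x) v = c * f x v)
    (far : ∀ v x y, f v (x + y) = f v x + f v y)
    (fsa : ∀ (a : L) u v, f (a • u) v = f u (a • v))
    (fsym : ∀ u v, f u v = f v u)
    (fnd : ∀ u, u ≠ 0 → ∃ v, f u v ≠ 0) :
    ∃ h : LinearMap.BilinForm L V, OH h ∧ ∀ u v, f u v = lam (h u v) := by
  have hex : ∀ u v, ∃ d : L, ∀ a : L, lam (a * d) = f (a • u) v := by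
    intro u v
    let π' : L →ₗ[F] F :=
      { toFun := fun a => f (a • u) v
        map_add' := by
          intro a b
          rw [add_smul, fal]
        map_smul' := by
          intro c a
          rw [smul_assoc, fsl]
          rfl }
    obtain ⟨d, hd⟩ := nondeg hlam π'
    refine ⟨d, fun a => ?_⟩
    have := LinearMap.congr_fun hd a
    change f (a • u) v = lam (d * a) at this
    rw [this, mul_comm]
  choose h0 hh0 using hex
  have uniq : ∀ u v d, (∀ a : L, lam (a * d) = f (a • u) v) → h0 u v = d := by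
    intro u v d hd
    apply lam_unique hlam
    intro a
    rw [hh0, hd]
  let h : LinearMap.BilinForm L V := LinearMap.mk₂ L h0
    (by
      intro u u' v
      apply uniq
      intro a
      rw [mul_add, map_add, hh0, hh0, smul_add, fal])
    (by
      intro c u v
      apply uniq
      intro a
      rw [smul_eq_mul, ← mul_assoc, hh0, mul_smul])
    (by
      intro u v v'
      apply uniq
      intro a
      rw [mul_add, map_add, hh0, hh0, far])
    (by
      intro c u v
      apply uniq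
      intro a
      rw [smul_eq_mul, ← mul_assoc, hh0, mul_comm a c, mul_smul, fsa])
  have hh : ∀ u v, h u v = h0 u v := fun u v => rfl
  have hfu : ∀ u v, f u v = lam (h u v) := by
    intro u v
    have := hh0 u v 1
    rw [one_mul, one_smul] at this
    rw [hh, this]
  refine ⟨h, ⟨fun u v => ?_, fun u hu => ?_, h2⟩, hfu⟩
  · rw [hh]
    apply uniq
    intro a
    rw [hh v u, hh0, fsa, fsym]
  · obtain ⟨v, hv⟩ := fnd u hu
    refine ⟨v, fun h1 => hv ?_⟩
    rw [hfu, h1, map_zero]

end form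

variable {F : Type u} [Field F] [Fintype F] {n : ℕ} {L : Type u} [Field L] [Algebra F L]
  [Module L (Fin n → F)] [IsScalarTower F L (Fin n → F)] [Module.Finite F L]
  [Module.Finite L (Fin n → F)]
  {K : Subalgebra F (Matrix (Fin n) (Fin n) F)}
  {φ : L →ₐ[F] Matrix (Fin n) (Fin n) F}

theorem core_M (hr : (finrank F L).Prime) (hd : 4 ≤ finrank L (Fin n → F))
    (hcase : 5 ≤ finrank L (Fin n → F) ∨ 3 ≤ finrank F L) (h11 : 11 ≤ n)
    (hinj : Function.Injective φ) (hmem : ∀ k, k ∈ K ↔ ∃ a, φ a = k)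
    (hsmul : ∀ (a : L) (v : Fin n → F), a • v = φ a *ᵥ v)
    {Q : QuadraticForm F (Fin n → F)} (hQ : Nondeg Q)
    {h : LinearMap.BilinForm L (Fin n → F)} (H : OH h) {lam : L →ₗ[F] F} (hlam : lam ≠ 0)
    (hf : ∀ u v, polar Q u v = lam (h u v))
    {M : Subgroup (GL (Fin n) F)} (hM1 : subalgebraNormalizer K ⊓ omegaGL ⇑Q ≤ M)
    (hM2 : M ≤ omegaGL ⇑Q) {y : GL (Fin n) F} (hyM : y ∈ M)
    (hyN : y ∉ subalgebraNormalizer K) : omegaGL ⇑Q ≤ M := by
  haveI : Finite L := Module.finite_of_finite F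
  let X : Subgroup ((Fin n → F) ≃ₗ[F] (Fin n → F)) :=
    M.comap (Thi (Fin n) F).symm.toMonoidHom
  have hXmem : ∀ e, e ∈ X ↔ (Thi (Fin n) F).symm e ∈ M := fun e => Iff.rfl
  have hThi : ∀ (e : (Fin n → F) ≃ₗ[F] (Fin n → F)) (v : Fin n → F), (Thi (Fin n) F).symm e ⋆ v = e v := by
    intro e v
    have := Thi_apply ((Thi (Fin n) F).symm e) v
    rw [MulEquiv.apply_symm_apply] at this
    exact this.symm
  have hQeq : ∀ v, Q v = (2 : F)⁻¹ * lam (h v v) := by
    intro v
    have h1 := hf v v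
    rw [QuadraticMap.polar_self, two_nsmul] at h1
    rw [← h1]
    have h2F : (2 : F) ≠ 0 := by
      intro h0
      apply H.two
      have := congrArg (algebraMap F L) h0
      rw [map_ofNat, map_zero] at this
      exact this
    field_simp
    ring
  have hisoL : ∀ g : (Fin n → F) ≃ₗ[L] (Fin n → F), IsoL h g →
      (Thi (Fin n) F).symm (toF (F := F) g) ∈ isometryGroup F ⇑Q := by
    intro g hg u _
    change Q ((Thi (Fin n) F).symm (toF (F := F) g) ⋆ u) = Q u
    rw [hThi, toF_apply, hQeq, hg, hQeq]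
  have hX : HO h X := by
    intro g₁ g₂ hg₁ hg₂
    rw [hXmem]
    apply hM1
    refine Subgroup.mem_inf.mpr ⟨?_, ?_⟩
    · rw [← semi_iff hinj hmem hsmul]
      simpa using semi_toF (F := F) (g₁ * g₂ * g₁⁻¹ * g₂⁻¹)
    · have h1 := hisoL g₁ hg₁
      have h2 := hisoL g₂ hg₂
      let G1 : isometryGroup F ⇑Q := ⟨_, h1⟩
      let G2 : isometryGroup F ⇑Q := ⟨_, h2⟩
      have h3 : G1 * G2 * G1⁻¹ * G2⁻¹ ∈ Omega F ⇑Q :=
        Subgroup.commutator_mem_commutator (Subgroup.mem_top G1) (Subgroup.mem_top G2)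
      refine ⟨_, h3, ?_⟩
      simp only [Subgroup.subtype_apply, Subgroup.coe_mul, Subgroup.coe_inv, G1, G2]
      rw [toF_mul, toF_mul, toF_mul, toF_inv, toF_inv, map_mul, map_mul, map_mul, map_inv, map_inv]
  have hiso : ∀ g ∈ X, ∀ u v, lam (h (g u) (g v)) = lam (h u v) := by
    intro g hg u v
    have h1 := polar_iso (iso_omega (hM2 ((hXmem g).mp hg))) u v
    rw [hThi, hThi, hf, hf] at h1
    exact h1
  have C : Ctx h lam Q M X :=
    { H := H
      hlam := hlam
      hf := hf
      hMX := fun g hg => ⟨_, (hXmem g).mp hg, hThi g⟩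
      hMQ := fun t ht v => iso_omega (hM2 ht) v
      hX := hX }
  have hxX : Thi (Fin n) F y ∈ X := by
    rw [hXmem]
    simpa using hyM
  have hS : ¬ Semi (L := L) (Thi (Fin n) F y) :=
    fun h => hyN ((semi_iff hinj hmem hsmul y).mp h)
  obtain ⟨θ, hθ⟩ := exists_not_alg (F := F) (L := L) hr
  have hθ0 : θ ≠ 0 := fun h0 => hθ 0 (by simp [h0])
  have hθ1 : θ ≠ 1 := fun h0 => hθ 1 (by simp [h0])
  have hθ2 : θ ≠ -1 := fun h0 => hθ (-1) (by simp [h0])
  obtain ⟨b, -, hb0, hb⟩ := exists_sing H (nds_top H) (S := ⊤) (by rw [finrank_top]; omega)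
  obtain ⟨g, hg⟩ := exists_maxG_O H hX hd hθ0 hθ1 hθ2 hxX hS hb0 hb
  obtain ⟨g', hg', hP⟩ := exists_caseA H hX hd hθ0 hθ1 hθ2 hlam hiso hb0 hb hg
  obtain ⟨ξ, hξ, ys, p', hp', hys, hysn, hξf⟩ := step3 hr H hX hd hlam hiso hb0 hb hg' hP
  exact omega_le C hQ hr hcase hd (by simpa using h11) hθ0 hθ1 hθ2 hb0 hb hys hysn hξ hp' hξf

theorem main_of_module (hr : (finrank F L).Prime) (hd : 4 ≤ finrank L (Fin n → F))
    (hcase : 5 ≤ finrank L (Fin n → F) ∨ 3 ≤ finrank F L) (h11 : 11 ≤ n)
    (hinj : Function.Injective φ) (hmem : ∀ k, k ∈ K ↔ ∃ a, φ a = k)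
    (hsmul : ∀ (a : L) (v : Fin n → F), a • v = φ a *ᵥ v)
    {Q : QuadraticForm F (Fin n → F)} (hQ : Nondeg Q) (h2 : (2 : F) ≠ 0)
    (hsa : IsSelfAdjointFor (polar ⇑Q) K) :
    IsMaximalIn (omegaGL ⇑Q) (subalgebraNormalizer K ⊓ omegaGL ⇑Q) := by
  haveI : Finite L := Module.finite_of_finite F
  obtain ⟨lam, hlamR⟩ := exists_retr (F := F) (L := L)
  have hl1 : lam 1 = 1 := by simpa using hlamR 1
  have hlam : lam ≠ 0 := by
    rintro rfl
    simp at hl1
  have h2L : (2 : L) ≠ 0 := by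
    intro h0
    apply h2
    have : algebraMap F L 2 = 0 := by
      rw [map_ofNat]
      exact h0
    exact (map_eq_zero_iff _ (algebraMap F L).injective).mp this
  obtain ⟨h, H, hf⟩ := exists_form (V := Fin n → F) (f := polar ⇑Q) hlam h2L
    (fun x y v => QuadraticMap.polar_add_left Q x y v)
    (fun c x v => by rw [QuadraticMap.polar_smul_left, smul_eq_mul])
    (fun v x y => QuadraticMap.polar_add_right Q v x y)
    (fun a u v => by
      rw [hsmul, hsmul]
      exact hsa (φ a) ((hmem _).mpr ⟨a, rfl⟩) u v)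
    (fun u v => QuadraticMap.polar_comm Q u v)
    (fun u hu => hQ u hu)
  refine ⟨?_, ?_⟩
  · rw [SetLike.lt_iff_le_and_exists]
    refine ⟨inf_le_right, ?_⟩
    have hd3 : 3 ≤ finrank L (Fin n → F) := by omega
    obtain ⟨b, -, hb0, hb⟩ := exists_sing H (nds_top H) (S := ⊤) (by rw [finrank_top]; omega)
    obtain ⟨z, hz, hbz⟩ := exists_partner H hb0 hb
    obtain ⟨y, hy, hy0⟩ := J2_ne (h := h) (b := b) (z := z) hd3
    obtain ⟨u, hu, huy⟩ := nds_J2 H hb hz hbz y hy hy0
    obtain ⟨hyb, hyz⟩ := mem_J2.mp hy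
    obtain ⟨hub, huz⟩ := mem_J2.mp hu
    have hby : h b y = 0 := by rw [H.symm]; exact hyb
    set x := (h y u)⁻¹ • u with hx
    have hxb : h x b = 0 := by simp [hx, hub]
    have hxy : h x y = 1 := by
      rw [H.symm]
      simp [hx, huy]
    have hQeq : ∀ v, Q v = (2 : F)⁻¹ * lam (h v v) := by
      intro v
      have h1 := hf v v
      rw [QuadraticMap.polar_self, two_nsmul] at h1
      rw [← h1]
      field_simp
      ring
    have he : Q b = 0 := by rw [hQeq, hb, map_zero, mul_zero]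
    have hpy : polar Q b y = 0 := by
      rw [hf, hby, map_zero]
    refine ⟨Cfsg.Agent.Lib.OmCalc.sE hQ he hpy, sE_mem_omegaGL hQ (by simpa using h11) he hpy, fun h0 => ?_⟩
    have h1 := (semi_iff hinj hmem hsmul _).mpr h0.1
    obtain ⟨θ, hθ⟩ := exists_not_alg (F := F) (L := L) hr
    obtain ⟨θ', hθ'⟩ := h1 θ
    have ea : ∀ x', Thi (Fin n) F (Cfsg.Agent.Lib.OmCalc.sE hQ he hpy) x' =
        x' + lam (h x' b) • y - (lam (h x' y) + Q y * lam (h x' b)) • b := by
      intro x'
      rw [Thi_apply, sE_apply', hf, hf]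
    have e1 := hθ' b
    rw [ea, ea] at e1
    simp only [map_smul, LinearMap.smul_apply, smul_eq_mul, hb, hby, mul_zero, map_zero, zero_smul, add_zero,
      sub_zero] at e1
    have e2 : θ = θ' := by
      have h4 : (θ - θ') • b = 0 := by rw [sub_smul, e1, sub_self]
      exact sub_eq_zero.mp ((smul_eq_zero.mp h4).resolve_right hb0)
    subst e2
    have e3 := hθ' x
    rw [ea, ea] at e3
    simp only [map_smul, LinearMap.smul_apply, smul_eq_mul, hxb, hxy, mul_zero, map_zero, zero_smul, add_zero,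
      mul_one, hl1, one_smul] at e3
    have e4 : lam θ • b = θ • b := by
      have e5 : θ • (x - b) = θ • x - θ • b := smul_sub _ _ _
      rw [e5] at e3
      exact sub_right_injective e3
    apply hθ (lam θ)
    have h7 : (algebraMap F L (lam θ) - θ) • b = 0 := by
      rw [sub_smul, algebraMap_smul, e4, sub_self]
    exact sub_eq_zero.mp ((smul_eq_zero.mp h7).resolve_right hb0)
  · intro M hM1 hM2
    by_cases hMN : M ≤ subalgebraNormalizer K
    · left
      exact le_antisymm (le_inf hMN hM2) hM1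
    · right
      obtain ⟨y, hyM, hyN⟩ := SetLike.not_le_iff_exists.mp hMN
      exact le_antisymm hM2 (core_M hr hd hcase h11 hinj hmem hsmul hQ H hlam hf hM1 hM2 hyM hyN)

/-- The statement. -/
theorem main {F : Type u} [Field F] [Fintype F] {n : ℕ} (hn : 13 ≤ n) (heven : Even n) (Q : (Fin n → F) → F)
    (hQ : IsNondegenerateQuadraticForm Q) (hodd : Odd (Fintype.card F)) (r : ℕ) (hr : r.Prime)
    (hnr : 3 * r ≤ n) (K : Subalgebra F (Matrix (Fin n) (Fin n) F)) (hK : IsFieldSubalgebra r K)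
    (hsa : IsSelfAdjointFor (QuadraticMap.polar Q) K) :
    IsMaximalIn (omegaGL Q) (subalgebraNormalizer K ⊓ omegaGL Q) := by
  obtain ⟨Q', rfl⟩ := exists_toQF Q hQ
  have hQ' : Nondeg Q' := nondeg_of hQ
  have h2 : (2 : F) ≠ 0 := Cfsg.Agent.H97.Asch.two_ne_of_odd_card hodd
  obtain ⟨L, _, _, φ, hinj, hmem, hfr⟩ := Cfsg.Agent.Lib.FieldModel.exists_model hr.ne_zero hK
  letI modL : Module L (Fin n → F) :=
    { smul := fun e v => (φ e) *ᵥ v
      one_smul := fun v => by change (φ 1) *ᵥ v = v; simp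
      mul_smul := fun a b v => by
        change (φ (a * b)) *ᵥ v = (φ a) *ᵥ ((φ b) *ᵥ v)
        simp [Matrix.mulVec_mulVec]
      smul_zero := fun a => Matrix.mulVec_zero _
      smul_add := fun a v w => Matrix.mulVec_add _ _ _
      add_smul := fun a b v => by
        change (φ (a + b)) *ᵥ v = (φ a) *ᵥ v + (φ b) *ᵥ v
        simp [Matrix.add_mulVec]
      zero_smul := fun v => by
        change (φ 0) *ᵥ v = 0
        simp }
  have hsmul : ∀ (a : L) (v : Fin n → F), a • v = φ a *ᵥ v := fun _ _ => rfl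
  haveI tower : IsScalarTower F L (Fin n → F) := ⟨fun c e v => by
    rw [hsmul, hsmul, map_smul, Matrix.smul_mulVec]⟩
  haveI : Module.Finite F L := Module.finite_of_finrank_pos (by rw [hfr]; exact hr.pos)
  haveI : Module.Finite L (Fin n → F) :=
    Module.Finite.of_restrictScalars_finite F L (Fin n → F)
  have hprod : finrank F L * finrank L (Fin n → F) = n := by
    rw [Module.finrank_mul_finrank]
    simp
  rw [hfr] at hprod
  have hr2 := hr.two_le
  set d := finrank L (Fin n → F) with hdd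
  have hd3 : 3 ≤ d := by
    by_contra hlt
    have : d ≤ 2 := by omega
    have h3 : r * d ≤ r * 2 := Nat.mul_le_mul_left r this
    nlinarith
  have hd4 : 4 ≤ d := by
    by_contra hlt
    have h3 : d = 3 := by omega
    rw [h3] at hprod
    have h4 : Even (r * 3) := by rw [hprod]; exact heven
    rcases Nat.even_mul.mp h4 with h5 | h5
    · have h6 : r = 2 := (Nat.Prime.even_iff hr).mp h5
      omega
    · exact absurd h5 (by decide)
  have hcase : 5 ≤ d ∨ 3 ≤ finrank F L := by
    by_cases h5 : 5 ≤ d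
    · exact Or.inl h5
    · right
      have h3 : d = 4 := by omega
      rw [h3] at hprod
      rw [hfr]
      omega
  exact main_of_module (by rw [hfr]; exact hr) hd4 hcase (by omega) hinj hmem hsmul hQ' h2 hsa

end Cfsg.Agent.H28.XF
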